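import Cfsg.Agent.Recog.HuppertMain
import Mathlib.FieldTheory.Finite.GaloisField

/-!
Solvable linear groups of odd order with two opposite orbits on the non-zero vectors
are semilinear of dimension one.
-/

set_option autoImplicit false
set_option linter.style.haveILetI false

namespace Cfsg.Agent.PermB.HalfSemi

open Cfsg.Agent

variable {p : ℕ} [Fact p.Prime] {V : Type*} [AddCommGroup V] {H : Type*} [Group H]
  [DistribMulAction H V]

theorem eq_zero_of_eq_neg [Finite V] {v : V} (hV : ∃ f, Nat.card V = p ^ f) (hp2 : p ≠ 2)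
    (hv : v = -v) : v = 0 := by
  obtain ⟨f, hVc⟩ := hV
  have h2 : (2 : ℕ) • v = 0 := by
    rw [two_nsmul]
    exact eq_neg_iff_add_eq_zero.1 hv
  have hd' : addOrderOf v ∣ p ^ f := hVc ▸ addOrderOf_dvd_natCard v
  have hco : Nat.Coprime 2 (p ^ f) :=
    Nat.Coprime.pow_right f ((Nat.coprime_primes Nat.prime_two Fact.out).2 hp2.symm)
  exact AddMonoid.addOrderOf_eq_one_iff.1
    (Nat.eq_one_of_dvd_coprimes hco (addOrderOf_dvd_of_nsmul_eq_zero h2) hd')

theorem eq_zero_of_smul_eq_neg [Finite V] [Finite H] {v : V} (hV : ∃ f, Nat.card V = p ^ f)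
    (hp2 : p ≠ 2) (hH : Odd (Nat.card H)) {h : H} (hv : h • v = -v) : v = 0 := by
  have key : ∀ k : ℕ, (h ^ k) • v = (-1 : ℤ) ^ k • v := by
    intro k
    induction k with
    | zero => rw [pow_zero, one_smul, pow_zero, one_smul]
    | succ k ih =>
      rw [pow_succ, mul_smul, hv, smul_neg, ih, pow_succ, mul_neg_one, neg_smul]
  have hk := key (Nat.card H)
  rw [pow_card_eq_one', one_smul, hH.neg_one_pow, neg_one_zsmul] at hk
  exact eq_zero_of_eq_neg hV hp2 hk

/-- The number of vectors is `3` modulo `4`. -/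
theorem card_mod_four [Finite V] [Finite H] [Nontrivial V] {f : ℕ} (hV : Nat.card V = p ^ f)
    (hp2 : p ≠ 2) (hH : Odd (Nat.card H))
    (htr : ∀ v w : V, v ≠ 0 → w ≠ 0 → ∃ h : H, h • v = w ∨ h • v = -w) : p ^ f % 4 = 3 := by
  obtain ⟨v₀, hv₀⟩ := exists_ne (0 : V)
  set O := MulAction.orbit H v₀ with hO
  have hOodd : Odd O.ncard := by
    refine hH.of_dvd_nat ?_
    rw [← Nat.card_coe_set_eq, Nat.card_congr (MulAction.orbitEquivQuotientStabilizer H v₀)]
    exact Subgroup.card_quotient_dvd_card _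
  have hdisj : Disjoint O ((fun v => -v) '' O) := by
    rw [Set.disjoint_left]
    rintro _ ⟨h, rfl⟩ ⟨_, ⟨k, rfl⟩, hk⟩
    have hk' : -(k • v₀) = h • v₀ := hk
    refine hv₀ (eq_zero_of_smul_eq_neg ⟨f, hV⟩ hp2 hH (h := k⁻¹ * h) ?_)
    rw [mul_smul, ← hk', smul_neg, inv_smul_smul]
  have hcover : O ∪ ((fun v => -v) '' O) = {(0 : V)}ᶜ := by
    ext w
    rw [Set.mem_compl_singleton_iff]
    constructor
    · rintro (⟨h, rfl⟩ | ⟨_, ⟨h, rfl⟩, rfl⟩) e
      · exact hv₀ ((smul_eq_zero_iff_eq h).1 e)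
      · exact hv₀ ((smul_eq_zero_iff_eq h).1 (neg_eq_zero.1 e))
    · intro hw
      obtain ⟨h, hh | hh⟩ := htr v₀ w hv₀ hw
      · exact Or.inl ⟨h, hh⟩
      · exact Or.inr ⟨_, ⟨h, rfl⟩, by show -(h • v₀) = w; rw [hh, neg_neg]⟩
  have hcnt := congrArg Set.ncard hcover
  rw [Set.ncard_union_eq hdisj, Set.ncard_image_of_injective _ neg_injective,
    Set.ncard_compl, Set.ncard_singleton, hV] at hcnt
  obtain ⟨j, hj⟩ := hOodd
  have := Nat.one_le_pow f p (Fact.out : p.Prime).pos
  omega

/-- An odd order solvable group with two opposite orbits on non-zero vectors is semilinear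
over the field with as many elements as the space. -/
theorem semilinear [Finite V] [Finite H] [Nontrivial V] [FaithfulSMul H V]
    (hsol : Group.IsSolvable H) {f : ℕ} (hV : Nat.card V = p ^ f) (hexp : ∀ v : V, p • v = 0)
    (hp2 : p ≠ 2) (hH : Odd (Nat.card H))
    (htr : ∀ v w : V, v ≠ 0 → w ≠ 0 → ∃ h : H, h • v = w ∨ h • v = -w) :
    ∃ e : V ≃+ GaloisField p f, ∀ h : H,
      ∃ (a : (GaloisField p f)ˣ) (σ : GaloisField p f ≃+* GaloisField p f),
        ∀ v : V, e (h • v) = a * σ (e v) := by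
  classical
  haveI : Module (ZMod p) V := AddCommGroup.zmodModule hexp
  let L : H × ℤˣ → V →+ V := fun x =>
    (DistribSMul.toAddMonoidHom V x.2).comp (DistribSMul.toAddMonoidHom V x.1)
  have hL : ∀ x v, L x v = (x.2 : ℤ) • x.1 • v := fun x v => rfl
  have hz : ∀ (h : H) (z : ℤ) (v : V), h • z • v = z • h • v := fun h z v =>
    map_zsmul (DistribSMul.toAddMonoidHom V h) z v
  let ρ : (H × ℤˣ) →* (V ≃ₗ[ZMod p] V) :=
    { toFun := fun x =>
        { (L x).toZModLinearMap p with
          invFun := fun v => L x⁻¹ v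
          left_inv := fun v => by
            show L x⁻¹ (L x v) = v
            rw [hL, hL, hz, smul_smul, smul_smul, ← Units.val_mul, Prod.fst_inv, Prod.snd_inv,
              inv_mul_cancel, inv_mul_cancel, one_smul, Units.val_one, one_smul]
          right_inv := fun v => by
            show L x (L x⁻¹ v) = v
            rw [hL, hL, hz, smul_smul, smul_smul, ← Units.val_mul, Prod.fst_inv, Prod.snd_inv,
              mul_inv_cancel, mul_inv_cancel, one_smul, Units.val_one, one_smul] }
      map_one' := LinearEquiv.ext fun v => by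
        show L 1 v = v
        rw [hL, Prod.fst_one, Prod.snd_one, Units.val_one, one_smul, one_smul]
      map_mul' := fun x y => LinearEquiv.ext fun v => by
        show L (x * y) v = L x (L y v)
        rw [hL, hL, hL, hz, smul_smul, smul_smul, ← Units.val_mul]
        rfl }
  have hρ' : ∀ x v, ρ x v = (x.2 : ℤ) • x.1 • v := fun x v => rfl
  have hρ : Function.Injective ρ := by
    rw [injective_iff_map_eq_one]
    rintro ⟨h, u⟩ hx
    have hx' : ∀ v, (u : ℤ) • h • v = v := fun v => by
      have h1 := LinearEquiv.congr_fun hx v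
      rw [hρ'] at h1
      exact h1
    rcases Int.units_eq_one_or u with rfl | rfl
    · refine Prod.ext (FaithfulSMul.eq_of_smul_eq_smul (α := V) fun v => ?_) rfl
      show h • v = (1 : H) • v
      rw [one_smul]
      simpa using hx' v
    · exfalso
      obtain ⟨v, hv⟩ := exists_ne (0 : V)
      refine hv (eq_zero_of_smul_eq_neg ⟨f, hV⟩ hp2 hH (h := h) ?_)
      rw [← neg_eq_iff_eq_neg]
      simpa using hx' v
  have htr' : Recog.TransLin.IsTrans ρ := by
    intro v w hv hw
    obtain ⟨h, hh | hh⟩ := htr v w hv hw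
    · exact ⟨(h, 1), by rw [hρ']; simpa using hh⟩
    · exact ⟨(h, -1), by rw [hρ']; simp [hh]⟩
  have hmod := card_mod_four hV hp2 hH htr
  haveI := hsol
  have hgood : Recog.TransLin.IsGood ρ := by
    rcases Recog.TransLin.huppert inferInstance hρ htr' with h | ⟨h, -⟩ | ⟨-, h, -⟩
    · exact h
    · rw [hV] at h; rw [h] at hmod; norm_num at hmod
    · rw [hV] at h
      rw [h, Nat.pow_mod] at hmod
      have : p % 4 < 4 := Nat.mod_lt _ (by norm_num)
      interval_cases hp4 : p % 4 <;> norm_num at hmod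
  obtain ⟨F, iF, iFt, e, he⟩ := hgood.semilinear htr'
  have hf0 : f ≠ 0 := by rintro rfl; norm_num at hmod
  haveI : Fintype (GaloisField p f) := Fintype.ofFinite _
  let ι : F ≃+* GaloisField p f := FiniteField.ringEquivOfCardEq (by
    rw [← Nat.card_eq_fintype_card, ← Nat.card_congr e.toEquiv, hV, ← Nat.card_eq_fintype_card,
      GaloisField.card p f hf0])
  refine ⟨e.trans ι.toAddEquiv, fun h => ?_⟩
  obtain ⟨c, σ, hc⟩ := he (h, 1)
  have hc' : ∀ v, e (h • v) = c * σ (e v) := fun v => by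
    rw [← hc, hρ']
    simp
  have hc0 : c ≠ 0 := by
    rintro rfl
    obtain ⟨v, hv⟩ := exists_ne (0 : V)
    have h1 := hc' v
    rw [zero_mul, map_eq_zero_iff e e.injective, smul_eq_zero_iff_eq] at h1
    exact hv h1
  refine ⟨Units.mk0 (ι c) (by simpa using hc0), ι.symm.trans (σ.trans ι), fun v => ?_⟩
  show ι (e (h • v)) = ι c * ι (σ (ι.symm (ι (e v))))
  rw [hc', map_mul, RingEquiv.symm_apply_apply]

end Cfsg.Agent.PermB.HalfSemi
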