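import Cfsg.Agent.Coprime.Generation
import Cfsg.Agent.OddChar.FixedPoint
import Mathlib.GroupTheory.PGroup
import Mathlib.GroupTheory.Perm.Cycle.Type

/-!
Group theory behind quadruply transitive groups of semiregular type: an elementary abelian group of
order nine acting on a group with small centralisers.
-/

set_option autoImplicit false

namespace Cfsg.Agent.PermB.SemiregFour

open Subgroup

variable {X : Type*} [Group X] [Finite X]

/-- An element of prime order fixes in an invariant subgroup the order of it modulo the prime. -/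
theorem card_centralizer_modEq {p : ℕ} [hp : Fact p.Prime] {K : Subgroup X} {w : X}
    (hw : w ^ p = 1) (hn : ∀ u ∈ K, w * u * w⁻¹ ∈ K) :
    Nat.card ↥(K ⊓ centralizer {w}) ≡ Nat.card K [MOD p] := by
  classical
  haveI := Fintype.ofFinite K
  let σ : Equiv.Perm K := Equiv.ofBijective (fun u => ⟨w * u * w⁻¹, hn u u.2⟩)
    (Finite.injective_iff_bijective.1 fun u v e => Subtype.ext (by
      simpa using congrArg Subtype.val e))
  have hσ : ∀ u : K, ((σ u : K) : X) = w * u * w⁻¹ := fun u => rfl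
  have hpow : ∀ (k : ℕ) (u : K), (((σ ^ k) u : K) : X) = w ^ k * u * (w ^ k)⁻¹ := by
    intro k u
    induction k with
    | zero => simp
    | succ k ih => rw [pow_succ', Equiv.Perm.mul_apply, hσ, ih, pow_succ']; group
  have hσp : σ ^ p ^ 1 = 1 := by
    ext u; rw [pow_one, hpow, hw]; simp
  have h := Equiv.Perm.card_compl_support_modEq (p := p) (n := 1) hσp
  rw [← Nat.card_eq_fintype_card] at h
  have e : Nat.card ↥(K ⊓ centralizer {w}) = σ.supportᶜ.card := by
    rw [← Nat.card_eq_finsetCard]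
    refine Nat.card_congr
      { toFun := fun u => ⟨⟨u, (mem_inf.1 u.2).1⟩, ?_⟩
        invFun := fun u => ⟨(u.1 : X), mem_inf.2 ⟨u.1.2, ?_⟩⟩
        left_inv := fun u => rfl
        right_inv := fun u => rfl }
    · rw [Finset.mem_compl, Equiv.Perm.notMem_support]
      exact Subtype.ext ((hσ _).trans (mul_inv_eq_iff_eq_mul.2
        (mem_centralizer_iff.1 (mem_inf.1 u.2).2 w rfl)))
    · have h' := u.2
      rw [Finset.mem_compl, Equiv.Perm.notMem_support] at h'
      rw [mem_centralizer_iff]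
      rintro v rfl
      exact mul_inv_eq_iff_eq_mul.1 ((hσ _).symm.trans (congrArg Subtype.val h'))
  rwa [e]

/-- An involution acting on a group of exponent two. -/
theorem card_le_sq_of_involution {Z : Subgroup X} (hZ : ∀ u ∈ Z, u * u = 1)
    (hc : IsMulCommutative Z) {s : X} (hs : s * s = 1) (hn : ∀ u ∈ Z, s * u * s⁻¹ ∈ Z) :
    Nat.card Z ≤ Nat.card ↥(Z ⊓ centralizer {s}) * Nat.card ↥(Z ⊓ centralizer {s}) := by
  letI : CommGroup Z := { (inferInstance : Group Z) with mul_comm := hc.is_comm.comm }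
  have hs' : s⁻¹ = s := inv_eq_of_mul_eq_one_right hs
  let f : Z →* Z := MonoidHom.mk' (fun u => u * ⟨s * u * s⁻¹, hn u u.2⟩) fun u v => by
    rw [mul_mul_mul_comm]
    congr 1
    exact Subtype.ext (by simp [mul_assoc])
  have hr : Nat.card f.range ≤ Nat.card ↥(Z ⊓ centralizer {s}) := by
    refine (Nat.card_le_card_of_injective (fun x => (⟨((x : Z) : X), mem_inf.2 ⟨(x : Z).2, ?_⟩⟩ :
      ↥(Z ⊓ centralizer {s}))) ?_)
    · obtain ⟨y, u, rfl⟩ := x
      rw [mem_centralizer_iff]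
      rintro v rfl
      have hcu : (u : X) * (v * u * v⁻¹) = v * u * v⁻¹ * u :=
        congrArg Subtype.val (mul_comm u ⟨v * u * v⁻¹, hn u u.2⟩)
      show v * ((u : X) * (v * u * v⁻¹)) = (u : X) * (v * u * v⁻¹) * v
      calc v * ((u : X) * (v * u * v⁻¹)) = v * u * v⁻¹ * (v * v) * u * v⁻¹ := by group
        _ = v * u * v⁻¹ * u * v := by rw [hs, hs', mul_one]
        _ = (u : X) * (v * u * v⁻¹) * v := by rw [hcu]
    · intro x y e
      exact Subtype.ext (Subtype.ext (congrArg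
        (fun w : ↥(Z ⊓ centralizer {s}) => (w : X)) e))
  have hk : Nat.card f.ker ≤ Nat.card ↥(Z ⊓ centralizer {s}) := by
    refine (Nat.card_le_card_of_injective (fun x => (⟨((x : Z) : X), mem_inf.2 ⟨(x : Z).2, ?_⟩⟩ :
      ↥(Z ⊓ centralizer {s}))) ?_)
    · obtain ⟨u, hu⟩ := x
      rw [mem_centralizer_iff]
      rintro v rfl
      have h1 : (u : X) * (v * u * v⁻¹) = 1 := congrArg Subtype.val (MonoidHom.mem_ker.1 hu)
      have h2 : v * u * v⁻¹ = u := by
        rw [← inv_eq_of_mul_eq_one_right h1, inv_eq_of_mul_eq_one_right (hZ u u.2)]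
      exact mul_inv_eq_iff_eq_mul.1 h2
    · intro x y e
      exact Subtype.ext (Subtype.ext (congrArg
        (fun w : ↥(Z ⊓ centralizer {s}) => (w : X)) e))
  rw [← Subgroup.card_mul_index f.ker, Subgroup.index_ker]
  exact Nat.mul_le_mul hk hr

/-- The functionals cutting out the four lines of the plane. -/
def planeLine : Fin 4 → Multiplicative (ZMod 3 × ZMod 3) →* Multiplicative (ZMod 3) := fun i =>
  AddMonoidHom.toMultiplicative (![AddMonoidHom.snd (ZMod 3) (ZMod 3),
    AddMonoidHom.fst (ZMod 3) (ZMod 3),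
    AddMonoidHom.fst (ZMod 3) (ZMod 3) + AddMonoidHom.snd (ZMod 3) (ZMod 3),
    AddMonoidHom.fst (ZMod 3) (ZMod 3) - AddMonoidHom.snd (ZMod 3) (ZMod 3)] i)

theorem planeLine_cases : ∀ v, v = 1 ∨
    (v ≠ 1 ∧ planeLine 0 v = 1 ∧ planeLine 1 v ≠ 1 ∧ planeLine 2 v ≠ 1 ∧ planeLine 3 v ≠ 1) ∨
    (v ≠ 1 ∧ planeLine 0 v ≠ 1 ∧ planeLine 1 v = 1 ∧ planeLine 2 v ≠ 1 ∧ planeLine 3 v ≠ 1) ∨
    (v ≠ 1 ∧ planeLine 0 v ≠ 1 ∧ planeLine 1 v ≠ 1 ∧ planeLine 2 v = 1 ∧ planeLine 3 v ≠ 1) ∨
    (v ≠ 1 ∧ planeLine 0 v ≠ 1 ∧ planeLine 1 v ≠ 1 ∧ planeLine 2 v ≠ 1 ∧ planeLine 3 v = 1) := by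
  unfold planeLine; decide

theorem card_planeLine_ker : ∀ i, Nat.card (planeLine i).ker = 3 := by
  intro i
  rw [Nat.card_congr (Equiv.subtypeEquivRight fun v => MonoidHom.mem_ker),
    Nat.card_eq_fintype_card]
  revert i
  unfold planeLine; decide

theorem planeLine_gen :
    (Multiplicative.ofAdd ((1, 0) : ZMod 3 × ZMod 3) ≠ 1 ∧
      planeLine 0 (Multiplicative.ofAdd (1, 0)) = 1) ∧
    (Multiplicative.ofAdd ((0, 1) : ZMod 3 × ZMod 3) ≠ 1 ∧
      planeLine 1 (Multiplicative.ofAdd (0, 1)) = 1) ∧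
    (Multiplicative.ofAdd ((1, 2) : ZMod 3 × ZMod 3) ≠ 1 ∧
      planeLine 2 (Multiplicative.ofAdd (1, 2)) = 1) ∧
    (Multiplicative.ofAdd ((1, 1) : ZMod 3 × ZMod 3) ≠ 1 ∧
      planeLine 3 (Multiplicative.ofAdd (1, 1)) = 1) := by
  unfold planeLine; decide

/-- A group on which a plane of operators acts with small centralisers is small. -/
theorem card_of_plane {F : Subgroup X} {c g : X} (hc : c ^ 3 = 1) (hg : g ^ 3 = 1)
    (hc1 : c ≠ 1) (hcg : Commute c g) (hgc : g ∉ zpowers c)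
    (hcF : ∀ u ∈ F, c * u * c⁻¹ ∈ F) (hgF : ∀ u ∈ F, g * u * g⁻¹ ∈ F)
    (hfix : ∀ u ∈ F, c * u * c⁻¹ = u → u = 1)
    (hsmall : ∀ w ∈ zpowers c ⊔ zpowers g, w ∉ zpowers c → Nat.card ↥(F ⊓ centralizer {w}) ≤ 4) :
    Nat.card F ∈ ({1, 4, 16, 64} : Finset ℕ) := by
  classical
  haveI h3 : Fact (Nat.Prime 3) := ⟨Nat.prime_three⟩
  set E := zpowers c ⊔ zpowers g with hE
  have hcE : c ∈ E := mem_sup_left (mem_zpowers c)
  have hgE : g ∈ E := mem_sup_right (mem_zpowers g)
  have hg1 : g ≠ 1 := fun e => hgc (e ▸ one_mem _)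
  have hoc : orderOf c = 3 := orderOf_eq_prime hc hc1
  have hog : orderOf g = 3 := orderOf_eq_prime hg hg1
  have hcn : zpowers c ≤ normalizer (zpowers g : Set X) := by
    refine zpowers_le.2 (mem_set_normalizer_iff.2 fun n => ?_)
    constructor
    · rintro ⟨k, rfl⟩
      exact ⟨k, by simp [(hcg.zpow_right k).eq]⟩
    · rintro ⟨k, hk⟩
      refine ⟨k, ?_⟩
      have hk' : g ^ k = c * n * c⁻¹ := hk
      show g ^ k = n
      calc g ^ k = c⁻¹ * (c * g ^ k) := by group
        _ = c⁻¹ * (g ^ k * c) := by rw [(hcg.zpow_right k).eq]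
        _ = n := by rw [hk']; group
  -- coordinates
  let V := Multiplicative (ZMod 3 × ZMod 3)
  let φ : V →* X := MonoidHom.mk' (fun v => c ^ (v.toAdd.1.val) * g ^ (v.toAdd.2.val)) (by
    intro v w
    have e1 : ∀ {y : X}, y ^ 3 = 1 → ∀ a b : ZMod 3, y ^ (a + b).val = y ^ a.val * y ^ b.val := by
      intro y hy a b
      rw [ZMod.val_add, ← pow_eq_pow_mod _ hy, pow_add]
    show c ^ (v.toAdd.1 + w.toAdd.1).val * g ^ (v.toAdd.2 + w.toAdd.2).val = _
    rw [e1 hc, e1 hg]
    simp only [mul_assoc]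
    rw [← mul_assoc (c ^ w.toAdd.1.val), (hcg.pow_pow w.toAdd.1.val v.toAdd.2.val).eq, mul_assoc])
  have hgnc : ∀ j : ZMod 3, j ≠ 0 → g ^ j.val ∉ zpowers c := by
    intro j hj hmem
    refine hgc ?_
    have hj' : j.val = 1 ∨ j.val = 2 := by
      have := ZMod.val_lt j
      have : j.val ≠ 0 := fun e => hj ((ZMod.val_eq_zero j).1 e)
      omega
    rcases hj' with h | h <;> rw [h] at hmem
    · simpa using hmem
    · have e : g = (g ^ 2)⁻¹ := by
        rw [eq_inv_iff_mul_eq_one, ← pow_succ', hg]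
      rw [e]; exact inv_mem hmem
  have hφ : Function.Injective φ := by
    rw [injective_iff_map_eq_one]
    intro v hv
    have hv' : c ^ v.toAdd.1.val * g ^ v.toAdd.2.val = 1 := hv
    have h2 : v.toAdd.2 = 0 := by
      by_contra h
      refine hgnc _ h ?_
      rw [eq_inv_of_mul_eq_one_right hv']
      exact inv_mem (pow_mem (mem_zpowers c) _)
    have h1 : v.toAdd.1 = 0 := by
      rw [h2, ZMod.val_zero, pow_zero, mul_one] at hv'
      have := orderOf_dvd_of_pow_eq_one hv'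
      rw [hoc] at this
      have := ZMod.val_lt v.toAdd.1
      exact (ZMod.val_eq_zero _).1 (by omega)
    exact Multiplicative.toAdd.injective (Prod.ext h1 h2)
  have hφr : φ.range = E := by
    refine le_antisymm ?_ (sup_le (zpowers_le.2 ⟨Multiplicative.ofAdd (1, 0), ?_⟩)
      (zpowers_le.2 ⟨Multiplicative.ofAdd (0, 1), ?_⟩))
    · rintro _ ⟨v, rfl⟩
      exact mul_mem (pow_mem hcE _) (pow_mem hgE _)
    · simp [φ, ZMod.val_one]
    · simp [φ, ZMod.val_one]
  have hEc : IsMulCommutative E := ⟨⟨fun a b => by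
    obtain ⟨a, ha⟩ := a
    obtain ⟨b, hb⟩ := b
    rw [← hφr] at ha hb
    obtain ⟨v, rfl⟩ := ha
    obtain ⟨w, rfl⟩ := hb
    exact Subtype.ext (show φ v * φ w = φ w * φ v by rw [← map_mul, mul_comm, map_mul])⟩⟩
  have hE9 : Nat.card E = 9 := by
    rw [← hφr, ← Nat.card_congr (MonoidHom.ofInjective hφ).toEquiv,
      Nat.card_congr Multiplicative.toAdd]
    simp
  have hexp : ∀ w ∈ E, w ^ 3 = 1 := by
    rw [← hφr]
    rintro _ ⟨v, rfl⟩
    rw [← map_pow, show v ^ 3 = 1 from Multiplicative.toAdd.injective (by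
      rw [toAdd_pow, toAdd_one]; ext <;> simp [show (3 : ZMod 3) = 0 from rfl]), map_one]
  have hncyc : ¬ IsCyclic E := by
    intro h
    obtain ⟨⟨w, hwE⟩, hw⟩ := IsCyclic.exists_generator (α := E)
    have := orderOf_eq_card_of_forall_mem_zpowers hw
    rw [hE9] at this
    have h4 : orderOf (⟨w, hwE⟩ : E) ∣ 3 :=
      orderOf_dvd_of_pow_eq_one (Subtype.ext (hexp w hwE))
    rw [this] at h4
    omega
  have hEF : E ≤ normalizer (F : Set X) := by
    have hmem : ∀ y : X, y ^ 3 = 1 → (∀ u ∈ F, y * u * y⁻¹ ∈ F) → y ∈ normalizer (F : Set X) := by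
      intro y hy hyF
      rw [mem_set_normalizer_iff]
      refine fun u => ⟨fun h => hyF u h, fun h => ?_⟩
      have h2 := hyF _ (hyF _ h)
      have e : y * (y * (y * u * y⁻¹) * y⁻¹) * y⁻¹ = y ^ 3 * u * (y ^ 3)⁻¹ := by
        simp only [pow_succ, pow_zero, one_mul, mul_inv_rev, mul_assoc]
      rw [e, hy] at h2; simpa using h2
    exact sup_le (zpowers_le.2 (hmem c hc hcF)) (zpowers_le.2 (hmem g hg hgF))
  have hcomm : ∀ w ∈ E, c * w = w * c := fun w hw =>
    congrArg Subtype.val (hEc.is_comm.comm ⟨c, hcE⟩ ⟨w, hw⟩)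
  have hconj : ∀ w ∈ E, ∀ u ∈ F ⊓ centralizer {w}, c * u * c⁻¹ ∈ F ⊓ centralizer {w} := by
    intro w hw u hu
    refine mem_inf.2 ⟨hcF u (mem_inf.1 hu).1, mem_centralizer_iff.2 ?_⟩
    rintro _ rfl
    have e := mem_centralizer_iff.1 (mem_inf.1 hu).2 _ (Set.mem_singleton _)
    rename_i v
    calc v * (c * u * c⁻¹) = c * (v * u) * c⁻¹ := by
          rw [← mul_assoc, ← mul_assoc, ← hcomm v hw]; group
      _ = c * (u * v) * c⁻¹ := by rw [e]
      _ = c * u * (v * c⁻¹) := by group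
      _ = c * u * (c⁻¹ * v) := by
          rw [(show Commute c v from hcomm v hw).inv_left.eq]
      _ = c * u * c⁻¹ * v := by group
  have hone : ∀ K : Subgroup X, K ≤ F → (∀ u ∈ K, c * u * c⁻¹ ∈ K) → Nat.card K % 3 = 1 := by
    intro K hKF hK
    have h := card_centralizer_modEq (K := K) hc hK
    have hbot : K ⊓ centralizer {c} = ⊥ := (eq_bot_iff_forall _).2 fun u hu =>
      hfix u (hKF (mem_inf.1 hu).1)
        (mul_inv_eq_iff_eq_mul.2 (mem_centralizer_iff.1 (mem_inf.1 hu).2 c rfl))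
    rw [hbot, card_bot] at h
    exact h.symm
  have hcop : (Nat.card E).Coprime (Nat.card F) := by
    rw [hE9, show (9 : ℕ) = 3 ^ 2 by rfl]
    refine Nat.Coprime.pow_left 2 (Nat.prime_three.coprime_iff_not_dvd.2 fun h => ?_)
    have := hone F le_rfl hcF
    omega
  have hbotc : F ⊓ centralizer {c} = ⊥ := (eq_bot_iff_forall _).2 fun u hu =>
    hfix u (mem_inf.1 hu).1
      (mul_inv_eq_iff_eq_mul.2 (mem_centralizer_iff.1 (mem_inf.1 hu).2 c rfl))
  have hsub : ∀ w ∈ zpowers c, w ≠ 1 → F ⊓ centralizer {w} = ⊥ := by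
    intro w hw hw1
    have hz : zpowers w = zpowers c :=
      eq_of_le_of_card_ge (zpowers_le.2 hw) (by
        rw [Nat.card_zpowers, Nat.card_zpowers, hoc, orderOf_eq_prime (hexp w (le_sup_left (a := zpowers c) hw)) hw1])
    refine eq_bot_iff.2 fun u hu => ?_
    rw [← hbotc]
    refine mem_inf.2 ⟨(mem_inf.1 hu).1, mem_centralizer_iff.2 ?_⟩
    rintro _ rfl
    obtain ⟨k, rfl⟩ : _ ∈ zpowers w := hz.symm ▸ mem_zpowers _
    exact (Commute.zpow_left (mem_centralizer_iff.1 (mem_inf.1 hu).2 w rfl) k).eq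
  have h14 : ∀ w ∈ E, w ≠ 1 → Nat.card ↥(F ⊓ centralizer {w}) ∈ ({1, 4} : Finset ℕ) := by
    intro w hw hw1
    by_cases hwc : w ∈ zpowers c
    · rw [hsub w hwc hw1]; simp
    · have h1 := hsmall w hw hwc
      have h2 := hone _ inf_le_left (hconj w hw)
      simp only [Finset.mem_insert, Finset.mem_singleton]
      omega
  -- only the prime two
  have hF2 : IsPGroup 2 F := by
    refine IsPGroup.of_card (n := (Nat.card F).factorization 2) ?_
    refine (Nat.eq_of_dvd_of_lt_two_mul Nat.card_pos.ne' (Nat.ordProj_dvd (Nat.card F) 2) ?_)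
    suffices h : Nat.card F / 2 ^ (Nat.card F).factorization 2 = 1 by
      have := Nat.ordProj_mul_ordCompl_eq_self (Nat.card F) 2
      rw [h, mul_one] at this
      rw [this]; have := Nat.card_pos (α := F); omega
    by_contra h
    obtain ⟨q, hq, hqd⟩ := Nat.exists_prime_and_dvd h
    haveI := Fact.mk hq
    have hq2 : q ≠ 2 := by
      rintro rfl; exact Nat.not_dvd_ordCompl Nat.prime_two Nat.card_pos.ne' hqd
    obtain ⟨Q, hQ⟩ := Coprime.exists_invariant_sylow q hEF hcop
      (Or.inl (Group.isSolvable_of_comm fun a b => hEc.is_comm.comm a b))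
    set Qm := (Q : Subgroup F).map F.subtype with hQm
    have hQF : Qm ≤ F := map_subtype_le _
    have hgen := Coprime.iSup_centralizer_eq (K := Qm) hncyc hQ
      (hcop.coprime_dvd_right (card_dvd_of_le hQF))
    have hbot : Qm ≤ ⊥ := by
      rw [← hgen]
      refine iSup₂_le fun w hw => le_of_eq ?_
      refine eq_bot_of_card_eq _ ?_
      obtain ⟨k, hk⟩ := IsPGroup.iff_card.1 (Q.2.map F.subtype)
      have d1 : Nat.card ↥(Qm ⊓ centralizer {w}) ∣ q ^ k := hk ▸ card_dvd_of_le inf_le_left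
      have d2 : Nat.card ↥(Qm ⊓ centralizer {w}) ∣ 4 := by
        refine (card_dvd_of_le (inf_le_inf_right _ hQF)).trans ?_
        have := h14 w hw.1 hw.2
        simp only [Finset.mem_insert, Finset.mem_singleton] at this
        rcases this with e | e <;> rw [e] <;> norm_num
      have hco : Nat.Coprime (q ^ k) 4 := by
        refine Nat.Coprime.pow_left k (hq.coprime_iff_not_dvd.2 fun h4 => hq2 ?_)
        exact (Nat.prime_dvd_prime_iff_eq hq Nat.prime_two).1
          (hq.dvd_of_dvd_pow (show q ∣ 2 ^ 2 from h4))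
      exact Nat.eq_one_of_dvd_coprimes hco d1 d2
    have hcQ : Nat.card Qm = q ^ (Nat.card F).factorization q := Coprime.card_sylow_map Q
    rw [le_bot_iff.1 hbot, card_bot] at hcQ
    have hpos : 0 < (Nat.card F).factorization q :=
      hq.factorization_pos_of_dvd Nat.card_pos.ne' (hqd.trans (Nat.ordCompl_dvd _ 2))
    have := Nat.one_lt_pow hpos.ne' hq.one_lt
    omega
  haveI : Group.IsNilpotent F := hF2.isNilpotent
  -- the fixed point formula
  let N := normalizer (F : Set X)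
  haveI : (F.subgroupOf N).Normal := normal_in_normalizer
  let B : Fin 6 → Subgroup V := ![⊥, ⊤, (planeLine 0).ker, (planeLine 1).ker, (planeLine 2).ker, (planeLine 3).ker]
  let A : Fin 6 → Subgroup N := fun i => ((B i).map φ).subgroupOf N
  let mm : Fin 6 → ℕ := ![3, 1, 0, 0, 0, 0]
  let nn : Fin 6 → ℕ := ![0, 0, 1, 1, 1, 1]
  have hmapE : ∀ i, (B i).map φ ≤ E := fun i => hφr ▸ map_le_range φ (B i)
  have hformula := OddChar.FixedPoint.card_fixed_prod (S := E.subgroupOf N) (H := F.subgroupOf N)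
    (solvable_of_solvable_injective (f := (subgroupOfEquivOfLe (le_normalizer : F ≤ N)).toMonoidHom)
      (subgroupOfEquivOfLe _).injective)
    (by
      rw [Nat.card_congr (subgroupOfEquivOfLe le_normalizer).toEquiv,
        Nat.card_congr (subgroupOfEquivOfLe hEF).toEquiv]
      exact hcop.symm)
    A (fun i => comap_mono (hmapE i)) mm nn (by
      rintro ⟨w, hw⟩ hwE
      have hwE' : w ∈ φ.range := hφr.symm ▸ hwE
      obtain ⟨v, rfl⟩ := hwE'
      have hiff : ∀ i, (⟨φ v, hw⟩ : N) ∈ A i ↔ v ∈ B i := fun i => by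
        show φ v ∈ (B i).map φ ↔ _
        exact mem_map_iff_mem hφ
      simp only [hiff]
      simp only [Fin.sum_univ_succ, Fin.sum_univ_zero, B, mm, nn, Matrix.cons_val_zero,
        Matrix.cons_val_succ, mem_bot, mem_top, MonoidHom.mem_ker]
      rcases planeLine_cases v with h | h | h | h | h
      · subst h; simp
      all_goals simp [h.1, h.2.1, h.2.2.1, h.2.2.2.1, h.2.2.2.2])
  have hfixA : ∀ i, Nat.card ↥(F.subgroupOf N ⊓ centralizer (A i : Set N))
      = Nat.card ↥(F ⊓ centralizer (((B i).map φ : Subgroup X) : Set X)) := fun i => by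
    refine Nat.card_congr
      { toFun := fun u => ⟨((u : N) : X), mem_inf.2 ⟨(mem_inf.1 u.2).1, mem_centralizer_iff.2 ?_⟩⟩
        invFun := fun u => ⟨⟨u, le_normalizer (mem_inf.1 u.2).1⟩,
          mem_inf.2 ⟨(mem_inf.1 u.2).1, mem_centralizer_iff.2 ?_⟩⟩
        left_inv := fun u => rfl
        right_inv := fun u => rfl }
    · intro a ha
      exact congrArg Subtype.val
        (mem_centralizer_iff.1 (mem_inf.1 u.2).2 ⟨a, hEF (hmapE i ha)⟩ ha)
    · intro a ha
      exact Subtype.ext (mem_centralizer_iff.1 (mem_inf.1 u.2).2 _ ha)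
  have hcardA : ∀ i, Nat.card (A i) = Nat.card (B i) := fun i => by
    rw [Nat.card_congr (subgroupOfEquivOfLe ((hmapE i).trans hEF)).toEquiv]
    exact Nat.card_congr (equivMapOfInjective _ φ hφ).toEquiv.symm
  simp only [hfixA, hcardA] at hformula
  simp only [Fin.prod_univ_succ, Fin.prod_univ_zero, B, mm, nn, Matrix.cons_val_zero,
    Matrix.cons_val_succ, zero_mul, pow_zero, one_mul, mul_one] at hformula
  have hC0 : F ⊓ centralizer ((((⊥ : Subgroup V)).map φ : Subgroup X) : Set X) = F := by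
    refine inf_eq_left.2 fun u _ => mem_centralizer_iff.2 fun a ha => ?_
    rw [Subgroup.map_bot] at ha
    rw [mem_bot.1 ha, one_mul, mul_one]
  have hC1 : F ⊓ centralizer ((((⊤ : Subgroup V)).map φ : Subgroup X) : Set X) = ⊥ := by
    rw [← MonoidHom.range_eq_map, hφr, eq_bot_iff, ← hbotc]
    refine inf_le_inf_left _ (centralizer_le (Set.singleton_subset_iff.2 hcE))
  rw [hC0, hC1] at hformula
  simp only [card_bot, one_pow, mul_one, one_mul] at hformula
  have hline : ∀ f : V →* Multiplicative (ZMod 3), ∀ w : V, w ≠ 1 → f w = 1 →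
      Nat.card f.ker = 3 → Nat.card ↥(F ⊓ centralizer ((f.ker.map φ : Subgroup X) : Set X))
        ∈ ({1, 4} : Finset ℕ) := by
    intro f w hw1 hfw hcard
    have hz : zpowers w = f.ker := by
      refine eq_of_le_of_card_ge (zpowers_le.2 hfw) ?_
      rw [hcard, Nat.card_zpowers]
      have h := orderOf_dvd_of_pow_eq_one (G := V) (n := 3) (show w ^ 3 = 1 from
        hφ (by rw [map_pow, map_one]; exact hexp _ (hφr ▸ ⟨w, rfl⟩)))
      rcases (Nat.dvd_prime Nat.prime_three).1 h with e | e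
      · exact absurd (orderOf_eq_one_iff.1 e) hw1
      · rw [e]
    rw [← hz, MonoidHom.map_zpowers, zpowers_eq_closure, centralizer_closure]
    exact h14 _ (hφr ▸ ⟨w, rfl⟩) (fun e => hw1 (hφ (e.trans φ.map_one.symm)))
  have hk3 := card_planeLine_ker
  rw [hk3, hk3, hk3, hk3] at hformula
  obtain ⟨⟨g0, g0'⟩, ⟨g1, g1'⟩, ⟨g2, g2'⟩, g3, g3'⟩ := planeLine_gen
  have a1 := hline _ _ g1 g1' (hk3 1)
  have a2 := hline _ _ g2 g2' (hk3 2)
  have a3 := hline _ _ g3 g3' (hk3 3)
  have hC2 : Nat.card ↥(F ⊓ centralizer (((planeLine 0).ker.map φ : Subgroup X) : Set X)) = 1 := by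
    rw [card_eq_one, eq_bot_iff, ← hbotc]
    refine inf_le_inf_left _ (centralizer_le (Set.singleton_subset_iff.2 ?_))
    exact ⟨Multiplicative.ofAdd (1, 0), planeLine_gen.1.2, by simp [φ, ZMod.val_one]⟩
  have hm := hone F le_rfl hcF
  rw [hC2, one_pow, one_mul] at hformula
  simp only [Finset.mem_insert, Finset.mem_singleton] at a1 a2 a3 ⊢
  have key : ∀ t : ℕ, Nat.card F ^ 3 = t ^ 3 → Nat.card F = t := fun t h =>
    Nat.pow_left_injective (by norm_num) h
  revert hformula a1 a2 a3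
  generalize Nat.card ↥(F ⊓ centralizer (((planeLine 1).ker.map φ : Subgroup X) : Set X)) = x
  generalize Nat.card ↥(F ⊓ centralizer (((planeLine 2).ker.map φ : Subgroup X) : Set X)) = y
  generalize Nat.card ↥(F ⊓ centralizer (((planeLine 3).ker.map φ : Subgroup X) : Set X)) = z
  intros
  rename_i a1 a2 a3
  rw [key (x * (y * z)) (by rw [mul_pow, mul_pow]; assumption)]
  rcases a1 with e1 | e1 <;> rcases a2 with e2 | e2 <;> rcases a3 with e3 | e3 <;>
    rw [e1, e2, e3] <;> norm_num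

end Cfsg.Agent.PermB.SemiregFour
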