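import Cfsg.Agent.PermB.SemiregFourBound
import Cfsg.Agent.PermB.SemiregFourPlane

/-!
An intransitive stabiliser of four points of odd order is trivial.
-/

set_option autoImplicit false

namespace Cfsg.Agent.PermB.SemiregFour

open MulAction
open scoped Pointwise

variable {G α : Type*} [Group G] [Finite G] [MulAction G α] [Fintype α]

namespace Data

variable (hD : Data G α)

include hD

theorem exists_distinct [DecidableEq α] (hn : 8 ≤ Fintype.card α) (y : α) :
    ∃ a b c : α, [y, a, b, c].Nodup := by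
  obtain ⟨S, hyS, hS⟩ := Finset.exists_superset_card_eq (s := ({y} : Finset α)) (n := 4)
    (by simp) (by omega)
  have hnd := (S.erase y).nodup_toList
  have hlen : (S.erase y).toList.length = 3 := by
    rw [Finset.length_toList, Finset.card_erase_of_mem (hyS (by simp)), hS]
  match hl : (S.erase y).toList, hlen with
  | [a, b, c], _ =>
    rw [hl] at hnd
    have hm : ∀ t ∈ [a, b, c], t ≠ y := fun t ht => by
      rw [← hl, Finset.mem_toList, Finset.mem_erase] at ht; exact ht.1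
    exact ⟨a, b, c, List.nodup_cons.2 ⟨fun h => hm _ h rfl, hnd⟩⟩

theorem pretransitive_one [DecidableEq α] (hn : 8 ≤ Fintype.card α) : IsPretransitive G α := by
  refine ⟨fun y w => ?_⟩
  obtain ⟨a, b, c, h⟩ := hD.exists_distinct hn y
  obtain ⟨a', b', c', h'⟩ := hD.exists_distinct hn w
  obtain ⟨g, hg, -, -, -⟩ := hD.four _ _ _ _ _ _ _ _ h h'
  exact ⟨g, hg⟩

theorem exists_swap {a b c x : α} (hnd : [a, b, c, x].Nodup)
    (hodd : Odd (Nat.card (quad (G := G) a b c x))) :
    ∃ s : G, s * s = 1 ∧ s • a = b ∧ s • b = a ∧ s • c = c ∧ s • x = x := by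
  obtain ⟨g, g1, g2, g3, g4⟩ := hD.four a b c x b a c x hnd (by
    simp only [List.nodup_cons, List.mem_cons, List.not_mem_nil, not_or, or_false, List.nodup_nil,
      and_true, not_false_eq_true] at hnd ⊢
    tauto)
  have hgg : g * g ∈ quad (G := G) a b c x := mem_quad.2
    ⟨by rw [mul_smul, g1, g2], by rw [mul_smul, g2, g1], by rw [mul_smul, g3, g3],
      by rw [mul_smul, g4, g4]⟩
  obtain ⟨s, hs, j, rfl⟩ := exists_involution_of_sq (g := g) (hodd.of_dvd_nat
    (Subgroup.orderOf_coe (⟨_, hgg⟩ : quad (G := G) a b c x) ▸ orderOf_dvd_natCard _))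
  obtain ⟨e1, e2, e3, e4⟩ := mem_quad.1 (Subgroup.pow_mem _ hgg j)
  exact ⟨_, hs, by rw [mul_smul, e1, g1], by rw [mul_smul, e2, g2], by rw [mul_smul, e3, g3],
    by rw [mul_smul, e4, g4]⟩

theorem card_Fix_involution [DecidableEq α]
    (hodd : ∀ a b c x : α, [a, b, c, x].Nodup → Odd (Nat.card (quad (G := G) a b c x)))
    {s : G} (hs : s * s = 1) (hs1 : s ≠ 1) : (Fix (α := α) s).card ≤ 3 := by
  classical
  by_contra h
  obtain ⟨S, hS, hS4⟩ := Finset.exists_subset_card_eq (show 4 ≤ (Fix (α := α) s).card by omega)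
  have hnd := S.nodup_toList
  have hlen : S.toList.length = 4 := by rw [Finset.length_toList, hS4]
  have hmem : ∀ y ∈ S.toList, s • y = y := fun y hy => mem_Fix.1 (hS (Finset.mem_toList.1 hy))
  match hl : S.toList, hlen with
  | [a, b, c, d], _ =>
    rw [hl] at hnd hmem
    simp only [List.forall_mem_cons] at hmem
    have hq : s ∈ quad (G := G) a b c d :=
      mem_quad.2 ⟨hmem.1, hmem.2.1, hmem.2.2.1, hmem.2.2.2.1⟩
    haveI : Fact (Nat.Prime 2) := ⟨Nat.prime_two⟩
    have h2 : orderOf (⟨s, hq⟩ : quad (G := G) a b c d) = 2 :=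
      orderOf_eq_prime (Subtype.ext (by
        show ((⟨s, hq⟩ : quad (G := G) a b c d) ^ 2 : quad (G := G) a b c d).1 = 1
        rw [SubmonoidClass.coe_pow, pow_two]; exact hs)) (fun e => hs1 (congrArg Subtype.val e))
    have := orderOf_dvd_natCard (⟨s, hq⟩ : quad (G := G) a b c d)
    rw [h2] at this
    exact Nat.not_even_iff_odd.2 (hodd a b c d hnd) (even_iff_two_dvd.2 this)

/-- The case of an odd stabiliser: it is trivial. -/
theorem false_of_odd [DecidableEq α] [FaithfulSMul G α] (hn : 8 ≤ Fintype.card α)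
    (hodd : ∀ a b c x : α, [a, b, c, x].Nodup → Odd (Nat.card (quad (G := G) a b c x)))
    {a b c x : α} (hnd : [a, b, c, x].Nodup) (hl1 : 1 < Nat.card (quad (G := G) a b c x)) :
    False := by
  obtain ⟨⟨hab, hac, hax⟩, ⟨hbc, hbx⟩, hcx⟩ :
      (a ≠ b ∧ a ≠ c ∧ a ≠ x) ∧ (b ≠ c ∧ b ≠ x) ∧ c ≠ x := by
    simp only [List.nodup_cons, List.mem_cons, List.not_mem_nil, not_or, or_false, List.nodup_nil,
      and_true, not_false_eq_true] at hnd
    exact hnd
  set L := quad (G := G) a b c x with hLdef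
  obtain ⟨F, hFU, hreg, hfree, hnorm⟩ := hD.exists_triple_kernel hnd
  have hx : x ≠ a ∧ x ≠ b ∧ x ≠ c := ⟨hax.symm, hbx.symm, hcx.symm⟩
  have hm := hD.card_kernel_add hnd hFU hreg
  have hout : ∀ u ∈ F, u ≠ 1 → [a, b, c, x, u • x].Nodup := by
    intro u hu hu1
    obtain ⟨u1, u2, u3⟩ := hFU u hu
    simp only [List.nodup_cons, List.mem_cons, List.not_mem_nil, not_or, or_false, List.nodup_nil,
      and_true, not_false_eq_true]
    exact ⟨⟨hab, hac, hax, fun e => hax (MulAction.injective u (u1.trans e))⟩,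
      ⟨hbc, hbx, fun e => hbx (MulAction.injective u (u2.trans e))⟩,
      ⟨hcx, fun e => hcx (MulAction.injective u (u3.trans e))⟩,
      fun e => hu1 (hfree u hu x hx.1 hx.2.1 hx.2.2 e.symm)⟩
  -- no element of `L` but the identity centralises one of `F`
  have hLfree : ∀ w ∈ L, ∀ u ∈ F, w * u * w⁻¹ = u → u ≠ 1 → w = 1 := by
    intro w hw u hu e hu1
    refine hD.eq_one_of_quad hw (hout u hu hu1) ?_
    have hwx := (mem_quad.1 hw).2.2.2
    rw [← mul_smul, mul_inv_eq_iff_eq_mul.1 e, mul_smul, hwx]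
  have hLF : ∀ w ∈ L, ∀ u ∈ F, w * u * w⁻¹ ∈ F := fun w hw => by
    obtain ⟨w1, w2, w3, -⟩ := mem_quad.1 hw
    exact hnorm w (Or.inl w1) (Or.inr (Or.inl w2)) (Or.inr (Or.inr w3))
  obtain ⟨s, hss, sa, sb, sc, sx⟩ := hD.exists_swap hnd (hodd _ _ _ _ hnd)
  have hnd' : [b, c, a, x].Nodup := by
    simp only [List.nodup_cons, List.mem_cons, List.not_mem_nil, not_or, or_false, List.nodup_nil,
      and_true, not_false_eq_true]
    exact ⟨⟨hbc, hab.symm, hbx⟩, ⟨hac.symm, hcx⟩, hax⟩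
  obtain ⟨t, htt, tb, tc, ta, tx⟩ := hD.exists_swap hnd' (hodd _ _ _ _ hnd')
  have hsF := hnorm s (Or.inr (Or.inl sa)) (Or.inl sb) (Or.inr (Or.inr sc))
  have htF := hnorm t (Or.inl ta) (Or.inr (Or.inr tb)) (Or.inr (Or.inl tc))
  have hs1 : s ≠ 1 := fun e => hab (by rw [← sa, e, one_smul])
  have ht1 : t ≠ 1 := fun e => hbc (by rw [← tb, e, one_smul])
  haveI : Fact (Nat.Prime 2) := ⟨Nat.prime_two⟩
  have hcent : ∀ w : G, w * w = 1 → w ≠ 1 → w • x = x → (∀ u ∈ F, w * u * w⁻¹ ∈ F) →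
      ∀ y ∈ ({a, b, c} : Finset α), w • y = y →
      Nat.card ↥(F ⊓ Subgroup.centralizer {w}) ≤ 2 ∧
        Nat.card ↥(F ⊓ Subgroup.centralizer {w}) % 2 = Nat.card F % 2 := by
    intro w hw hw1 hwx hwF y hy hwy
    refine ⟨?_, card_centralizer_modEq (by rw [pow_two, hw]) hwF⟩
    have h := hD.card_centralizer_add hFU hx hreg hwF hwx
    have h1 : 1 ≤ (Fix (α := α) w ∩ {a, b, c}).card :=
      Finset.card_pos.2 ⟨y, Finset.mem_inter.2 ⟨mem_Fix.2 hwy, hy⟩⟩
    have h3 := hD.card_Fix_involution hodd hw hw1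
    omega
  obtain ⟨hCs, hps⟩ := hcent s hss hs1 sx hsF c (by simp) sc
  obtain ⟨hCt, hpt⟩ := hcent t htt ht1 tx htF a (by simp) ta
  set g := s * t with hgdef
  have ga : g • a = b := by rw [hgdef, mul_smul, ta, sa]
  have gb : g • b = c := by rw [hgdef, mul_smul, tb, sc]
  have gc : g • c = a := by rw [hgdef, mul_smul, tc, sb]
  have gx : g • x = x := by rw [hgdef, mul_smul, tx, sx]
  have hgF : ∀ u ∈ F, g * u * g⁻¹ ∈ F := hnorm g (Or.inr (Or.inl ga)) (Or.inr (Or.inr gb)) (Or.inl gc)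
  have hFgt : ∀ w : G, w • x = x → w • a = b → w • b = c → w • c = a →
      (∀ u ∈ F, w * u * w⁻¹ ∈ F) → Nat.card ↥(F ⊓ Subgroup.centralizer {w}) ≤ 4 := by
    intro w wx wa _ _ hwF
    have h := hD.card_centralizer_le hFU hx hreg hwF wx (fun e => hab (by rw [← wa, e, one_smul]))
    omega
  rcases Nat.mod_two_eq_zero_or_one (Nat.card F) with hme | hmo
  swap
  · -- both involutions invert `F`
    have hinv : ∀ w : G, w * w = 1 → (∀ u ∈ F, w * u * w⁻¹ ∈ F) →
        Nat.card ↥(F ⊓ Subgroup.centralizer {w}) ≤ 2 →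
        Nat.card ↥(F ⊓ Subgroup.centralizer {w}) % 2 = Nat.card F % 2 →
        ∀ u ∈ F, w * u * w⁻¹ = u⁻¹ := by
      intro w hw hwF h2 hp
      refine ZData.inverted_of_centralizer_trivial hw hwF fun u hu e => ?_
      have h1 : F ⊓ Subgroup.centralizer {w} = ⊥ := Subgroup.eq_bot_of_card_eq _ (by omega)
      have : u ∈ F ⊓ Subgroup.centralizer {w} := Subgroup.mem_inf.2 ⟨hu, by
        rw [Subgroup.mem_centralizer_iff]; rintro v rfl; exact mul_inv_eq_iff_eq_mul.1 e⟩
      rwa [h1, Subgroup.mem_bot] at this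
    have his := hinv s hss hsF hCs hps
    have hit := hinv t htt htF hCt hpt
    have hall : F ⊓ Subgroup.centralizer {g} = F := inf_eq_left.2 fun u hu => by
      rw [Subgroup.mem_centralizer_iff]
      rintro v rfl
      refine mul_inv_eq_iff_eq_mul.1 ?_
      rw [hgdef, show s * t * u * (s * t)⁻¹ = s * (t * u * t⁻¹) * s⁻¹ by group, hit u hu,
        his _ (F.inv_mem hu), inv_inv]
    have h4 := hFgt g gx ga gb gc hgF
    rw [hall] at h4
    omega
  -- even degree of `F`
  have hCs2 : Nat.card ↥(F ⊓ Subgroup.centralizer {s}) = 2 := by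
    have := Nat.card_pos (α := ↥(F ⊓ Subgroup.centralizer {s})); omega
  have hCt2 : Nat.card ↥(F ⊓ Subgroup.centralizer {t}) = 2 := by
    have := Nat.card_pos (α := ↥(F ⊓ Subgroup.centralizer {t})); omega
  have hinvL : ∀ w : G, w * w = 1 → Nat.card ↥(F ⊓ Subgroup.centralizer {w}) = 2 →
      (∀ h ∈ L, w * h * w⁻¹ ∈ L) → ∀ h ∈ L, w * h * w⁻¹ = h⁻¹ := by
    intro w hw h2 hwL
    refine ZData.inverted_of_centralizer_trivial hw hwL fun h hh e => ?_
    obtain ⟨u, hu⟩ := exists_prime_orderOf_dvd_card' (G := ↥(F ⊓ Subgroup.centralizer {w})) 2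
      (by rw [h2])
    have hu1 : (u : G) ≠ 1 := fun e => by rw [← Subgroup.orderOf_coe, e, orderOf_one] at hu; omega
    obtain ⟨huF, huC⟩ := Subgroup.mem_inf.1 u.2
    have hcomm : w * h = h * w := mul_inv_eq_iff_eq_mul.1 e
    have hmem : h * u * h⁻¹ ∈ F ⊓ Subgroup.centralizer {w} := by
      refine Subgroup.mem_inf.2 ⟨hLF h hh u huF, ?_⟩
      rw [Subgroup.mem_centralizer_iff]
      rintro v rfl
      calc v * (h * (u : G) * h⁻¹) = h * (v * u) * h⁻¹ := by rw [← mul_assoc, ← mul_assoc, hcomm]; group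
        _ = h * (u * v) * h⁻¹ := by rw [Subgroup.mem_centralizer_iff.1 huC v rfl]
        _ = h * (u : G) * (v * h⁻¹) := by group
        _ = h * (u : G) * (h⁻¹ * v) := by
            rw [(show Commute h v from hcomm.symm).inv_left.eq]
        _ = h * (u : G) * h⁻¹ * v := by group
    obtain ⟨y, -, hy⟩ := (Nat.card_eq_two_iff' (1 : ↥(F ⊓ Subgroup.centralizer {w}))).1 h2
    have e1 := hy u (fun e => hu1 (congrArg Subtype.val e))
    have e2 := hy ⟨_, hmem⟩ (fun e => hu1 (by
      have := congrArg Subtype.val e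
      simpa using this))
    exact hLfree h hh u huF (congrArg Subtype.val (e2.trans e1.symm)) hu1
  have hsL : ∀ h ∈ L, s * h * s⁻¹ ∈ L := fun h hh => by
    obtain ⟨h1, h2, h3, h4⟩ := mem_quad.1 hh
    rw [inv_eq_of_mul_eq_one_right hss]
    refine mem_quad.2 ⟨?_, ?_, ?_, ?_⟩ <;> rw [mul_smul, mul_smul]
    · rw [sa, h2, sb]
    · rw [sb, h1, sa]
    · rw [sc, h3, sc]
    · rw [sx, h4, sx]
  have htL : ∀ h ∈ L, t * h * t⁻¹ ∈ L := fun h hh => by
    obtain ⟨h1, h2, h3, h4⟩ := mem_quad.1 hh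
    rw [inv_eq_of_mul_eq_one_right htt]
    refine mem_quad.2 ⟨?_, ?_, ?_, ?_⟩ <;> rw [mul_smul, mul_smul]
    · rw [ta, h1, ta]
    · rw [tb, h3, tc]
    · rw [tc, h2, tb]
    · rw [tx, h4, tx]
  have hsinv := hinvL s hss hCs2 hsL
  have htinv := hinvL t htt hCt2 htL
  have hLc := isMulCommutative_of_inverted hsinv
  have hgL : ∀ h ∈ L, g * h = h * g := fun h hh => mul_inv_eq_iff_eq_mul.1 (by
    rw [hgdef, show s * t * h * (s * t)⁻¹ = s * (t * h * t⁻¹) * s⁻¹ by group, htinv h hh,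
      hsinv _ (L.inv_mem hh), inv_inv])
  -- the invariant Sylow subgroup
  have hLN : L ≤ Subgroup.normalizer (F : Set G) := fun w hw => by
    rw [Subgroup.mem_set_normalizer_iff]
    refine fun u => ⟨fun h => hLF w hw u h, fun h => ?_⟩
    have := hLF w⁻¹ (L.inv_mem hw) _ h
    simpa [mul_assoc] using this
  have hcop : (Nat.card L).Coprime (Nat.card F) := by
    have hd := hD.dvd_sub_four hnd
    rw [← hLdef, show Fintype.card α - 4 = Nat.card F - 1 by omega] at hd
    refine Nat.Coprime.coprime_dvd_left hd ?_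
    exact Nat.coprime_self_sub_left (by omega) |>.2 (Nat.coprime_one_left _)
  have hsol : Group.IsSolvable L ∨ Group.IsSolvable F :=
    Or.inl (Group.isSolvable_of_comm fun u v => hLc.is_comm.comm u v)
  obtain ⟨P, hP⟩ := Coprime.exists_invariant_sylow 2 hLN hcop hsol
  set Pm := (P : Subgroup F).map F.subtype with hPm
  have hPF : Pm ≤ F := Subgroup.map_subtype_le _
  have hPinv : ∀ w : G, w * w = 1 → (∀ u ∈ F, w * u * w⁻¹ ∈ F) → (∀ h ∈ L, w * h * w⁻¹ ∈ L) →
      ∀ u ∈ Pm, w * u * w⁻¹ ∈ Pm := by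
    intro w hw hwF hwL u hu
    have hle : MulAut.conj w • Pm ≤ F := by
      intro v hv
      simpa [mul_assoc] using hwF _ (hPF (Coprime.mem_conj_smul.1 hv))
    obtain ⟨R, hR⟩ := Coprime.exists_sylow_map_eq hle
      (by rw [Coprime.card_conj_smul, hPm, Coprime.card_sylow_map])
    have hRinv : L ≤ Subgroup.normalizer ((R : Subgroup F).map F.subtype : Set G) := by
      rw [hR, ← Coprime.conj_smul_normalizer]
      intro h hh
      refine Coprime.mem_conj_smul.2 (hP ?_)
      have := hwL h hh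
      rwa [inv_eq_of_mul_eq_one_right hw] at this ⊢
    obtain ⟨k, hk, hkPR⟩ := Coprime.exists_centralizer_conj_sylow hLN hcop hsol P R hP hRinv
    have hk1 : k = 1 := by
      obtain ⟨h, hh, hh1⟩ : ∃ h ∈ L, h ≠ 1 := by
        by_contra hcon
        push Not at hcon
        rw [show L = ⊥ from (Subgroup.eq_bot_iff_forall _).2 hcon, Subgroup.card_bot] at hl1
        omega
      by_contra hk1
      exact hh1 (hLfree h hh k hk.1
        (mul_inv_eq_iff_eq_mul.2 (Subgroup.mem_centralizer_iff.1 hk.2 h hh)) hk1)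
    rw [hk1, map_one, one_smul, ← hPm, hR] at hkPR
    rw [hkPR]
    exact Coprime.mem_conj_smul.2 (by simpa [mul_assoc] using hu)
  have hPs := hPinv s hss hsF hsL
  have hPt := hPinv t htt htF htL
  have hPL : ∀ h ∈ L, ∀ u ∈ Pm, h * u * h⁻¹ ∈ Pm := fun h hh u hu =>
    (Subgroup.mem_set_normalizer_iff.1 (hP hh) u).1 hu
  let Z : Subgroup G :=
    { carrier := {u | u ∈ Pm ∧ u * u = 1 ∧ ∀ v ∈ Pm, v * u = u * v}
      one_mem' := ⟨Pm.one_mem, one_mul 1, fun v _ => by rw [mul_one, one_mul]⟩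
      mul_mem' := fun {u v} hu hv => ⟨Pm.mul_mem hu.1 hv.1, by
          rw [mul_assoc u v (u * v), ← mul_assoc v u v, hu.2.2 v hv.1, mul_assoc u v v, hv.2.1,
            mul_one, hu.2.1], fun y hy => by
          rw [← mul_assoc, hu.2.2 y hy, mul_assoc, hv.2.2 y hy, mul_assoc]⟩
      inv_mem' := fun {u} (hu : u ∈ Pm ∧ u * u = 1 ∧ ∀ v ∈ Pm, v * u = u * v) => by
        show u⁻¹ ∈ Pm ∧ _
        rw [inv_eq_of_mul_eq_one_right hu.2.1]; exact hu }
  have hZinv : ∀ w : G, (∀ u ∈ Pm, w * u * w⁻¹ ∈ Pm) → (∀ u ∈ Pm, w⁻¹ * u * w ∈ Pm) →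
      ∀ u ∈ Z, w * u * w⁻¹ ∈ Z := by
    intro w hw hw' u hu
    obtain ⟨h1, h2, h3⟩ := hu
    refine ⟨hw u h1, ?_, fun v hv => ?_⟩
    · rw [show w * u * w⁻¹ * (w * u * w⁻¹) = w * (u * u) * w⁻¹ by group, h2, mul_one,
        mul_inv_cancel]
    · rw [show v * (w * u * w⁻¹) = w * ((w⁻¹ * v * w) * u) * w⁻¹ by group, h3 _ (hw' v hv)]
      group
  have hiv : ∀ {w : G}, w * w = 1 → w⁻¹ = w := fun hw => inv_eq_of_mul_eq_one_right hw
  have hZs := hZinv s hPs (fun u hu => by have := hPs u hu; rwa [hiv hss] at this ⊢)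
  have hZt := hZinv t hPt (fun u hu => by have := hPt u hu; rwa [hiv htt] at this ⊢)
  have hZL : ∀ h ∈ L, ∀ u ∈ Z, h * u * h⁻¹ ∈ Z := fun h hh => hZinv h (hPL h hh) fun u hu => by
    have := hPL h⁻¹ (L.inv_mem hh) u hu; rwa [inv_inv] at this
  have hZF : Z ≤ F := fun u hu => hPF hu.1
  obtain ⟨z, hz, hz1⟩ : ∃ z ∈ Z, z ≠ 1 := by
    have hcard : Nat.card Pm = 2 ^ (Nat.card F).factorization 2 := Coprime.card_sylow_map P
    have hpos : 0 < (Nat.card F).factorization 2 :=
      Nat.prime_two.factorization_pos_of_dvd Nat.card_pos.ne' (Nat.dvd_of_mod_eq_zero hme)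
    haveI : Nontrivial Pm := by
      rw [← Finite.one_lt_card_iff_nontrivial, hcard]; exact Nat.one_lt_pow hpos.ne' (by norm_num)
    have hPp : IsPGroup 2 Pm := P.2.map _
    haveI := hPp.center_nontrivial
    obtain ⟨⟨u, huc⟩, hu⟩ := exists_prime_orderOf_dvd_card' (G := Subgroup.center Pm) 2 (by
      obtain ⟨k, hk⟩ := IsPGroup.iff_card.1 (hPp.to_subgroup (Subgroup.center Pm))
      rw [hk]
      refine dvd_pow_self 2 fun e => ?_
      have := Finite.one_lt_card (α := Subgroup.center Pm)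
      rw [hk, e, pow_zero] at this
      omega)
    rw [← Subgroup.orderOf_coe] at hu
    have hu' : orderOf (u : G) = 2 := (Subgroup.orderOf_coe u).trans hu
    refine ⟨u, ⟨u.2, by rw [← pow_two, ← hu', pow_orderOf_eq_one], fun v hv =>
      congrArg Subtype.val (Subgroup.mem_center_iff.1 huc ⟨v, hv⟩)⟩, fun e => ?_⟩
    rw [e, orderOf_one] at hu'
    omega
  have hZ4 : Nat.card Z ≤ 4 := by
    have hc : IsMulCommutative Z :=
      ⟨⟨fun u v => Subtype.ext (v.2.2.2 u u.2.1)⟩⟩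
    refine (card_le_sq_of_involution (Z := Z) (fun u hu => hu.2.1) hc hss hZs).trans ?_
    have := Nat.le_of_dvd Nat.card_pos (Subgroup.card_dvd_of_le
      (inf_le_inf_right (Subgroup.centralizer {s}) hZF))
    rw [hCs2] at this
    exact (Nat.mul_le_mul this this)
  -- `L` is regular on the involutions of `Z`
  let f : L → {u : Z // u ≠ 1} := fun h => ⟨⟨h * z * (h : G)⁻¹, hZL h h.2 z hz⟩, fun e => hz1 (by
    have := congrArg Subtype.val e; simpa using this)⟩
  have hf : Function.Injective f := by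
    intro h k e
    have e' : (h : G) * z * (h : G)⁻¹ = (k : G) * z * (k : G)⁻¹ :=
      congrArg (fun w : {u : Z // u ≠ 1} => ((w : Z) : G)) e
    refine Subtype.ext (inv_mul_eq_one.1 (hLfree ((k : G)⁻¹ * h) (L.mul_mem (L.inv_mem k.2) h.2) z
      (hZF hz) ?_ hz1)).symm
    calc (k : G)⁻¹ * h * z * ((k : G)⁻¹ * h)⁻¹ = (k : G)⁻¹ * ((h : G) * z * (h : G)⁻¹) * k := by group
      _ = z := by rw [e']; group
  haveI := Fintype.ofFinite Z
  have hcardne : Nat.card {u : Z // u ≠ 1} = Nat.card Z - 1 := by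
    classical
    rw [Nat.card_eq_fintype_card, Nat.card_eq_fintype_card, Fintype.card_subtype_compl,
      Fintype.card_subtype_eq]
  have hle := Nat.card_le_card_of_injective f hf
  rw [hcardne] at hle
  have hl3 : Nat.card L = 3 := by
    obtain ⟨i, hi⟩ := hodd _ _ _ _ hnd
    rw [← hLdef] at hi
    omega
  have hZc : Nat.card Z = 4 := by omega
  obtain ⟨⟨k, hk⟩, hkz⟩ := (Function.Injective.bijective_of_nat_card_le hf (by omega)).2
    ⟨⟨g * z * g⁻¹, by
      rw [hgdef, show s * t * z * (s * t)⁻¹ = s * (t * z * t⁻¹) * s⁻¹ by group]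
      exact hZs _ (hZt z hz)⟩, fun e => hz1 (by
        have := congrArg Subtype.val e; simpa using this)⟩
  have hkz' : k * z * k⁻¹ = g * z * g⁻¹ :=
    congrArg (fun w : {u : Z // u ≠ 1} => ((w : Z) : G)) hkz
  obtain ⟨ka, kb, kc, kx⟩ := mem_quad.1 (L.inv_mem hk)
  set e := k⁻¹ * g with hedef
  have ea : e • a = b := by rw [hedef, mul_smul, ga, kb]
  have eb : e • b = c := by rw [hedef, mul_smul, gb, kc]
  have ec : e • c = a := by rw [hedef, mul_smul, gc, ka]
  have ex : e • x = x := by rw [hedef, mul_smul, gx, kx]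
  have heF : ∀ u ∈ F, e * u * e⁻¹ ∈ F :=
    hnorm e (Or.inr (Or.inl ea)) (Or.inr (Or.inr eb)) (Or.inl ec)
  have hez : e * z * e⁻¹ = z := by
    rw [hedef, show k⁻¹ * g * z * (k⁻¹ * g)⁻¹ = k⁻¹ * (g * z * g⁻¹) * k by group, ← hkz']
    group
  have he3 : e ^ 3 = 1 := by
    refine hD.five (e ^ 3) a b c x (z • x) (hout z (hZF hz) hz1) ?_ ?_ ?_ ?_ ?_ <;>
      simp only [pow_succ, pow_zero, one_mul, mul_smul]
    · rw [ea, eb, ec]
    · rw [eb, ec, ea]
    · rw [ec, ea, eb]
    · rw [ex, ex, ex]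
    · have h1 : e • z • x = z • x := by
        rw [← mul_smul, mul_inv_eq_iff_eq_mul.1 hez, mul_smul, ex]
      rw [h1, h1, h1]
  -- a generator of `L`
  obtain ⟨q, hq, hq1⟩ : ∃ q ∈ L, q ≠ 1 := by
    by_contra hcon
    push Not at hcon
    rw [show L = ⊥ from (Subgroup.eq_bot_iff_forall _).2 hcon, Subgroup.card_bot] at hl3
    omega
  have hq3 : q ^ 3 = 1 := by
    rw [← hl3]
    exact congrArg Subtype.val (pow_card_eq_one' (x := (⟨q, hq⟩ : L)))
  have hqe : Commute q e := by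
    rw [hedef]
    refine Commute.mul_right ?_ (hgL q hq).symm
    exact congrArg Subtype.val (hLc.is_comm.comm ⟨q, hq⟩ ⟨k⁻¹, L.inv_mem hk⟩)
  have heq : e ∉ Subgroup.zpowers q := fun h => hab (by
    rw [← ea, (mem_quad.1 (Subgroup.zpowers_le.2 hq h)).1])
  let W : Subgroup G := stabilizer G x ⊓ Subgroup.normalizer (F : Set G)
  have hEW : Subgroup.zpowers q ⊔ Subgroup.zpowers e ≤ W := by
    refine sup_le (Subgroup.zpowers_le.2 ⟨(mem_quad.1 hq).2.2.2, hLN hq⟩)
      (Subgroup.zpowers_le.2 ⟨ex, ?_⟩)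
    refine Subgroup.mem_set_normalizer_iff.2 fun u => ⟨fun h => heF u h, fun h => ?_⟩
    have h2 := heF _ (heF _ h)
    rw [show e * (e * (e * u * e⁻¹) * e⁻¹) * e⁻¹ = e ^ 3 * u * (e ^ 3)⁻¹ by
      simp only [pow_succ, pow_zero, one_mul, mul_inv_rev, mul_assoc], he3] at h2
    simpa using h2
  have hcard := card_of_plane (F := F) hq3 he3 hq1 hqe heq (hLF q hq) heF
    (fun u hu h => by
      by_contra hu1
      exact hq1 (hLfree q hq u hu h hu1))
    (fun w hw hwq => by
      obtain ⟨hwx, hwN⟩ := hEW hw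
      have hwF : ∀ u ∈ F, w * u * w⁻¹ ∈ F := fun u hu =>
        (Subgroup.mem_set_normalizer_iff.1 hwN u).1 hu
      have := hD.card_centralizer_le hFU hx hreg hwF hwx (fun e => hwq (e ▸ Subgroup.one_mem _))
      omega)
  simp only [Finset.mem_insert, Finset.mem_singleton] at hcard
  haveI := hD.pretransitive_one hn
  have hG := hD.card_group hnd
  rw [← hLdef, hl3] at hG
  rcases hcard with h | h | h | h
  · omega
  · omega
  · refine eq_one_or_prime_kill (G := G) (α := α) (n := 19) (l := 3) (p := 19) (by omega)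
      (by norm_num) rfl (by rw [hG, show Fintype.card α = 19 by omega]; rfl)
      (by rw [hG, show Fintype.card α = 19 by omega]; decide) fun r hr hr1 => ?_
    have hr18 := Nat.le_of_dvd (by norm_num) hr
    interval_cases r <;> revert hr <;> decide
  · refine eq_one_or_prime_kill (G := G) (α := α) (n := 67) (l := 3) (p := 67) (by omega)
      (by norm_num) rfl (by rw [hG, show Fintype.card α = 67 by omega]; rfl)
      (by rw [hG, show Fintype.card α = 67 by omega]; decide) fun r hr hr1 => ?_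
    have hr66 := Nat.le_of_dvd (by norm_num) hr
    interval_cases r <;> revert hr <;> decide

/-- An intransitive stabiliser of four points is trivial. -/
theorem card_quad_eq_one [DecidableEq α] [FaithfulSMul G α] (hn : 8 ≤ Fintype.card α)
    {a b c x : α} (hnd : [a, b, c, x].Nodup)
    (hint : 2 * Nat.card (quad (G := G) a b c x) ≤ Fintype.card α - 4) :
    Nat.card (quad (G := G) a b c x) = 1 := by
  rcases Nat.even_or_odd (Nat.card (quad (G := G) a b c x)) with he | ho
  · exact (hD.false_of_even hnd hn hint he).elim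
  · by_contra h
    have := Nat.card_pos (α := quad (G := G) a b c x)
    exact hD.false_of_odd hn (fun p q r y h' => by rwa [hD.card_quad h' hnd]) hnd (by omega)

end Data

end Cfsg.Agent.PermB.SemiregFour
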