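import Cfsg.Agent.PermB.LivSharp
import Cfsg.Agent.PermB.SemiregFourOdd
import Cfsg.Agent.PermP.SharpFour
import Cfsg.Agent.S0710
import Cfsg.Agent.S0743

/-!
In a `k`-transitive group with `4 ≤ k < n` some `k + 1` points carry all even permutations.
-/

set_option autoImplicit false

namespace Cfsg.Agent.PermB.Liv

open MulAction
open scoped Pointwise

universe u

variable {α : Type u} [Fintype α] [DecidableEq α]

/-- Some `k + 1` points carry all even permutations. -/
def HasAlt (G : Subgroup (Equiv.Perm α)) (k : ℕ) : Prop :=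
  ∃ Δ : Finset α, Δ.card = k + 1 ∧ ∀ σ : Equiv.Perm ↥Δ, σ ∈ alternatingGroup ↥Δ →
    ∃ g ∈ G, ∀ x : ↥Δ, g (x : α) = σ x

theorem hasAlt_of_alternating {G : Subgroup (Equiv.Perm α)} {k : ℕ} (hkn : k < Fintype.card α)
    (hA : alternatingGroup α ≤ G) : HasAlt G k := by
  obtain ⟨Δ, -, hΔ⟩ := Finset.exists_subset_card_eq (s := (Finset.univ : Finset α)) (n := k + 1)
    (by rw [Finset.card_univ]; omega)
  refine ⟨Δ, hΔ, fun σ hσ => ⟨Equiv.Perm.ofSubtype σ, hA ?_, fun x => ?_⟩⟩
  · rw [Equiv.Perm.mem_alternatingGroup, Equiv.Perm.sign_ofSubtype]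
    exact Equiv.Perm.mem_alternatingGroup.1 hσ
  · exact Equiv.Perm.ofSubtype_apply_coe σ x

theorem hasAlt_of_succ {G : Subgroup (Equiv.Perm α)} {k : ℕ} (hkn : k < Fintype.card α)
    (h : ∀ T : Finset α, T.card = k → ∀ y z : α, y ∉ T → z ∉ T →
      ∃ g ∈ G, (∀ t ∈ T, g t = t) ∧ g y = z)
    (hG : IsMultiplyPretransitive G α k) : HasAlt G k := by
  obtain ⟨Δ, -, hΔ⟩ := Finset.exists_subset_card_eq (s := (Finset.univ : Finset α)) (n := k + 1)
    (by rw [Finset.card_univ]; omega)
  refine ⟨Δ, hΔ, fun σ _ => ?_⟩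
  obtain ⟨d, hd⟩ := Finset.card_pos.1 (show 0 < Δ.card by omega)
  obtain ⟨g, hg, hgT⟩ := PermP.agree_of_pretransitive hkn.le hG (T := Δ.erase d)
    (by rw [Finset.card_erase_of_mem hd, hΔ]; omega) (Equiv.Perm.ofSubtype σ)
  have hne : ∀ (f : Equiv.Perm α), f d ∉ (Δ.erase d).image f := fun f h => by
    obtain ⟨t, ht, e⟩ := Finset.mem_image.1 h
    exact (Finset.mem_erase.1 ht).1 (f.injective e)
  have himg : (Δ.erase d).image g = (Δ.erase d).image (Equiv.Perm.ofSubtype σ) :=
    Finset.image_congr fun t ht => hgT t ht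
  obtain ⟨f, hf, hfT, hfd⟩ := h ((Δ.erase d).image (Equiv.Perm.ofSubtype σ))
    (by rw [Finset.card_image_of_injective _ (Equiv.injective _), Finset.card_erase_of_mem hd, hΔ]
        omega)
    (g d) (Equiv.Perm.ofSubtype σ d) (himg ▸ hne g) (hne _)
  refine ⟨f * g, G.mul_mem hf hg, ?_⟩
  rintro ⟨x, hx⟩
  rw [← Equiv.Perm.ofSubtype_apply_coe σ ⟨x, hx⟩, Equiv.Perm.mul_apply]
  rcases eq_or_ne x d with rfl | hxd
  · exact hfd
  · rw [hgT x (Finset.mem_erase.2 ⟨hxd, hx⟩)]
    exact hfT _ (Finset.mem_image.2 ⟨x, Finset.mem_erase.2 ⟨hxd, hx⟩, rfl⟩)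

/-- An element fixing more than `k` points leads to a transitive group on fewer points. -/
theorem exists_smaller {G : Subgroup (Equiv.Perm α)} {k : ℕ} (hk : 1 ≤ k)
    (hkn : k < Fintype.card α) (hG : IsMultiplyPretransitive G α k) {g : Equiv.Perm α} (hg : g ∈ G)
    (hg1 : g ≠ 1) (hfix : k < (fixed g).card) :
    ∃ (D : Finset α) (H : Subgroup (Equiv.Perm ↥D)), k < D.card ∧ D.card < Fintype.card α ∧
      IsMultiplyPretransitive H ↥D k ∧
      ∀ h ∈ H, ∃ f ∈ G, ∀ y : ↥D, f (y : α) = h y := by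
  classical
  obtain ⟨p, hp, hpd⟩ := Nat.exists_prime_and_dvd
    (show orderOf g ≠ 1 from fun e => hg1 (orderOf_eq_one_iff.1 e))
  haveI := Fact.mk hp
  set g' := g ^ (orderOf g / p) with hg'def
  have hg'o : orderOf g' = p := orderOf_pow_orderOf_div (orderOf_pos g).ne' hpd
  have hsub : fixed g ⊆ fixed g' := fun y hy => by
    rw [mem_fixed] at hy ⊢
    exact Equiv.Perm.pow_apply_eq_self_of_apply_eq_self hy _
  let fixQ : Subgroup (Equiv.Perm α) → Finset α := fun Q =>
    Finset.univ.filter fun y => ∀ q ∈ Q, q y = y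
  have hfixQ : ∀ Q y, y ∈ fixQ Q ↔ ∀ q ∈ Q, q y = y := fun Q y => by simp [fixQ]
  let S : Finset (Subgroup (Equiv.Perm α)) := Finset.univ.filter fun Q =>
    Q ≤ G ∧ IsPGroup p Q ∧ Q ≠ ⊥ ∧ k < (fixQ Q).card
  have hne : S.Nonempty := by
    refine ⟨Subgroup.zpowers g', Finset.mem_filter.2 ⟨Finset.mem_univ _,
      Subgroup.zpowers_le.2 (G.pow_mem hg _), IsPGroup.of_card (n := 1)
        (by rw [Nat.card_zpowers, hg'o, pow_one]), ?_, ?_⟩⟩
    · rw [Ne, Subgroup.zpowers_eq_bot, ← orderOf_eq_one_iff, hg'o]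
      exact hp.ne_one
    · refine lt_of_lt_of_le hfix (Finset.card_le_card fun y hy => (hfixQ _ _).2 ?_)
      rintro q ⟨i, rfl⟩
      exact Equiv.Perm.zpow_apply_eq_self_of_apply_eq_self (mem_fixed.1 (hsub hy)) i
  obtain ⟨Q, hQS, hQmax⟩ := S.exists_max_image (fun Q => Nat.card Q) hne
  obtain ⟨hQG, hQp, hQ1, hQk⟩ := (Finset.mem_filter.1 hQS).2
  set D := fixQ Q with hD
  let N := G ⊓ Subgroup.normalizer (Q : Set (Equiv.Perm α))
  have hND : ∀ f ∈ N, ∀ y, f y ∈ D ↔ y ∈ D := by
    intro f hf y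
    rw [hfixQ, hfixQ]
    have hn := Subgroup.mem_set_normalizer_iff.1 hf.2
    constructor
    · intro h q hq
      have := h _ ((hn q).1 hq)
      simpa using this
    · intro h q hq
      have h2 : f⁻¹ * q * f ∈ Q := (hn _).2 (by simpa [mul_assoc] using hq)
      have := h _ h2
      simp only [Equiv.Perm.mul_apply] at this
      exact Equiv.Perm.inv_eq_iff_eq.1 this
  let φ : N →* Equiv.Perm ↥D := MonoidHom.mk'
    (fun f => (f : Equiv.Perm α).subtypePerm (hND f f.2))
    (fun a b => Equiv.ext fun y => Subtype.ext rfl)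
  have hφ : ∀ (f : N) (y : ↥D), ((φ f y : ↥D) : α) = (f : Equiv.Perm α) y := fun f y => rfl
  have hDn : D.card < Fintype.card α := by
    rw [← Finset.card_univ]
    refine Finset.card_lt_card (Finset.ssubset_univ_iff.2 fun e => hQ1 ?_)
    refine (Subgroup.eq_bot_iff_forall _).2 fun q hq => Equiv.ext fun y => ?_
    exact (hfixQ Q y).1 (by rw [← hD, e]; exact Finset.mem_univ y) q hq
  refine ⟨D, φ.range, hQk, hDn, ?_, ?_⟩
  swap
  · rintro _ ⟨f, rfl⟩
    exact ⟨f, f.2.1, fun y => rfl⟩
  let GT : Finset α → Subgroup (Equiv.Perm α) := fun T => G ⊓ fixingSubgroup _ (T : Set α)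
  have hGT : ∀ T f, f ∈ GT T ↔ f ∈ G ∧ ∀ t ∈ T, f t = t := fun T f => by
    simp only [GT, Subgroup.mem_inf, mem_fixingSubgroup_iff, Finset.mem_coe]; rfl
  have hQT : ∀ T ⊆ D, Q ≤ GT T := fun T hT q hq =>
    (hGT T q).2 ⟨hQG hq, fun t ht => (hfixQ Q t).1 (hT ht) q hq⟩
  have hconj : ∀ f ∈ G, ∀ T : Finset α, MulAut.conj f • GT T = GT (T.image f) := by
    intro f hf T
    ext h
    rw [Coprime.mem_conj_smul, hGT, hGT]
    simp only [Finset.mem_image, forall_exists_index, and_imp, forall_apply_eq_imp_iff₂,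
      Equiv.Perm.mul_apply]
    refine and_congr ⟨fun h' => ?_, fun h' => G.mul_mem (G.mul_mem (G.inv_mem hf) h') hf⟩
      (forall₂_congr fun t _ => Equiv.Perm.inv_eq_iff_eq)
    have := G.mul_mem (G.mul_mem hf h') (G.inv_mem hf)
    simpa [mul_assoc] using this
  by_cases hcase : ∃ T : Finset α, T ⊆ D ∧ T.card = k ∧
      Nat.card Q = p ^ (Nat.card (GT T)).factorization p
  · -- Witt
    obtain ⟨T₀, -, hT₀c, hT₀⟩ := hcase
    rw [isMultiplyPretransitive_iff]
    intro x y
    obtain ⟨f, hf, hfxy⟩ := exists_agree hkn.le hG (by simp)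
      (x.trans (Function.Embedding.subtype _)) (y.trans (Function.Embedding.subtype _))
    let T : Finset α := Finset.univ.map (x.trans (Function.Embedding.subtype _))
    let T' : Finset α := Finset.univ.map (y.trans (Function.Embedding.subtype _))
    have hTD : T ⊆ D := fun t ht => by obtain ⟨i, -, rfl⟩ := Finset.mem_map.1 ht; exact (x i).2
    have hT'D : T' ⊆ D := fun t ht => by obtain ⟨i, -, rfl⟩ := Finset.mem_map.1 ht; exact (y i).2
    have hTT' : T.image f = T' := by
      ext t
      simp only [T, T', Finset.mem_image, Finset.mem_map, Finset.mem_univ, true_and]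
      constructor
      · rintro ⟨_, ⟨i, rfl⟩, rfl⟩; exact ⟨i, (hfxy i).symm⟩
      · rintro ⟨i, rfl⟩; exact ⟨_, ⟨i, rfl⟩, hfxy i⟩
    have hcard : Nat.card (GT T') = Nat.card (GT T₀) := by
      have h1 : T₀.card = k := hT₀c
      have h2 : T'.card = k := by simp [T']
      obtain ⟨f₀, hf₀, he⟩ := exists_agree hkn.le hG (ι := ↥T₀) (by simp [h1])
        (Function.Embedding.subtype _)
        ((Finset.equivOfCardEq (h1.trans h2.symm)).toEmbedding.trans (Function.Embedding.subtype _))
      have himg : T₀.image f₀ = T' := Finset.eq_of_subset_of_card_le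
        (fun t ht => by
          obtain ⟨s, hs, rfl⟩ := Finset.mem_image.1 ht
          have e := he ⟨s, hs⟩
          simp only [Function.Embedding.coe_subtype] at e
          rw [e]
          exact (Finset.equivOfCardEq (h1.trans h2.symm) ⟨s, hs⟩).2)
        (by rw [Finset.card_image_of_injective _ f₀.injective, h1, h2])
      rw [← himg, ← hconj f₀ hf₀, Coprime.card_conj_smul]
    obtain ⟨R, hR⟩ := Coprime.exists_sylow_map_eq (hQT T' hT'D) (by rw [hcard]; exact hT₀)
    have hle : MulAut.conj f • Q ≤ GT T' := by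
      rw [← hTT', ← hconj f hf]
      exact Coprime.conj_smul_mono (hQT T hTD) f
    obtain ⟨R', hR'⟩ := Coprime.exists_sylow_map_eq (p := p) hle
      (by rw [Coprime.card_conj_smul, hcard]; exact hT₀)
    obtain ⟨h, hh, hhR⟩ := Coprime.sylow_map_conj R' R
    rw [hR, hR', Coprime.conj_smul_conj_smul] at hhR
    obtain ⟨hhG, hhfix⟩ := (hGT T' h).1 hh
    refine ⟨⟨φ ⟨h * f, G.mul_mem hhG hf, Coprime.conj_smul_eq_self_iff.1 hhR⟩, _, rfl⟩,
      Function.Embedding.ext fun i => Subtype.ext ?_⟩
    show (h * f) (x i : α) = y i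
    have e1 : f (x i : α) = (y i : α) := hfxy i
    rw [Equiv.Perm.mul_apply, e1]
    exact hhfix _ (Finset.mem_map.2 ⟨i, Finset.mem_univ _, rfl⟩)
  · -- Gleason
    push Not at hcase
    refine S0743.result φ.range hp hk (by rw [Fintype.card_coe]; exact hQk) fun s hs => ?_
    let T : Finset α := s.map (Function.Embedding.subtype _)
    have hTD : T ⊆ D := fun t ht => by obtain ⟨i, -, rfl⟩ := Finset.mem_map.1 ht; exact i.2
    obtain ⟨P, hQP⟩ := (hQp.comap_subtype (K := GT T)).exists_le_sylow
    set Pm := (P : Subgroup (GT T)).map (GT T).subtype with hPm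
    have hQPm : Q ≤ Pm := fun q hq => ⟨⟨q, hQT T hTD hq⟩, hQP hq, rfl⟩
    have hPmp : IsPGroup p Pm := P.2.map _
    have hPc : Nat.card Pm = p ^ (Nat.card (GT T)).factorization p := Coprime.card_sylow_map P
    have hQne : Q.subgroupOf Pm ≠ ⊤ := by
      intro e
      have e2 : Nat.card Q = Nat.card Pm := by
        rw [← Nat.card_congr (Subgroup.subgroupOfEquivOfLe hQPm).toEquiv, e, Subgroup.card_top]
      exact hcase T hTD (by simp [T, hs]) (e2.trans hPc)
    haveI : Group.IsNilpotent Pm := hPmp.isNilpotent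
    have hlt := normalizerCondition_of_isNilpotent (Q.subgroupOf Pm) (lt_top_iff_ne_top.2 hQne)
    obtain ⟨r, hr, hrQ⟩ := SetLike.exists_of_lt hlt
    let R : Subgroup (Equiv.Perm α) := Pm ⊓ Subgroup.normalizer (Q : Set (Equiv.Perm α))
    have hQR : Q ≤ R := le_inf hQPm Subgroup.le_normalizer
    have hrR : (r : Equiv.Perm α) ∈ R := by
      refine ⟨r.2, Subgroup.mem_set_normalizer_iff.2 fun v => ?_⟩
      have hr' := Subgroup.mem_set_normalizer_iff.1 hr
      constructor
      · intro hv
        exact (hr' ⟨v, hQPm hv⟩).1 hv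
      · intro hv
        have hvP : v ∈ Pm := by
          have := Pm.mul_mem (Pm.mul_mem (Pm.inv_mem r.2) (hQPm hv)) r.2
          simpa [mul_assoc] using this
        exact (hr' ⟨v, hvP⟩).2 hv
    have hRp : IsPGroup p R := hPmp.to_le inf_le_left
    have hcardlt : Nat.card Q < Nat.card R := by
      refine lt_of_le_of_ne (Subgroup.card_le_of_le hQR) fun e => hrQ ?_
      have e3 := Subgroup.eq_of_le_of_card_ge hQR e.ge
      show (r : Equiv.Perm α) ∈ Q
      rw [e3]; exact hrR
    have hRT : R ≤ GT T := inf_le_left.trans (Subgroup.map_subtype_le _)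
    have hRfix : fixQ R = T := by
      refine (Finset.eq_of_subset_of_card_le (fun t ht => (hfixQ R t).2 fun q hq =>
        ((hGT T q).1 (hRT hq)).2 t ht) ?_).symm
      by_contra hlt'
      have : R ∈ S := Finset.mem_filter.2 ⟨Finset.mem_univ _, hRT.trans inf_le_left, hRp,
        fun e => hQ1 (le_bot_iff.1 (e ▸ hQR)), by
          have : T.card = k := by simp [T, hs]
          omega⟩
      have := hQmax R this
      omega
    have hRN : R ≤ N := le_inf (hRT.trans inf_le_left) inf_le_right
    let ι : R →* φ.range := φ.rangeRestrict.comp (Subgroup.inclusion hRN)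
    refine ⟨ι.range, hRp.of_surjective ι.rangeRestrict ι.rangeRestrict_surjective, ?_⟩
    ext y
    rw [MulAction.mem_fixedPoints, Finset.mem_coe]
    constructor
    · intro h
      have hyT : (y : α) ∈ T := by
        rw [← hRfix, hfixQ]
        intro q hq
        exact congrArg Subtype.val (h ⟨ι ⟨q, hq⟩, ⟨q, hq⟩, rfl⟩)
      obtain ⟨i, hi, hiy⟩ := Finset.mem_map.1 hyT
      rwa [show i = y from Subtype.ext hiy] at hi
    · rintro hy ⟨_, ⟨q, rfl⟩⟩
      exact Subtype.ext (((hGT T q).1 (hRT q.2)).2 _ (Finset.mem_map.2 ⟨y, hy, rfl⟩))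

/-- The semiregular case. -/
theorem hasAlt_of_semiregular {G : Subgroup (Equiv.Perm α)} {k : ℕ} (hk : 4 ≤ k)
    (hkn : k < Fintype.card α) (hG : IsMultiplyPretransitive G α k)
    (hsemi : ∀ g ∈ G, g ≠ 1 → (fixed g).card ≤ k) : HasAlt G k := by
  classical
  by_cases hA : alternatingGroup α ≤ G
  · exact hasAlt_of_alternating hkn hA
  -- the degree is at least `2 k`
  have h2k : 2 * k ≤ Fintype.card α := by
    by_contra hcon
    apply hA
    obtain ⟨T, -, hT⟩ := Finset.exists_subset_card_eq (s := (Finset.univ : Finset α)) (n := k)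
      (by rw [Finset.card_univ]; omega)
    have hlift : ∀ π : Equiv.Perm ↥T, ∃ g ∈ G, ∀ t : ↥T, g (t : α) = π t := fun π =>
      exists_agree hkn.le hG (by simp [hT]) (Function.Embedding.subtype _)
        (π.toEmbedding.trans (Function.Embedding.subtype _))
    choose w hw using hlift
    have hwT : ∀ π y, w π y ∉ T ↔ y ∉ T := by
      intro π y
      refine not_congr ⟨fun h => ?_, fun h => by rw [(hw π).2 ⟨y, h⟩]; exact (π ⟨y, h⟩).2⟩
      have e : w π (π.symm ⟨_, h⟩ : ↥T) = w π y := by
        rw [(hw π).2, Equiv.apply_symm_apply]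
      exact (w π).injective e ▸ (π.symm ⟨_, h⟩).2
    let F : Equiv.Perm ↥T → Equiv.Perm {y : α // y ∉ T} := fun π => (w π).subtypePerm (hwT π)
    have hlt : Fintype.card (Equiv.Perm {y : α // y ∉ T}) < Fintype.card (Equiv.Perm ↥T) := by
      rw [Fintype.card_perm, Fintype.card_perm, Fintype.card_coe, hT, Fintype.card_subtype_compl,
        Fintype.card_coe, hT]
      exact (Nat.factorial_lt (by omega)).2 (by omega)
    obtain ⟨π, ρ, hne, he⟩ := Fintype.exists_ne_map_eq_of_card_lt F hlt
    refine PermP.alternatingGroup_le_of_small_support G (by omega) hkn.le hG _ ((w ρ)⁻¹ * w π)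
      (G.mul_mem (G.inv_mem (hw ρ).1) (hw π).1) ?_ rfl ?_
    · intro e
      refine hne (Equiv.ext fun t => Subtype.ext ?_)
      rw [← (hw π).2, ← (hw ρ).2, show w π = w ρ from (inv_mul_eq_one.1 e).symm]
    · have hsub : ((w ρ)⁻¹ * w π).support ⊆ T := by
        intro y hy
        by_contra hyT
        refine Equiv.Perm.mem_support.1 hy ?_
        have e : w π y = w ρ y := congrArg (fun f => ((f ⟨y, hyT⟩ : {y : α // y ∉ T}) : α)) he
        simp [Equiv.Perm.mul_apply, e]
      have := Finset.card_le_card hsub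
      omega
  -- four points free
  obtain ⟨P, -, hP⟩ := Finset.exists_subset_card_eq (s := (Finset.univ : Finset α)) (n := k - 4)
    (by rw [Finset.card_univ]; omega)
  let β := {y : α // y ∉ P}
  let X := res G P
  have hβ : Fintype.card β = Fintype.card α - (k - 4) := by
    rw [Fintype.card_subtype_compl, Fintype.card_coe, hP]
  have h4 : IsMultiplyPretransitive X β 4 := res_pretransitive hkn.le hG P (by omega)
  have hlist : ∀ {a b c x : β}, [a, b, c, x].Nodup → Function.Injective ![a, b, c, x] := by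
    intro a b c x h
    simp only [List.nodup_cons, List.mem_cons, List.not_mem_nil, not_or, or_false] at h
    exact PermP.injective_four h.1.1 h.1.2.1 h.1.2.2 h.2.1.1 h.2.1.2 h.2.2.1
  have hD : SemiregFour.Data X β := by
    refine ⟨fun a b c x a' b' c' x' h h' => PermP.exists_four h4 (hlist h) (hlist h'), ?_⟩
    intro g a b c d e hnd ha hb hc hd he
    by_contra hg1
    have h5 := card_fixed_ofSubtype P (g : Equiv.Perm β) [a, b, c, d, e].toFinset (by
      intro y hy
      simp only [List.mem_toFinset, List.mem_cons, List.not_mem_nil, or_false] at hy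
      rcases hy with rfl | rfl | rfl | rfl | rfl <;> assumption)
    rw [List.toFinset_card_of_nodup hnd] at h5
    have := hsemi _ g.2 fun e' => hg1 (Subtype.ext (Equiv.Perm.ofSubtype_injective
      (e'.trans (map_one _).symm)))
    simp only [List.length_cons, List.length_nil] at h5
    omega
  obtain ⟨e4⟩ : Nonempty (Fin 4 ↪ β) :=
    Function.Embedding.nonempty_of_card_le (by rw [Fintype.card_fin, hβ]; omega)
  have hnd4 : [e4 0, e4 1, e4 2, e4 3].Nodup := by simp
  have hdvd := hD.dvd_sub_four hnd4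
  set l := Nat.card (SemiregFour.quad (G := X) (e4 0) (e4 1) (e4 2) (e4 3)) with hl
  have hn8 : 8 ≤ Fintype.card β := by omega
  by_cases hfull : l = Fintype.card β - 4
  · refine hasAlt_of_succ hkn ?_ hG
    intro T hT y z hy hz
    obtain ⟨w, hw, hwT⟩ : ∃ w ∈ G, P ⊆ T.image w := by
      obtain ⟨U, hUT, hU⟩ := Finset.exists_subset_card_eq (show k - 4 ≤ T.card by omega)
      obtain ⟨w, hw, he⟩ := exists_agree hkn.le hG (ι := ↥U) (by simp [hU]) (Function.Embedding.subtype _)
        ((Finset.equivOfCardEq (hU.trans hP.symm)).toEmbedding.trans (Function.Embedding.subtype _))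
      refine ⟨w, hw, fun q hq => ?_⟩
      have e1 := he ((Finset.equivOfCardEq (hU.trans hP.symm)).symm ⟨q, hq⟩)
      simp at e1
      exact Finset.mem_image.2 ⟨_, hUT ((Finset.equivOfCardEq (hU.trans hP.symm)).symm ⟨q, hq⟩).2, e1⟩
    set T' := T.image w with hT'
    have hT'c : T'.card = k := by rw [hT', Finset.card_image_of_injective _ w.injective, hT]
    have hout : ∀ v, v ∉ T → w v ∉ T' := fun v hv h => by
      obtain ⟨t, ht, e⟩ := Finset.mem_image.1 h
      exact hv (w.injective e ▸ ht)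
    -- the four remaining points
    let R : Finset β := Finset.univ.filter fun v : β => (v : α) ∈ T'
    have hR : R.card = 4 := by
      have e : R.map (Function.Embedding.subtype _) = T' \ P := by
        ext v; simp [R, and_comm]
      rw [← Finset.card_map (Function.Embedding.subtype _), e, Finset.card_sdiff_of_subset hwT,
        hT'c, hP]
      omega
    have hlen : R.toList.length = 4 := by rw [Finset.length_toList, hR]
    have hndR := R.nodup_toList
    match hRl : R.toList, hlen with
    | [a, b, c, x], _ =>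
      rw [hRl] at hndR
      have hmemR : ∀ v : β, (v : α) ∈ T' → v = a ∨ v = b ∨ v = c ∨ v = x := fun v hv => by
        have : v ∈ R.toList := Finset.mem_toList.2 (by simp [R, hv])
        rw [hRl] at this
        simpa using this
      have hnm : ∀ v, v ∉ T → (w v ∉ P) := fun v hv h => hout v hv (hwT h)
      let y' : β := ⟨w y, hnm y hy⟩
      let z' : β := ⟨w z, hnm z hz⟩
      let Q := SemiregFour.quad (G := X) a b c x
      have hsne : ∀ v : β, (v : α) ∉ T' → [a, b, c, x, v].Nodup := by
        intro v hv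
        have hmem : ∀ t ∈ [a, b, c, x], (t : α) ∈ T' := fun t ht => by
          rw [← hRl, Finset.mem_toList] at ht
          simpa [R] using ht
        rw [show [a, b, c, x, v] = [a, b, c, x] ++ [v] from rfl, List.nodup_append]
        exact ⟨hndR, List.nodup_singleton v, fun t ht t' ht' e => hv (by
          rw [List.mem_singleton] at ht'; rw [← ht', ← e]; exact hmem t ht)⟩
      have horb : (orbit Q y').ncard = Fintype.card β - 4 := by
        rw [← Nat.card_coe_set_eq, hD.orbit_quad_card (hsne y' (hout y hy)), ← hfull, hl,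
          hD.card_quad hndR hnd4]
      let C : Finset β := Finset.univ \ [a, b, c, x].toFinset
      have hC : C.card = Fintype.card β - 4 := by
        rw [Finset.card_univ_diff, List.toFinset_card_of_nodup hndR]; rfl
      have hsubC : orbit Q y' ⊆ (C : Set β) := by
        rintro v ⟨q, rfl⟩
        obtain ⟨qa, qb, qc, qx⟩ := SemiregFour.mem_quad.1 q.2
        have hne := hsne y' (hout y hy)
        simp only [List.nodup_cons, List.mem_cons, List.not_mem_nil, not_or, or_false] at hne
        simp only [C, Finset.coe_sdiff, Finset.coe_univ, Set.mem_diff, Set.mem_univ, true_and,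
          Finset.mem_coe, List.mem_toFinset, List.mem_cons, List.not_mem_nil, or_false]
        rintro (e | e | e | e)
        · exact hne.1.2.2.2 (MulAction.injective (q : X) (qa.trans e.symm))
        · exact hne.2.1.2.2 (MulAction.injective (q : X) (qb.trans e.symm))
        · exact hne.2.2.1.2 (MulAction.injective (q : X) (qc.trans e.symm))
        · exact hne.2.2.2.1 (MulAction.injective (q : X) (qx.trans e.symm))
      have heq : orbit Q y' = (C : Set β) :=
        Set.eq_of_subset_of_ncard_le hsubC (by rw [horb, Set.ncard_coe_finset, hC]) C.finite_toSet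
      have hzC : z' ∈ (C : Set β) := by
        simp only [C, Finset.coe_sdiff, Finset.coe_univ, Set.mem_diff, Set.mem_univ, true_and,
          Finset.mem_coe, List.mem_toFinset]
        intro h
        have := List.nodup_append.1 (show ([a, b, c, x] ++ [z']).Nodup from hsne z' (hout z hz))
        exact this.2.2 z' h z' (by simp) rfl
      rw [← heq] at hzC
      obtain ⟨q, hq⟩ := hzC
      have hq' : ((q : X) : Equiv.Perm β) y' = z' := hq
      obtain ⟨qa, qb, qc, qx⟩ := SemiregFour.mem_quad.1 q.2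
      set f := Equiv.Perm.ofSubtype ((q : X) : Equiv.Perm β) with hf
      have hfG : f ∈ G := (q : X).2
      refine ⟨w⁻¹ * f * w, G.mul_mem (G.mul_mem (G.inv_mem hw) hfG) hw, fun t ht => ?_, ?_⟩
      · simp only [Equiv.Perm.mul_apply]
        rw [Equiv.Perm.inv_eq_iff_eq]
        have htT' : w t ∈ T' := Finset.mem_image.2 ⟨t, ht, rfl⟩
        by_cases htP : w t ∈ P
        · exact (Equiv.Perm.ofSubtype_apply_of_not_mem (p := fun v => v ∉ P) _ (not_not.2 htP)).symm ▸ rfl
        · have e1 : f (w t) = (((q : X) : Equiv.Perm β) ⟨w t, htP⟩ : α) :=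
            Equiv.Perm.ofSubtype_apply_coe _ (⟨w t, htP⟩ : β)
          rw [e1]
          refine (congrArg Subtype.val ?_).trans (show ((⟨w t, htP⟩ : β) : α) = w t from rfl)
          rcases hmemR ⟨w t, htP⟩ htT' with e | e | e | e <;> rw [e] <;> assumption
      · simp only [Equiv.Perm.mul_apply]
        rw [Equiv.Perm.inv_eq_iff_eq,
          show f (w y) = (((q : X) : Equiv.Perm β) y' : α) from
            Equiv.Perm.ofSubtype_apply_coe _ y', hq']
  -- the group is sharply transitive
  have h2l : 2 * l ≤ Fintype.card β - 4 := by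
    obtain ⟨m, hm⟩ := hdvd
    rw [hm] at hfull ⊢
    rcases Nat.lt_or_ge m 2 with h | h
    · interval_cases m <;> omega
    · calc 2 * l = l * 2 := Nat.mul_comm _ _
        _ ≤ l * m := Nat.mul_le_mul_left l h
  have hl1 : l = 1 := hD.card_quad_eq_one hn8 hnd4 h2l
  have hsharp : ∀ g ∈ G, g ≠ 1 → (fixed g).card < k := by
    intro g hg hg1
    by_contra hcon
    obtain ⟨T, hTs, hT⟩ := Finset.exists_subset_card_eq (show k ≤ (fixed g).card by omega)
    let pts : P ⊕ Fin 4 ↪ α := ⟨Sum.elim (fun p => (p : α)) fun i => (e4 i : α), by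
      rintro (a | a) (b | b) h <;> simp only [Sum.elim_inl, Sum.elim_inr] at h
      · rw [Subtype.ext h]
      · exact absurd a.2 (h ▸ (e4 b).2)
      · exact absurd b.2 (h.symm ▸ (e4 a).2)
      · rw [e4.injective (Subtype.ext h)]⟩
    have hc : Fintype.card (P ⊕ Fin 4) = Fintype.card ↥T := by simp [hP, hT]; omega
    obtain ⟨w, hw, hwp⟩ := exists_agree hkn.le hG (by simp [hP]; omega)
      ((Fintype.equivOfCardEq hc).toEmbedding.trans (Function.Embedding.subtype _)) pts
    set h := w * g * w⁻¹ with hh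
    have hfixh : ∀ i, h (pts i) = pts i := by
      intro i
      have hg' : g ((Fintype.equivOfCardEq hc i : ↥T) : α) = (Fintype.equivOfCardEq hc i : ↥T) :=
        mem_fixed.1 (hTs (Fintype.equivOfCardEq hc i).2)
      have e := hwp i
      simp only [Function.Embedding.trans_apply, Equiv.coe_toEmbedding,
        Function.Embedding.coe_subtype] at e
      rw [hh, Equiv.Perm.mul_apply, Equiv.Perm.mul_apply, ← e]
      simp [hg']
    have hhP : ∀ v, h v ∉ P ↔ v ∉ P := fun v => by
      refine not_congr ⟨fun hv => ?_, fun hv => ?_⟩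
      · have e : h (h v) = h v := hfixh (Sum.inl ⟨h v, hv⟩)
        rwa [h.injective e] at hv
      · have e : h v = v := hfixh (Sum.inl ⟨v, hv⟩)
        rwa [e]
    have hofS : Equiv.Perm.ofSubtype (h.subtypePerm (p := fun v => v ∉ P) hhP) = h := by
      refine Equiv.ext fun v => ?_
      by_cases hv : v ∈ P
      · rw [Equiv.Perm.ofSubtype_apply_of_not_mem (p := fun v => v ∉ P) _ (not_not.2 hv)]
        exact (hfixh (Sum.inl ⟨v, hv⟩)).symm
      · exact Equiv.Perm.ofSubtype_apply_coe (h.subtypePerm (p := fun v => v ∉ P) hhP) ⟨v, hv⟩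
    let q : X := ⟨h.subtypePerm (p := fun v => v ∉ P) hhP, by
      show Equiv.Perm.ofSubtype _ ∈ G
      rw [hofS]
      exact G.mul_mem (G.mul_mem hw hg) (G.inv_mem hw)⟩
    have hq : q ∈ SemiregFour.quad (G := X) (e4 0) (e4 1) (e4 2) (e4 3) :=
      SemiregFour.mem_quad.2 ⟨Subtype.ext (hfixh (Sum.inr 0)), Subtype.ext (hfixh (Sum.inr 1)),
        Subtype.ext (hfixh (Sum.inr 2)), Subtype.ext (hfixh (Sum.inr 3))⟩
    rw [hl] at hl1
    rw [Subgroup.eq_bot_of_card_eq _ hl1, Subgroup.mem_bot] at hq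
    refine hg1 ?_
    have : h = 1 := by
      rw [← hofS, show h.subtypePerm (p := fun v => v ∉ P) hhP = 1 from congrArg Subtype.val hq, map_one]
    rwa [hh, conj_eq_one_iff] at this
  have hS : Sharp G k := ⟨hkn.le, hG, hsharp⟩
  have hstab : ∀ x : Fin 4 ↪ β, stabilizer X x = ⊥ := by
    intro x
    rw [eq_bot_iff]
    intro q hq
    have hq' : ∀ i, (q : Equiv.Perm β) (x i) = x i := fun i => DFunLike.congr_fun hq i
    by_contra hq1
    have h4' := card_fixed_ofSubtype P (q : Equiv.Perm β) (Finset.univ.map x) (by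
      intro v hv
      obtain ⟨i, -, rfl⟩ := Finset.mem_map.1 hv
      exact hq' i)
    rw [Finset.card_map, Finset.card_univ, Fintype.card_fin] at h4'
    have := hsharp _ q.2 fun e' => hq1 (Subgroup.mem_bot.2 (Subtype.ext
      (Equiv.Perm.ofSubtype_injective (e'.trans (map_one _).symm))))
    omega
  obtain ⟨-, h11, hev⟩ := PermP.sharp_four_bound h4 hstab ⟨e4⟩
  rw [Nat.card_eq_fintype_card] at h11 hev
  have hnodd : ¬ Even (Fintype.card β) := fun he => by have := hev he; omega
  rw [Nat.not_even_iff_odd] at hnodd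
  obtain ⟨m, hm⟩ := hnodd
  rcases (show Fintype.card β = 9 ∨ Fintype.card β = 11 by omega) with h9 | h11'
  · exact (hS.false_of_five (by omega) (by omega)).elim
  rcases (show k ≤ 5 ∨ 6 ≤ k by omega) with hk5 | hk6
  · obtain ⟨Δ, hΔ, hfullΔ⟩ := hS.exists_full (by omega) (by omega)
    exact ⟨Δ, hΔ, fun σ _ => hfullΔ σ⟩
  -- thirteen points
  exfalso
  obtain ⟨P', -, hP'⟩ := Finset.exists_subset_card_eq (s := (Finset.univ : Finset α)) (n := k - 6)
    (by rw [Finset.card_univ]; omega)
  let γ := {y : α // y ∉ P'}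
  let Y := res G P'
  have hγ : Fintype.card γ = 13 := by
    have e : Fintype.card γ = Fintype.card α - (k - 6) := by
      rw [Fintype.card_subtype_compl, Fintype.card_coe, hP']
    omega
  haveI h6 : IsMultiplyPretransitive Y γ 6 := res_pretransitive hkn.le hG P' (by omega)
  haveI : IsPretransitive Y γ := by
    rw [← is_one_pretransitive_iff]
    exact res_pretransitive hkn.le hG P' (by omega)
  refine S0710.result hγ Y ?_
  obtain ⟨x6⟩ : Nonempty (Fin 6 ↪ γ) :=
    Function.Embedding.nonempty_of_card_le (by rw [Fintype.card_fin, hγ]; omega)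
  rw [@PermLib.card_eq_mul_card_stabilizer _ _ _ _ h6 x6, Nat.card_eq_fintype_card,
    Fintype.card_embedding_eq, hγ, Fintype.card_fin,
    show stabilizer Y x6 = ⊥ from ?_, Subgroup.card_bot]
  · rfl
  · rw [eq_bot_iff]
    intro q hq
    have hq' : ∀ i, (q : Equiv.Perm γ) (x6 i) = x6 i := fun i => DFunLike.congr_fun hq i
    by_contra hq1
    have h6' := card_fixed_ofSubtype P' (q : Equiv.Perm γ) (Finset.univ.map x6) (by
      intro v hv
      obtain ⟨i, -, rfl⟩ := Finset.mem_map.1 hv
      exact hq' i)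
    rw [Finset.card_map, Finset.card_univ, Fintype.card_fin] at h6'
    have := hsharp _ q.2 fun e' => hq1 (Subgroup.mem_bot.2 (Subtype.ext
      (Equiv.Perm.ofSubtype_injective (e'.trans (map_one _).symm))))
    omega

theorem hasAlt : ∀ (n : ℕ) (α : Type u) [Fintype α] [DecidableEq α]
    (G : Subgroup (Equiv.Perm α)) (k : ℕ), Fintype.card α = n → 4 ≤ k → k < n →
    IsMultiplyPretransitive G α k → HasAlt G k := by
  intro n
  induction n using Nat.strong_induction_on with
  | _ n ih =>
    intro α _ _ G k hn hk hkn hG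
    subst hn
    by_cases hex : ∃ g ∈ G, g ≠ 1 ∧ k < (fixed g).card
    · obtain ⟨g, hg, hg1, hfix⟩ := hex
      obtain ⟨D, H, hDk, hDn, hH, hlift⟩ := exists_smaller (by omega) hkn hG hg hg1 hfix
      obtain ⟨Δ, hΔ, hΔA⟩ :=
        ih _ hDn ↥D H k (by rw [Fintype.card_coe]) hk hDk hH
      let ι : ↥D ↪ α := Function.Embedding.subtype _
      refine ⟨Δ.map ι, by rw [Finset.card_map, hΔ], fun σ hσ => ?_⟩
      let e : ↥Δ ≃ ↥(Δ.map ι) :=
        Equiv.ofBijective (fun y => ⟨ι y, Finset.mem_map.2 ⟨y, y.2, rfl⟩⟩)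
          ⟨fun a b h => Subtype.ext (ι.injective (congrArg Subtype.val h :)), fun y => by
            obtain ⟨a, ha, hay⟩ := Finset.mem_map.1 y.2
            exact ⟨⟨a, ha⟩, Subtype.ext hay⟩⟩
      obtain ⟨h, hh, hhy⟩ := hΔA (e.symm.permCongr σ) (by
        rw [Equiv.Perm.mem_alternatingGroup, Equiv.Perm.sign_permCongr]
        exact Equiv.Perm.mem_alternatingGroup.1 hσ)
      obtain ⟨f, hf, hfy⟩ := hlift h hh
      refine ⟨f, hf, fun x => ?_⟩
      obtain ⟨y, rfl⟩ := e.surjective x
      show f ((y : ↥D) : α) = _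
      rw [hfy, hhy, Equiv.permCongr_apply, Equiv.symm_symm]
      exact congrArg Subtype.val (e.apply_symm_apply (σ (e y)))
    · push Not at hex
      exact hasAlt_of_semiregular hk hkn hG hex

end Cfsg.Agent.PermB.Liv
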