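import Cfsg.Agent.PermB.LivHom
import Cfsg.Agent.PermB.SemiregFourPlane
import Cfsg.Agent.SmallGroups.Basic
import Cfsg.Agent.RecogA.TwiceOdd
import Mathlib.GroupTheory.IndexNormal

/-!
Small exceptional homogeneous groups.
-/

set_option autoImplicit false

namespace Cfsg.Agent.PermB.Liv

open MulAction

variable {α : Type*} [Fintype α] [DecidableEq α]

/-- An element of prime order generating an invariant subgroup fixes no point. -/
theorem false_of_invariant_prime {G : Subgroup (Equiv.Perm α)} [IsPretransitive G α] {p : ℕ}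
    [hp : Fact p.Prime] (hn : ¬ p ∣ Fintype.card α) {g : G} (hg : orderOf g = p)
    (hinv : ∀ h : G, h * g * h⁻¹ ∈ Subgroup.zpowers g) : False := by
  obtain ⟨y, hy⟩ : ∃ y, (g : Equiv.Perm α) y = y := by
    by_contra hcon
    push Not at hcon
    have h := Equiv.Perm.card_compl_support_modEq (p := p) (n := 1) (σ := (g : Equiv.Perm α))
      (by rw [pow_one, ← SubmonoidClass.coe_pow, ← hg, pow_orderOf_eq_one]; rfl)
    have e : (g : Equiv.Perm α).supportᶜ.card = 0 := by
      rw [Finset.card_eq_zero, Finset.compl_eq_empty_iff, Finset.eq_univ_iff_forall]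
      exact fun v => Equiv.Perm.mem_support.2 (hcon v)
    rw [e] at h
    exact hn (Nat.modEq_zero_iff_dvd.1 h.symm)
  have hg1 : g ≠ 1 := fun e => by rw [e, orderOf_one] at hg; exact hp.out.ne_one hg.symm
  refine hg1 (Subtype.ext (Equiv.ext fun v => ?_))
  obtain ⟨h, hh⟩ := exists_smul_eq G v y
  obtain ⟨i, hi⟩ := hinv h
  have e1 : (h * g * h⁻¹) • y = y := by
    rw [← hi]
    show ((g : Equiv.Perm α) ^ i) y = y
    exact Equiv.Perm.zpow_apply_eq_self_of_apply_eq_self hy i
  have e2 : g • v = v := by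
    rw [mul_smul, mul_smul, ← hh, inv_smul_smul] at e1
    exact MulAction.injective h e1
  exact e2

theorem sign_involution {σ : Equiv.Perm α} (hσ : σ * σ = 1) {m : ℕ}
    (hs : σ.support.card = 2 * m) : Equiv.Perm.sign σ = (-1) ^ m := by
  have hall : ∀ c ∈ σ.cycleType, c = 2 := by
    intro c hc
    have h1 : c ∣ 2 := (Equiv.Perm.dvd_of_mem_cycleType hc).trans
      (orderOf_dvd_of_pow_eq_one (by rw [pow_two, hσ]))
    have h2 := Equiv.Perm.two_le_of_mem_cycleType hc
    have := Nat.le_of_dvd (by norm_num) h1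
    omega
  have hrep := Multiset.eq_replicate_card.2 hall
  have hsum := σ.sum_cycleType
  rw [hrep, Multiset.sum_replicate, smul_eq_mul, hs] at hsum
  have hk : σ.cycleType.card = m := by omega
  rw [Equiv.Perm.sign_of_cycleType, hrep, Multiset.sum_replicate, Multiset.card_replicate, hk,
    smul_eq_mul, pow_add, pow_mul']
  simp

/-- The even elements are half of a group with an odd element. -/
theorem card_sign_ker {G : Subgroup (Equiv.Perm α)} {g : G}
    (hg : Equiv.Perm.sign (g : Equiv.Perm α) = -1) :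
    2 * Nat.card (Equiv.Perm.sign.comp G.subtype).ker = Nat.card G := by
  set f := Equiv.Perm.sign.comp G.subtype
  have hsurj : Function.Surjective f := fun u => by
    rcases Int.units_eq_one_or u with rfl | rfl
    · exact ⟨1, map_one f⟩
    · exact ⟨g, hg⟩
  rw [← Subgroup.card_mul_index f.ker, Subgroup.index_ker, MonoidHom.range_eq_top.2 hsurj,
    Subgroup.card_top, Nat.card_eq_fintype_card (α := ℤˣ), mul_comm]
  rfl

/-- No transitive group on six points has a normal subgroup of order thirty. -/
theorem false_of_thirty {G : Subgroup (Equiv.Perm α)} [IsPretransitive G α]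
    (hn : Fintype.card α = 6) (K : Subgroup G) [K.Normal] (hK : Nat.card K = 30) : False := by
  obtain ⟨M, hM, hMiff⟩ := RecogA.exists_subgroup_of_card_two_mul_odd (X := K) (m := 15)
    ⟨7, rfl⟩ hK
  haveI : Fact (Nat.Prime 5) := ⟨by norm_num⟩
  obtain ⟨g, hg⟩ := exists_prime_orderOf_dvd_card' (G := M) 5 (by rw [hM]; norm_num)
  have hP : (Subgroup.zpowers g).index = 3 := by
    have := Subgroup.card_mul_index (Subgroup.zpowers g)
    rw [Nat.card_zpowers, hg, hM] at this
    omega
  haveI : (Subgroup.zpowers g).Normal :=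
    Subgroup.normal_of_index_eq_minFac_card (by rw [hP, hM]; norm_num)
  have hg' : orderOf ((g : K) : G) = 5 := by rw [Subgroup.orderOf_coe, Subgroup.orderOf_coe, hg]
  refine false_of_invariant_prime (p := 5) (by rw [hn]; norm_num) hg' fun h => ?_
  have hmem : h * ((g : K) : G) * h⁻¹ ∈ K := Subgroup.Normal.conj_mem inferInstance _ (g : K).2 h
  have h5 : (h * ((g : K) : G) * h⁻¹) ^ 5 = 1 := by
    rw [conj_pow, ← hg', pow_orderOf_eq_one]; group
  have hM' : (⟨_, hmem⟩ : K) ∈ M := (hMiff _).2 (Subtype.ext (by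
    show (h * ((g : K) : G) * h⁻¹) ^ 15 = 1
    rw [show 15 = 5 * 3 from rfl, pow_mul, h5, one_pow]))
  set w : M := ⟨⟨_, hmem⟩, hM'⟩
  have hw5 : w ^ 5 = 1 := Subtype.ext (Subtype.ext h5)
  have h3 := Subgroup.pow_index_mem (Subgroup.zpowers g) w
  rw [hP] at h3
  have hwP : w ∈ Subgroup.zpowers g := by
    rw [show w = (w ^ 3) ^ 2 * (w ^ 5)⁻¹ by group, hw5, inv_one, mul_one]
    exact Subgroup.pow_mem _ h3 2
  obtain ⟨i, hi⟩ := hwP
  exact ⟨i, congrArg (fun v : M => ((v : K) : G)) hi⟩

/-- The group of order sixty on six points is not homogeneous on triples. -/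
theorem false_of_sixty {G : Subgroup (Equiv.Perm α)} [IsPretransitive G α]
    (hn : Fintype.card α = 6) (hG : Nat.card G = 60)
    (hh : IsPretransitive G (Set.powersetCard α 3)) : False := by
  obtain ⟨T, -, hT⟩ := Finset.exists_subset_card_eq (s := (Finset.univ : Finset α)) (n := 3)
    (by rw [Finset.card_univ, hn]; norm_num)
  have hTc : (Tᶜ).card = 3 := by rw [Finset.card_compl, hn, hT]
  obtain ⟨g, hg⟩ := exists_image_eq hh T Tᶜ hT hTc
  have hgc : (Tᶜ).image (g • ·) = T := by
    refine Finset.eq_of_subset_of_card_le (fun v hv => ?_) (by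
      rw [Finset.card_image_of_injective _ (MulAction.injective g), hTc, hT])
    obtain ⟨z, hz, rfl⟩ := Finset.mem_image.1 hv
    by_contra hzT
    rw [← Finset.mem_compl, ← hg, Finset.mem_image] at hzT
    obtain ⟨w, hw, e⟩ := hzT
    exact (Finset.mem_compl.1 hz) (MulAction.injective g e ▸ hw)
  let T' : Set.powersetCard α 3 := ⟨T, hT⟩
  have hgg : (g * g) • T' = T' := Subtype.ext (by
    show ((((g * g : G) : Equiv.Perm α) • T' : Set.powersetCard α 3) : Finset α) = T
    rw [Set.powersetCard.coe_smul, Finset.smul_finset_def]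
    show T.image (fun y => (g * g) • y) = T
    calc T.image (fun y => (g * g) • y) = (T.image (g • ·)).image (g • ·) := by
          rw [Finset.image_image]; exact Finset.image_congr fun y _ => mul_smul g g y
      _ = T := by rw [hg, hgc])
  have hstab : Nat.card (stabilizer G T') = 3 := by
    have h := @PermLib.card_eq_mul_card_stabilizer G (Set.powersetCard α 3) _ _ hh T'
    rw [hG, Set.powersetCard.card, Nat.card_eq_fintype_card (α := α), hn,
      show Nat.choose 6 3 = 20 by decide +kernel] at h
    omega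
  have h3 : (g * g) ^ 3 = 1 := by
    have := congrArg Subtype.val (pow_card_eq_one' (x := (⟨g * g, hgg⟩ : stabilizer G T')))
    rwa [hstab] at this
  set h := g ^ 3
  have hh2 : (h : Equiv.Perm α) * h = 1 := congrArg Subtype.val
    (show h * h = 1 by rw [← h3, ← pow_two g, ← pow_mul]; simp only [h, ← pow_add])
  have hfree : ∀ y, (h : Equiv.Perm α) y ≠ y := by
    intro y
    have hsw : ∀ z, (z ∈ T → g • z ∈ Tᶜ) ∧ (z ∈ Tᶜ → g • z ∈ T) := fun z =>
      ⟨fun hz => hg ▸ Finset.mem_image.2 ⟨z, hz, rfl⟩,
        fun hz => hgc ▸ Finset.mem_image.2 ⟨z, hz, rfl⟩⟩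
    intro e
    have e' : g • g • g • y = y := by
      rw [← mul_smul, ← mul_smul]
      show ((g * g * g : G) : Equiv.Perm α) y = y
      rwa [show g * g * g = h by simp only [h, pow_succ, pow_zero, one_mul]]
    by_cases hy : y ∈ T
    · have := (hsw _).1 ((hsw _).2 ((hsw _).1 hy))
      rw [e', Finset.mem_compl] at this
      exact this hy
    · have := (hsw _).2 ((hsw _).1 ((hsw _).2 (Finset.mem_compl.2 hy)))
      rw [e'] at this
      exact hy this
  have hsign : Equiv.Perm.sign (h : Equiv.Perm α) = -1 := by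
    rw [sign_involution hh2 (m := 3)]
    · rfl
    rw [show (h : Equiv.Perm α).support = Finset.univ from
      Finset.eq_univ_of_forall fun y => Equiv.Perm.mem_support.2 (hfree y), Finset.card_univ, hn]
  have hK := card_sign_ker hsign
  exact false_of_thirty hn _ (show Nat.card (Equiv.Perm.sign.comp G.subtype).ker = 30 by omega)

/-- No transitive group of order 112 on eight points has fixity two. -/
theorem false_of_oneTwelve {X : Subgroup (Equiv.Perm α)} [IsPretransitive X α]
    (hn : Fintype.card α = 8) (hX : Nat.card X = 112)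
    (hfree : ∀ g : X, g ≠ 1 → (fixed (g : Equiv.Perm α)).card ≤ 2) : False := by
  haveI h7 : Fact (Nat.Prime 7) := ⟨by norm_num⟩
  haveI h2 : Fact (Nat.Prime 2) := ⟨Nat.prime_two⟩
  obtain ⟨b⟩ : Nonempty α := Fintype.card_pos_iff.1 (by omega)
  have hXb : Nat.card (stabilizer X b) = 14 := by
    have h := PermLib.card_eq_mul_card_stabilizer (G := X) b
    rw [hX, Nat.card_eq_fintype_card (α := α), hn] at h
    omega
  obtain ⟨t, ht⟩ := exists_prime_orderOf_dvd_card' (G := stabilizer X b) 2 (by rw [hXb]; norm_num)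
  obtain ⟨z, hz⟩ := exists_prime_orderOf_dvd_card' (G := stabilizer X b) 7 (by rw [hXb]; norm_num)
  rw [← Subgroup.orderOf_coe] at ht hz
  have ht1 : (t : X) ≠ 1 := fun e => by rw [e, orderOf_one] at ht; omega
  have htt : (t : X) * t = 1 := by rw [← pow_two, ← ht, pow_orderOf_eq_one]
  have htt' : ((t : X) : Equiv.Perm α) * (t : X) = 1 := congrArg Subtype.val htt
  have hfixt : (fixed ((t : X) : Equiv.Perm α)).card = 2 := by
    have h1 := hfree _ ht1
    have h2 := Equiv.Perm.two_dvd_card_support (σ := ((t : X) : Equiv.Perm α))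
      (by rw [pow_two]; exact htt')
    have h3 := card_fixed_add ((t : X) : Equiv.Perm α)
    have h4 : 1 ≤ (fixed ((t : X) : Equiv.Perm α)).card :=
      Finset.card_pos.2 ⟨b, mem_fixed.2 t.2⟩
    omega
  have hsign : Equiv.Perm.sign ((t : X) : Equiv.Perm α) = -1 := by
    rw [sign_involution htt' (m := 3)]
    · rfl
    have h3 := card_fixed_add ((t : X) : Equiv.Perm α)
    omega
  set f := Equiv.Perm.sign.comp X.subtype
  have hK : Nat.card f.ker = 56 := by
    have h : 2 * Nat.card f.ker = Nat.card X := card_sign_ker hsign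
    omega
  have hseven : ∀ x : X, orderOf x = 7 → x ∈ f.ker := fun x hx => by
    rw [MonoidHom.mem_ker]
    have h := map_pow f x 7
    rw [← hx, pow_orderOf_eq_one, map_one, hx] at h
    rcases Int.units_eq_one_or (f x) with e | e
    · exact e
    · rw [e] at h; exact absurd h (by decide)
  have hP : ∀ P : Sylow 7 f.ker, Nat.card ↥(P : Subgroup f.ker) = 7 := fun P => by
    rw [SmallGroups.card_sylow_subgroup (a := 1) (m := 8) (by rw [hK]; norm_num) (by norm_num) P,
      pow_one]
  let zK : f.ker := ⟨z, hseven _ hz⟩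
  have hzK : orderOf zK = 7 := by rw [← Subgroup.orderOf_coe]; exact hz
  obtain ⟨P₀, hP₀⟩ :=
    (IsPGroup.of_card (n := 1) (G := Subgroup.zpowers zK) (p := 7)
      (by rw [Nat.card_zpowers, hzK, pow_one])).exists_le_sylow
  have hn7 : Nat.card (Sylow 7 f.ker) = 8 := by
    have hmod : Nat.card (Sylow 7 f.ker) % 7 = 1 := card_sylow_modEq_one 7 f.ker
    have hdvd : Nat.card (Sylow 7 f.ker) ∣ 8 :=
      SmallGroups.card_sylow_dvd (p := 7) (a := 1) (m := 8) (by rw [hK]; norm_num)
    have := Nat.le_of_dvd (by norm_num) hdvd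
    by_contra h8
    have h1 : Nat.card (Sylow 7 f.ker) = 1 := by omega
    have hsub : Subsingleton (Sylow 7 f.ker) := (Nat.card_eq_one_iff_unique.1 h1).1
    refine false_of_invariant_prime (p := 7) (by rw [hn]; norm_num) hz fun h => ?_
    have h7' : orderOf (h * (z : X) * h⁻¹) = 7 := by
      rw [show h * (z : X) * h⁻¹ = MulAut.conj h (z : X) from rfl, MulEquiv.orderOf_eq, hz]
    let w : f.ker := ⟨_, hseven _ h7'⟩
    obtain ⟨P₁, hP₁⟩ :=
      (IsPGroup.of_card (n := 1) (G := Subgroup.zpowers w) (p := 7)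
        (by rw [Nat.card_zpowers, ← Subgroup.orderOf_coe, h7', pow_one])).exists_le_sylow
    have hPz : Subgroup.zpowers zK = (P₀ : Subgroup f.ker) :=
      Subgroup.eq_of_le_of_card_ge hP₀ (by rw [hP, Nat.card_zpowers, hzK])
    have hw : w ∈ Subgroup.zpowers zK := by
      rw [hPz, hsub.elim P₀ P₁]; exact hP₁ (Subgroup.mem_zpowers _)
    obtain ⟨i, hi⟩ := hw
    exact ⟨i, congrArg Subtype.val hi⟩
  -- the other eight elements form a regular subgroup
  have hcard7 := SmallGroups.card_orderOf_eq_prime hP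
  rw [hn7] at hcard7
  obtain ⟨T⟩ : Nonempty (Sylow 2 f.ker) := inferInstance
  have hTc : Nat.card ↥(T : Subgroup f.ker) = 8 := by
    rw [SmallGroups.card_sylow_subgroup (a := 3) (m := 7) (by rw [hK]; norm_num) (by norm_num) T]
    norm_num
  have hTiff : ∀ x : f.ker, x ∈ (T : Subgroup f.ker) ↔ orderOf x ≠ 7 := by
    classical
    haveI := Fintype.ofFinite f.ker
    have hsub : (Finset.univ.filter fun x : f.ker => x ∈ (T : Subgroup f.ker)) ⊆
        Finset.univ.filter fun x : f.ker => orderOf x ≠ 7 := by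
      intro x hx
      simp only [Finset.mem_filter, Finset.mem_univ, true_and] at hx ⊢
      intro e
      have := Subgroup.orderOf_dvd_natCard _ hx
      rw [e, hTc] at this
      norm_num at this
    have hnot : (Finset.univ.filter fun x : f.ker => orderOf x ≠ 7).card = 8 := by
      have h := Nat.card_congr (Equiv.sumCompl fun x : f.ker => orderOf x = 7)
      rw [Nat.card_sum, hK, hcard7] at h
      rw [← Fintype.card_subtype, ← Nat.card_eq_fintype_card]
      simp only [ne_eq] at h ⊢
      omega
    have heq := Finset.eq_of_subset_of_card_le hsub (by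
      rw [hnot, ← Fintype.card_subtype, ← Nat.card_eq_fintype_card]; exact hTc.ge)
    intro x
    have := Finset.ext_iff.1 heq x
    simpa using this
  let T' : Subgroup X := (T : Subgroup f.ker).map f.ker.subtype
  have hT'c : Nat.card T' = 8 := by
    rw [Nat.card_congr ((T : Subgroup f.ker).equivMapOfInjective _ f.ker.subtype_injective).toEquiv.symm]
    exact hTc
  have hT'n : ∀ h : X, ∀ u ∈ T', h * u * h⁻¹ ∈ T' := by
    rintro h _ ⟨u, hu, rfl⟩
    refine ⟨⟨h * u * h⁻¹, Subgroup.Normal.conj_mem inferInstance _ u.2 h⟩, (hTiff _).2 ?_, rfl⟩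
    intro e
    rw [← Subgroup.orderOf_coe] at e
    refine (hTiff u).1 hu ?_
    rw [← Subgroup.orderOf_coe, ← MulEquiv.orderOf_eq (MulAut.conj h) ((u : f.ker) : X)]
    exact e
  have hord : ∀ u ∈ T', orderOf u ∣ 8 := fun u hu => hT'c ▸ Subgroup.orderOf_dvd_natCard _ hu
  have hzfix : ∀ y, ((z : X) : Equiv.Perm α) y = y → y = b := by
    intro y hy
    by_contra hyb
    have h := Equiv.Perm.card_compl_support_modEq (p := 7) (n := 1)
      (σ := ((z : X) : Equiv.Perm α))
      (by rw [pow_one, ← SubmonoidClass.coe_pow, ← hz, pow_orderOf_eq_one]; rfl)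
    have hz1 : (z : X) ≠ 1 := fun e => by rw [e, orderOf_one] at hz; omega
    have h2 := hfree _ hz1
    have e : ((z : X) : Equiv.Perm α).supportᶜ = fixed ((z : X) : Equiv.Perm α) := by
      ext v; simp [mem_fixed, Equiv.Perm.mem_support]
    rw [e, hn, Nat.ModEq] at h
    have h3 : 2 ≤ (fixed ((z : X) : Equiv.Perm α)).card := by
      rw [← Finset.card_pair hyb]
      refine Finset.card_le_card fun v hv => ?_
      simp only [Finset.mem_insert, Finset.mem_singleton] at hv
      rcases hv with rfl | rfl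
      · exact mem_fixed.2 hy
      · exact mem_fixed.2 z.2
    omega
  have hfreeT : ∀ u ∈ T', u • b = b → u = 1 := by
    intro u hu hub
    have h1 := hord u hu
    have h2 : orderOf u ∣ 14 := by
      rw [← hXb]
      exact Subgroup.orderOf_dvd_natCard _ (show u ∈ stabilizer X b from hub)
    have h3 : orderOf u ∣ 2 := by
      have := Nat.dvd_gcd h1 h2
      simpa using this
    by_contra hu1
    have h2' : orderOf u = 2 := ((Nat.dvd_prime Nat.prime_two).1 h3).resolve_left
      (fun e => hu1 (orderOf_eq_one_iff.1 e))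
    -- an involution in the kernel fixing a point would be odd
    have huu : (u : Equiv.Perm α) * u = 1 :=
      congrArg Subtype.val (show u * u = 1 by rw [← pow_two, ← h2', pow_orderOf_eq_one])
    have hc := hfree u hu1
    have hc2 := Equiv.Perm.two_dvd_card_support (σ := (u : Equiv.Perm α))
      (by rw [pow_two]; exact huu)
    have hc3 := card_fixed_add (u : Equiv.Perm α)
    have hc4 : 1 ≤ (fixed (u : Equiv.Perm α)).card := Finset.card_pos.2 ⟨b, mem_fixed.2 hub⟩
    have hs := sign_involution huu (m := 3) (by omega)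
    obtain ⟨v, -, hv⟩ := hu
    have hk : Equiv.Perm.sign (u : Equiv.Perm α) = 1 := by
      rw [← hv]; exact MonoidHom.mem_ker.1 v.2
    rw [hk] at hs
    exact absurd hs (by decide)
  -- all nonidentity elements of the regular subgroup are conjugate
  obtain ⟨u₀, hu₀⟩ := exists_prime_orderOf_dvd_card' (G := T') 2 (by rw [hT'c]; norm_num)
  rw [← Subgroup.orderOf_coe] at hu₀
  have hu₀1 : (u₀ : X) ≠ 1 := fun e => by rw [e, orderOf_one] at hu₀; omega
  have hzero : ∀ i : ℕ, (z : X) ^ i * u₀ * ((z : X) ^ i)⁻¹ = u₀ → 7 ∣ i := by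
    intro i hi
    by_contra h7i
    have hcm : Commute ((z : X) ^ i) u₀ := mul_inv_eq_iff_eq_mul.1 hi
    have hcz : Commute (z : X) u₀ := by
      have hgen : (z : X) ∈ Subgroup.zpowers ((z : X) ^ i) := by
        rw [← hz] at h7i
        have hco : (orderOf (z : X)).Coprime i := by
          rw [hz] at h7i ⊢
          exact h7.out.coprime_iff_not_dvd.2 h7i
        obtain ⟨j, hj⟩ := exists_pow_eq_self_of_coprime hco.symm
        exact ⟨j, by simpa using hj⟩
      obtain ⟨j, hj⟩ := hgen
      rw [← hj]
      exact hcm.zpow_left j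
    have hb : ((z : X) : Equiv.Perm α) ((u₀ : X) • b) = (u₀ : X) • b := by
      show (z : X) • (u₀ : X) • b = _
      rw [← mul_smul, hcz.eq, mul_smul, z.2]
    exact hu₀1 (hfreeT _ u₀.2 (hzfix _ hb))
  have hinjT : Function.Injective (fun i : Fin 7 => (⟨(z : X) ^ (i : ℕ) * u₀ * ((z : X) ^ (i : ℕ))⁻¹,
      hT'n _ _ u₀.2⟩ : T')) := by
    intro i j e
    have e' : (z : X) ^ (i : ℕ) * u₀ * ((z : X) ^ (i : ℕ))⁻¹
        = (z : X) ^ (j : ℕ) * u₀ * ((z : X) ^ (j : ℕ))⁻¹ := congrArg Subtype.val e
    have hkey : ∀ p q : ℕ, p ≤ q → (z : X) ^ p * u₀ * ((z : X) ^ p)⁻¹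
        = (z : X) ^ q * u₀ * ((z : X) ^ q)⁻¹ → 7 ∣ q - p := by
      intro p q hpq e
      refine hzero _ ?_
      calc (z : X) ^ (q - p) * u₀ * ((z : X) ^ (q - p))⁻¹
          = ((z : X) ^ p)⁻¹ * ((z : X) ^ q * u₀ * ((z : X) ^ q)⁻¹) * (z : X) ^ p := by
            rw [pow_sub _ hpq, (Commute.pow_pow_self (z : X) q p).inv_right.eq]; group
        _ = u₀ := by rw [← e]; group
    have := i.2
    have := j.2
    rcases Nat.le_total (i : ℕ) (j : ℕ) with h | h
    · have := Nat.eq_zero_of_dvd_of_lt (hkey _ _ h e') (by omega); exact Fin.ext (by omega)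
    · have := Nat.eq_zero_of_dvd_of_lt (hkey _ _ h e'.symm) (by omega); exact Fin.ext (by omega)
  have hexp : ∀ u ∈ T', u * u = 1 := by
    intro u hu
    rcases eq_or_ne u 1 with rfl | hu1
    · rw [one_mul]
    classical
    haveI := Fintype.ofFinite T'
    have hu0 : (u₀ : X) * u₀ = 1 := by rw [← pow_two, ← hu₀, pow_orderOf_eq_one]
    have himg : Finset.univ.image (fun i : Fin 7 => (⟨(z : X) ^ (i : ℕ) * u₀ * ((z : X) ^ (i : ℕ))⁻¹,
        hT'n _ _ u₀.2⟩ : T')) = Finset.univ.erase 1 := by
      refine Finset.eq_of_subset_of_card_le ?_ ?_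
      · intro v hv
        obtain ⟨i, -, rfl⟩ := Finset.mem_image.1 hv
        refine Finset.mem_erase.2 ⟨fun e => hu₀1 ?_, Finset.mem_univ _⟩
        have := congrArg Subtype.val e
        simpa using this
      · rw [Finset.card_image_of_injective _ hinjT, Finset.card_erase_of_mem (Finset.mem_univ _),
          Finset.card_univ, Finset.card_univ, ← Nat.card_eq_fintype_card, hT'c, Fintype.card_fin]
    have hmem : (⟨u, hu⟩ : T') ∈ Finset.univ.erase (1 : T') :=
      Finset.mem_erase.2 ⟨fun e => hu1 (congrArg Subtype.val e), Finset.mem_univ _⟩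
    rw [← himg] at hmem
    obtain ⟨i, -, hi⟩ := Finset.mem_image.1 hmem
    rw [← show (z : X) ^ (i : ℕ) * u₀ * ((z : X) ^ (i : ℕ))⁻¹ = u from congrArg Subtype.val hi,
      show (z : X) ^ (i : ℕ) * u₀ * ((z : X) ^ (i : ℕ))⁻¹ *
        ((z : X) ^ (i : ℕ) * u₀ * ((z : X) ^ (i : ℕ))⁻¹) =
        (z : X) ^ (i : ℕ) * ((u₀ : X) * u₀) * ((z : X) ^ (i : ℕ))⁻¹ by group, hu0]
    group
  have hcomm : IsMulCommutative T' := ⟨⟨fun u v => Subtype.ext (by
    have h1 := hexp _ (T'.mul_mem u.2 v.2)
    show (u : X) * v = v * u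
    calc (u : X) * v = ((u : X) * v)⁻¹ := (inv_eq_of_mul_eq_one_right h1).symm
      _ = v * u := by
        rw [mul_inv_rev, inv_eq_of_mul_eq_one_right (hexp _ u.2),
          inv_eq_of_mul_eq_one_right (hexp _ v.2)])⟩⟩
  have hsq := SemiregFour.card_le_sq_of_involution hexp hcomm htt (hT'n _)
  rw [hT'c] at hsq
  have hfix : Nat.card ↥(T' ⊓ Subgroup.centralizer {(t : X)}) ≤
      (fixed ((t : X) : Equiv.Perm α)).card := by
    rw [← Nat.card_eq_finsetCard]
    refine Nat.card_le_card_of_injective (fun u => ⟨(u : X) • b, ?_⟩) fun u v e => ?_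
    · rw [mem_fixed]
      show (t : X) • (u : X) • b = (u : X) • b
      rw [← mul_smul, Subgroup.mem_centralizer_iff.1 (Subgroup.mem_inf.1 u.2).2 _ rfl, mul_smul, t.2]
    · have e' : (u : X) • b = (v : X) • b := congrArg Subtype.val e
      exact Subtype.ext (inv_mul_eq_one.1 (hfreeT _ (T'.mul_mem (T'.inv_mem (Subgroup.mem_inf.1 v.2).1)
        (Subgroup.mem_inf.1 u.2).1) (by rw [mul_smul, e', inv_smul_smul]))).symm
  rw [hfixt] at hfix
  have := Nat.mul_le_mul hfix hfix
  omega

variable {G : Subgroup (Equiv.Perm α)}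

/-- The exceptional homogeneous groups that are not transitive of one degree less. -/
theorem exceptions {k : ℕ} (hk : 3 ≤ k) (hkn : k ≤ Fintype.card α)
    (ht : IsMultiplyPretransitive G α (k - 2)) (hnt : ¬ IsMultiplyPretransitive G α (k - 1))
    (hh1 : IsPretransitive G (Set.powersetCard α (k - 1)))
    (hh : IsPretransitive G (Set.powersetCard α k)) :
    (k = Fintype.card α ∧ G = alternatingGroup α) ∨
      (Fintype.card α = 5 ∧ k = 4 ∧ Nat.card G = 20) ∨
      (Fintype.card α = 6 ∧ k = 5 ∧ Nat.card G = 120) ∨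
      (Fintype.card α = 9 ∧ k = 5 ∧ (Nat.card G = 504 ∨ Nat.card G = 1512)) := by
  rcases hkn.eq_or_lt with hkeq | hlt
  · -- index at most two
    left
    refine ⟨hkeq, ?_⟩
    haveI : Nontrivial α := Fintype.one_lt_card_iff_nontrivial.1 (by omega)
    have hdvd := pow_card_dvd (by omega) ht
    have hfac : 2 * (Fintype.card α).descFactorial (k - 2) = Nat.card (Equiv.Perm α) := by
      rw [Nat.card_eq_fintype_card, Fintype.card_perm, ← hkeq]
      have h := Nat.factorial_mul_descFactorial (show k - 2 ≤ k by omega)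
      rw [show k - (k - 2) = 2 by omega] at h
      simpa [Nat.factorial] using h
    obtain ⟨e, he⟩ := hdvd
    have hidx := Subgroup.card_mul_index G
    rw [he, ← hfac, mul_assoc, mul_comm 2] at hidx
    have hei : e * G.index = 2 :=
      Nat.eq_of_mul_eq_mul_left (Nat.descFactorial_pos.2 (by omega)) hidx
    rcases (Nat.dvd_prime Nat.prime_two).1 (Dvd.intro_left e hei) with h1 | h2
    · refine absurd ?_ hnt
      rw [Subgroup.index_eq_one] at h1
      subst h1
      rw [isMultiplyPretransitive_iff]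
      intro x y
      let e : {v // v ∈ Set.range x} ≃ {v // v ∈ Set.range y} :=
        (Equiv.ofInjective x x.injective).symm.trans (Equiv.ofInjective y y.injective)
      refine ⟨⟨e.extendSubtype, Subgroup.mem_top _⟩, Function.Embedding.ext fun i => ?_⟩
      show e.extendSubtype (x i) = y i
      rw [Equiv.extendSubtype_apply_of_mem e (x i) ⟨i, rfl⟩]
      simp [e, Equiv.ofInjective_symm_apply]
    · exact Equiv.Perm.eq_alternatingGroup_of_index_eq_two h2
  have hk5 : k ≤ 5 := by
    by_contra hk6
    refine hnt ?_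
    have := transitive_of_hasAlt (t := k - 2) (by omega) (by omega)
      (by rwa [show k - 2 + 1 = k - 1 by omega]) (hasAlt _ α G (k - 2) rfl (by omega) (by omega) ht)
    rwa [show k - 2 + 1 = k - 1 by omega] at this
  have h2k : Fintype.card α < 2 * k := by
    by_contra hcon
    exact hnt (pred_transitive k (by omega) (by omega) hh)
  haveI h1t : IsPretransitive G α := by
    haveI := ht
    rw [← is_one_pretransitive_iff]
    exact isMultiplyPretransitive_of_le' (m := 1) (n := k - 2) (by omega)
      (by rw [ENat.card_eq_coe_fintype_card]; exact_mod_cast show k - 2 ≤ Fintype.card α by omega)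
  rcases (show k = 3 ∨ k = 4 ∨ k = 5 by omega) with rfl | hk45
  · refine absurd ((S0735.result G hh1 (by omega)).1 ?_) hnt
    refine even_iff_two_dvd.2 (dvd_trans ?_ (choose_dvd (k := 2) (by omega) hh1))
    rcases (show Fintype.card α = 4 ∨ Fintype.card α = 5 by omega) with e | e <;> rw [e] <;> decide
  -- stabilisers of `k - 1` points are trivial
  obtain ⟨s₀, -, hs₀⟩ := Finset.exists_subset_card_eq (s := (Finset.univ : Finset α)) (n := k - 1)
    (by rw [Finset.card_univ]; omega)
  obtain ⟨t₀, -, ht₀⟩ := Finset.exists_subset_card_eq (s := (Finset.univ : Finset α)) (n := k)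
    (by rw [Finset.card_univ]; omega)
  have hl : Nat.card (fixingSubgroup G (s₀ : Set α)) = 1 := by
    by_contra hne
    have := Nat.card_pos (α := fixingSubgroup G (s₀ : Set α))
    exact hnt (S0744.result G (by omega) hkn _ _ (by omega) (fun s hs => fixing_const hh1 hs hs₀)
      (fun s hs => fixing_const hh hs ht₀))
  have hfree1 : ∀ s : Finset α, s.card = k - 1 → Nat.card (fixingSubgroup G (s : Set α)) = 1 :=
    fun s hs => (fixing_const hh1 hs hs₀).trans hl
  obtain ⟨hN, hfull⟩ := card_dvd_descFactorial hfree1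
  have hne : Nat.card G ≠ (Fintype.card α).descFactorial (k - 1) := fun e =>
    hnt (hfull (by omega) e)
  have d1 := choose_dvd (by omega) hh1
  have d2 := choose_dvd (by omega) hh
  have d3 := pow_card_dvd (by omega) ht
  have hfixed : ∀ g : G, g ≠ 1 → (fixed (g : Equiv.Perm α)).card < k - 1 := by
    intro g hg
    by_contra hge
    obtain ⟨s, hs, hsc⟩ := Finset.exists_subset_card_eq
      (show k - 1 ≤ (fixed (g : Equiv.Perm α)).card by omega)
    have hmem : g ∈ fixingSubgroup G (s : Set α) :=
      (mem_fixingSubgroup_iff G).2 fun y hy => mem_fixed.1 (hs hy)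
    rw [Subgroup.eq_bot_of_card_eq _ (hfree1 s hsc), Subgroup.mem_bot] at hmem
    exact hg hmem
  rcases hk45 with rfl | rfl
  · rcases (show Fintype.card α = 5 ∨ Fintype.card α = 6 ∨ Fintype.card α = 7 by omega) with
      e | e | e <;> rw [e] at hN hne d1 d2 d3
    · -- degree five
      have hL : 20 ∣ Nat.card G := d3
      obtain ⟨c, hc⟩ := hL
      have : c ∣ 3 := Nat.dvd_of_mul_dvd_mul_left (by norm_num : 0 < 20) (by rw [← hc]; exact hN)
      rcases (Nat.dvd_prime Nat.prime_three).1 this with rfl | rfl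
      · exact Or.inr (Or.inl ⟨e, rfl, hc⟩)
      · exact absurd hc hne
    · exfalso
      have hL : 60 ∣ Nat.card G := (Nat.lcm_dvd (d3 : 30 ∣ _) (d1 : 20 ∣ _) :)
      obtain ⟨c, hc⟩ := hL
      have : c ∣ 2 := Nat.dvd_of_mul_dvd_mul_left (by norm_num : 0 < 60) (by rw [← hc]; exact hN)
      rcases (Nat.dvd_prime Nat.prime_two).1 this with rfl | rfl
      · exact false_of_sixty e hc hh1
      · exact hne hc
    · exfalso
      have hL : 210 ∣ Nat.card G := (Nat.lcm_dvd (d3 : 42 ∣ _) (d1 : 35 ∣ _) :)
      exact hne (Nat.dvd_antisymm hN hL)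
  · rcases (show Fintype.card α = 6 ∨ Fintype.card α = 7 ∨ Fintype.card α = 8 ∨
        Fintype.card α = 9 by omega) with e | e | e | e <;> rw [e] at hN hne d1 d2 d3
    · have hL : 120 ∣ Nat.card G := d3
      obtain ⟨c, hc⟩ := hL
      have : c ∣ 3 := Nat.dvd_of_mul_dvd_mul_left (by norm_num : 0 < 120) (by rw [← hc]; exact hN)
      rcases (Nat.dvd_prime Nat.prime_three).1 this with rfl | rfl
      · exact Or.inr (Or.inr (Or.inl ⟨e, rfl, hc⟩))
      · exact absurd hc hne
    · exfalso
      have hL : 210 ∣ Nat.card G := (Nat.lcm_dvd (d3 : 210 ∣ _) (d1 : 35 ∣ _) :)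
      obtain ⟨c, hc⟩ := hL
      have hc4 : c ∣ 4 := Nat.dvd_of_mul_dvd_mul_left (by norm_num : 0 < 210) (by rw [← hc]; exact hN)
      have := Nat.le_of_dvd (by norm_num) hc4
      interval_cases c
      · simp at hc4
      · obtain ⟨a⟩ : Nonempty α := Fintype.card_pos_iff.1 (by omega)
        have hcard : Fintype.card {y : α // y ∉ ({a} : Finset α)} = 6 := by
          rw [Fintype.card_subtype_compl, Fintype.card_coe, Finset.card_singleton, e]
        haveI : IsPretransitive (res G {a}) {y : α // y ∉ ({a} : Finset α)} := by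
          rw [← is_one_pretransitive_iff]
          exact res_pretransitive (k := 3) (by omega) ht {a} (by simp)
        have hX := card_res_singleton (G := G) a
        rw [e, hc] at hX
        exact false_of_thirty hcard (⊤ : Subgroup (res G {a})) (by rw [Subgroup.card_top]; omega)
      · obtain ⟨r, h1, h2', h3⟩ := exists_residue_of_prime_degree (G := G) (Ω := α) (p := 7)
          (by norm_num) (by rw [Nat.card_eq_fintype_card, e]) (by omega)
        rw [hc] at h3
        have := Nat.le_of_dvd (by norm_num) h1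
        interval_cases r <;> revert h1 h3 <;> decide +kernel
      · norm_num at hc4
      · exact hne hc
    · exfalso
      have hL : 1680 ∣ Nat.card G :=
        (Nat.lcm_dvd (d3 : 336 ∣ _) (d1 : 70 ∣ _) :)
      exact hne (Nat.dvd_antisymm hN hL)
    · have hL : 504 ∣ Nat.card G := d3
      obtain ⟨c, hc⟩ := hL
      have hc6 : c ∣ 6 := Nat.dvd_of_mul_dvd_mul_left (by norm_num : 0 < 504) (by rw [← hc]; exact hN)
      have := Nat.le_of_dvd (by norm_num) hc6
      interval_cases c
      · simp at hc6
      · exact Or.inr (Or.inr (Or.inr ⟨e, rfl, Or.inl hc⟩))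
      · exfalso
        obtain ⟨a⟩ : Nonempty α := Fintype.card_pos_iff.1 (by omega)
        have hcard : Fintype.card {y : α // y ∉ ({a} : Finset α)} = 8 := by
          rw [Fintype.card_subtype_compl, Fintype.card_coe, Finset.card_singleton, e]
        haveI : IsPretransitive (res G {a}) {y : α // y ∉ ({a} : Finset α)} := by
          rw [← is_one_pretransitive_iff]
          exact res_pretransitive (k := 3) (by omega) ht {a} (by simp)
        have hX := card_res_singleton (G := G) a
        rw [e, hc] at hX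
        refine false_of_oneTwelve hcard (show Nat.card (res G {a}) = 112 by omega) fun q hq => ?_
        have h1 := card_fixed_ofSubtype {a} (q : Equiv.Perm {y : α // y ∉ ({a} : Finset α)})
          (fixed (q : Equiv.Perm {y : α // y ∉ ({a} : Finset α)})) fun y hy => mem_fixed.1 hy
        have h2 := hfixed ⟨_, q.2⟩ fun e' => hq (Subtype.ext (Equiv.Perm.ofSubtype_injective
          ((congrArg Subtype.val e').trans (map_one _).symm)))
        rw [Finset.card_singleton] at h1
        simp only at h2
        omega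
      · exact Or.inr (Or.inr (Or.inr ⟨e, rfl, Or.inr hc⟩))
      · norm_num at hc6
      · norm_num at hc6
      · exact absurd hc hne

end Cfsg.Agent.PermB.Liv
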