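import Cfsg.Agent.Coprime.Generation
import Mathlib.GroupTheory.GroupAction.MultipleTransitivity
import Mathlib.GroupTheory.Perm.ViaEmbedding
import Mathlib.GroupTheory.Perm.Sign
import Mathlib.GroupTheory.Sylow

/-!
A group homogeneous on `(t+1)`-sets, inducing all even permutations on each of them, is
`(t+1)`-transitive when `t ≥ 4` and there are at least `t + 3` points.
-/

set_option autoImplicit false

namespace Cfsg.Agent.PermB.Oriented

open MulAction

/-- The four group on four letters. -/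
def four : Subgroup (Equiv.Perm (Fin 4)) where
  carrier := {π | π = 1 ∨ π = Equiv.swap 0 1 * Equiv.swap 2 3 ∨
    π = Equiv.swap 0 2 * Equiv.swap 1 3 ∨ π = Equiv.swap 0 3 * Equiv.swap 1 2}
  one_mem' := Or.inl rfl
  mul_mem' := by
    rintro a b (rfl | rfl | rfl | rfl) (rfl | rfl | rfl | rfl) <;> simp only [Set.mem_setOf_eq] <;>
      decide
  inv_mem' := by
    rintro a (rfl | rfl | rfl | rfl) <;> simp only [Set.mem_setOf_eq] <;> decide

theorem sign_viaEmbedding {β γ : Type*} [Fintype β] [Fintype γ] [DecidableEq β] [DecidableEq γ]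
    (π : Equiv.Perm β) (ι : β ↪ γ) : Equiv.Perm.sign (π.viaEmbedding ι) = Equiv.Perm.sign π := by
  classical
  unfold Equiv.Perm.viaEmbedding
  convert Equiv.Perm.sign_extendDomain π (Equiv.ofInjective ι.1 ι.2)

theorem four_spec {π : Equiv.Perm (Fin 4)} (h : π ∈ four) :
    Equiv.Perm.sign π = 1 ∧ π * π = 1 ∧ (π ≠ 1 → π 0 ≠ 0) := by
  rcases h with rfl | rfl | rfl | rfl <;> decide

theorem card_four : Nat.card four = 4 := by
  classical
  have e : Nat.card four = ({1, Equiv.swap 0 1 * Equiv.swap 2 3, Equiv.swap 0 2 * Equiv.swap 1 3,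
      Equiv.swap 0 3 * Equiv.swap 1 2} : Finset (Equiv.Perm (Fin 4))).card := by
    rw [← Nat.card_eq_finsetCard]
    refine Nat.card_congr (Equiv.subtypeEquivRight fun π => ?_)
    simp only [Finset.mem_insert, Finset.mem_singleton]
    exact Iff.rfl
  rw [e]
  decide

variable {G α : Type*} [Group G] [Finite G] [MulAction G α] [FaithfulSMul G α]

/-- The main lemma. -/
theorem transitive_of_even_induced [Fintype α] [DecidableEq α] {t : ℕ} (ht : 4 ≤ t)
    (hn : t + 3 ≤ Fintype.card α)
    (hH : ∀ x y : Fin (t + 1) ↪ α, ∃ (g : G) (π : Equiv.Perm (Fin (t + 1))),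
      ∀ i, g • x i = y (π i))
    (hA : ∀ (x : Fin (t + 1) ↪ α) (π : Equiv.Perm (Fin (t + 1))), Equiv.Perm.sign π = 1 →
      ∃ g : G, ∀ i, g • x i = x (π i)) :
    IsMultiplyPretransitive G α (t + 1) := by
  classical
  by_contra hnt
  -- no odd permutation is induced
  have hodd : ∀ (g : G) (x : Fin (t + 1) ↪ α) (π : Equiv.Perm (Fin (t + 1))),
      (∀ i, g • x i = x (π i)) → Equiv.Perm.sign π = 1 := by
    intro g₀ x₀ π₀ h₀
    by_contra hsign
    apply hnt
    have hall : ∀ π : Equiv.Perm (Fin (t + 1)), ∃ g : G, ∀ i, g • x₀ i = x₀ (π i) := by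
      intro π
      rcases Int.units_eq_one_or (Equiv.Perm.sign π) with h | h
      · exact hA x₀ π h
      · obtain ⟨g, hg⟩ := hA x₀ (π * π₀⁻¹) (by
          rw [map_mul, map_inv, h, (Int.units_eq_one_or _).resolve_left hsign]; rfl)
        exact ⟨g * g₀, fun i => by rw [mul_smul, h₀, hg]; simp⟩
    rw [isMultiplyPretransitive_iff]
    intro x y
    obtain ⟨g, π, hg⟩ := hH x x₀
    obtain ⟨h, ρ, hh⟩ := hH y x₀
    obtain ⟨k, hk⟩ := hall (ρ * π⁻¹)
    refine ⟨h⁻¹ * k * g, Function.Embedding.ext fun i => ?_⟩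
    rw [Function.Embedding.smul_apply, mul_smul, mul_smul, hg, hk, inv_smul_eq_iff, hh]
    simp
  -- no element swaps two points while fixing `t - 1` others
  have hswap : ∀ (g : G) (a b : α) (f : Fin (t - 1) ↪ α), a ≠ b → g • a = b → g • b = a →
      (∀ i, g • f i = f i) → False := by
    intro g a b f hab hga hgb hf
    have hfa : ∀ i, f i ≠ a := fun i e => hab (by rw [← hga, ← e, hf i])
    have hfb : ∀ i, f i ≠ b := fun i e => hab (by rw [← hgb, ← e, hf i])
    let x : Fin (t + 1) → α := fun i =>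
      if (i : ℕ) = 0 then a else if h1 : (i : ℕ) = 1 then b
      else f ⟨i - 2, by have := i.2; omega⟩
    have hx : Function.Injective x := by
      intro i j e
      simp only [x] at e
      split_ifs at e with h1 h2 h3 h4 h5 h6
      all_goals first
        | exact Fin.ext (by omega)
        | exact absurd e hab
        | exact absurd e.symm hab
        | exact absurd e (hfa _)
        | exact absurd e.symm (hfa _)
        | exact absurd e (hfb _)
        | exact absurd e.symm (hfb _)
        | (have := congrArg Fin.val (f.injective e); exact Fin.ext (by simp only at this; omega))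
    have h := hodd g ⟨x, hx⟩ (Equiv.swap ⟨0, by omega⟩ ⟨1, by omega⟩) (fun i => by
      show g • x i = x _
      by_cases h0 : (i : ℕ) = 0
      · rw [show i = ⟨0, by omega⟩ from Fin.ext h0, Equiv.swap_apply_left]
        simp [x, hga]
      by_cases h1 : (i : ℕ) = 1
      · rw [show i = ⟨1, by omega⟩ from Fin.ext h1, Equiv.swap_apply_right]
        simp [x, hgb]
      rw [Equiv.swap_apply_of_ne_of_ne (fun e => h0 (congrArg Fin.val e))
        (fun e => h1 (congrArg Fin.val e))]
      simp only [x, if_neg h0, dif_neg h1, hf])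
    rw [Equiv.Perm.sign_swap (fun e => absurd (congrArg Fin.val e) (by simp))] at h
    exact absurd h (by decide)
  obtain ⟨T⟩ : Nonempty (Fin t ↪ α) :=
    Function.Embedding.nonempty_of_card_le (by rw [Fintype.card_fin]; omega)
  let L : Subgroup G := fixingSubgroup G (Set.range T)
  have hL : ∀ h : G, h ∈ L ↔ ∀ i, h • T i = T i := fun h => by
    simp [L, mem_fixingSubgroup_iff]
  have hLodd : Odd (Nat.card L) := by
    rw [← Nat.not_even_iff_odd, even_iff_two_dvd]
    intro h2
    obtain ⟨s, hs⟩ := exists_prime_orderOf_dvd_card' (G := L) 2 h2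
    have hss : (s : G) * s = 1 := by
      rw [← pow_two, ← SubmonoidClass.coe_pow, ← hs, pow_orderOf_eq_one]; rfl
    obtain ⟨y, hy⟩ : ∃ y : α, (s : G) • y ≠ y := by
      by_contra hall
      push Not at hall
      have e : (s : G) = 1 := eq_of_smul_eq_smul fun y : α => by rw [hall, one_smul]
      rw [← Subgroup.orderOf_coe, e, orderOf_one] at hs
      omega
    exact hswap s y ((s : G) • y) ((Fin.castLEEmb (by omega)).trans T) (Ne.symm hy) rfl
      (by rw [← mul_smul, hss, one_smul]) fun i => (hL s).1 s.2 _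
  -- the four group on the first four points
  let e4 : Fin 4 ↪ Fin t := Fin.castLEEmb ht
  let V : Subgroup (Equiv.Perm (Fin t)) := four.map (Equiv.Perm.viaEmbeddingHom e4)
  have hVcard : Nat.card V = 4 := by
    rw [Subgroup.card_map_of_injective (Equiv.Perm.viaEmbeddingHom_injective e4), card_four]
  have hV4 : ∀ (π : Equiv.Perm (Fin 4)) (i : Fin t), 4 ≤ (i : ℕ) →
      Equiv.Perm.viaEmbeddingHom e4 π i = i := fun π i hi => by
    rw [Equiv.Perm.viaEmbeddingHom_apply]
    refine Equiv.Perm.viaEmbedding_apply_of_notMem _ _ _ ?_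
    rintro ⟨j, rfl⟩
    have h1 : ((e4 j : Fin t) : ℕ) = j := rfl
    omega
  have hfixall : ∀ x : α, x ∉ Set.range T → ∀ h ∈ L, h • x = x := by
    intro x hxT
    let Y : Subgroup G :=
      { carrier := {g | g • x = x ∧ ∃ π ∈ V, ∀ i, g • T i = T (π i)}
        one_mem' := ⟨one_smul _ _, 1, V.one_mem, fun i => one_smul _ _⟩
        mul_mem' := by
          rintro g h ⟨hg, π, hπ, hgπ⟩ ⟨hh, ρ, hρ, hhρ⟩
          exact ⟨by rw [mul_smul, hh, hg], π * ρ, V.mul_mem hπ hρ,
            fun i => by rw [mul_smul, hhρ, hgπ]; rfl⟩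
        inv_mem' := by
          rintro g ⟨hg, π, hπ, hgπ⟩
          refine ⟨by rw [inv_smul_eq_iff, hg], π⁻¹, V.inv_mem hπ, fun i => ?_⟩
          rw [inv_smul_eq_iff, hgπ]
          simp }
    have hpat : ∀ g : Y, ∃ π : Equiv.Perm (Fin t), π ∈ V ∧ ∀ i, (g : G) • T i = T (π i) :=
      fun g => g.2.2
    choose pat hpatV hpatT using hpat
    have hpatu : ∀ (g : Y) (π : Equiv.Perm (Fin t)), (∀ i, (g : G) • T i = T (π i)) → pat g = π :=
      fun g π hπ => Equiv.ext fun i => T.injective ((hpatT g i).symm.trans (hπ i))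
    let φ : Y →* V := MonoidHom.mk' (fun g => ⟨pat g, hpatV g⟩) fun g h => Subtype.ext
      (hpatu (g * h) (pat g * pat h) fun i => by
        rw [Subgroup.coe_mul, mul_smul, hpatT, hpatT]; rfl)
    have hφ : Function.Surjective φ := by
      rintro ⟨π, hπ⟩
      obtain ⟨π4, hπ4, rfl⟩ := hπ
      let x' : Fin (t + 1) ↪ α :=
        ⟨Fin.snoc T x, Fin.snoc_injective_of_injective T.injective hxT⟩
      let π' : Equiv.Perm (Fin (t + 1)) :=
        (Equiv.Perm.viaEmbeddingHom e4 π4).viaEmbedding Fin.castSuccEmb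
      obtain ⟨g, hg⟩ := hA x' π' (by
        rw [sign_viaEmbedding, Equiv.Perm.viaEmbeddingHom_apply, sign_viaEmbedding]
        exact (four_spec hπ4).1)
      have hlast : π' (Fin.last t) = Fin.last t :=
        Equiv.Perm.viaEmbedding_apply_of_notMem _ _ _ (by
          rintro ⟨j, hj⟩; exact Fin.castSucc_ne_last j hj)
      have hcast : ∀ i : Fin t, π' i.castSucc = (Equiv.Perm.viaEmbeddingHom e4 π4 i).castSucc :=
        fun i => Equiv.Perm.viaEmbedding_apply _ _ i
      have hgT : ∀ i, g • T i = T (Equiv.Perm.viaEmbeddingHom e4 π4 i) := fun i => by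
        have := hg i.castSucc
        rw [hcast] at this
        simpa [x'] using this
      have hgx : g • x = x := by
        have := hg (Fin.last t)
        rw [hlast] at this
        simpa [x'] using this
      exact ⟨⟨g, hgx, _, ⟨π4, hπ4, rfl⟩, hgT⟩, Subtype.ext (hpatu _ _ hgT)⟩
    have hker : ∀ g : Y, φ g = 1 → (g : G) ∈ L := fun g hg => by
      rw [hL]
      intro i
      rw [hpatT, show pat g = 1 from congrArg Subtype.val hg]
      rfl
    haveI : Fact (Nat.Prime 2) := ⟨Nat.prime_two⟩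
    obtain ⟨P₀⟩ : Nonempty (Sylow 2 Y) := inferInstance
    let P : Subgroup G := (P₀ : Subgroup Y).map Y.subtype
    have hdvd : 4 ∣ Nat.card Y := hVcard ▸ Subgroup.card_dvd_of_surjective φ hφ
    have hP4 : 4 ∣ Nat.card P₀ := by
      rw [P₀.card_eq_multiplicity, show (4 : ℕ) = 2 ^ 2 from rfl]
      exact pow_dvd_pow 2 ((Nat.prime_two.pow_dvd_iff_le_factorization Nat.card_pos.ne').1 hdvd)
    have hsmall : ∀ g : Y, g ∈ (P₀ : Subgroup Y) → (g : G) ∈ L → g = 1 := by
      intro g hg hgL
      obtain ⟨k, hk⟩ := P₀.2 ⟨g, hg⟩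
      have h1 : orderOf (g : G) ∣ 2 ^ k := by
        rw [orderOf_dvd_iff_pow_eq_one, ← SubmonoidClass.coe_pow]
        exact congrArg Subtype.val (congrArg Subtype.val hk)
      have h2 : orderOf (g : G) ∣ Nat.card L := by
        rw [← Subgroup.orderOf_mk (g : G) hgL]; exact orderOf_dvd_natCard _
      exact Subtype.ext (orderOf_eq_one_iff.1 (Nat.eq_one_of_dvd_coprimes
        (Nat.Coprime.pow_left k (Nat.coprime_two_left.2 hLodd)) h1 h2))
    have hVsq : ∀ v : V, v * v = 1 := by
      rintro ⟨_, π4, hπ4, rfl⟩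
      refine Subtype.ext ?_
      show Equiv.Perm.viaEmbeddingHom e4 π4 * Equiv.Perm.viaEmbeddingHom e4 π4 = 1
      rw [← map_mul, (four_spec hπ4).2.1, map_one]
    have hsq : ∀ g : Y, g ∈ (P₀ : Subgroup Y) → g * g = 1 := fun g hg =>
      hsmall _ ((P₀ : Subgroup Y).mul_mem hg hg) (hker _ (by rw [map_mul, hVsq]))
    have hPcomm : IsMulCommutative P := by
      refine ⟨⟨?_⟩⟩
      rintro ⟨_, g, hg, rfl⟩ ⟨_, h, hh, rfl⟩
      have e : g * h = h * g := by
        have h1 := hsq _ ((P₀ : Subgroup Y).mul_mem hg hh)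
        calc g * h = (g * h)⁻¹ := eq_inv_of_mul_eq_one_left h1
          _ = h⁻¹ * g⁻¹ := by group
          _ = h * g := by
            rw [inv_eq_of_mul_eq_one_right (hsq h hh), inv_eq_of_mul_eq_one_right (hsq g hg)]
      exact Subtype.ext (congrArg Subtype.val e : (g : G) * h = h * g)
    have hPcard : Nat.card P = Nat.card P₀ := Subgroup.card_map_of_injective Y.subtype_injective
    have hnc : ¬ IsCyclic P := by
      intro hc
      obtain ⟨⟨_, g, hg, rfl⟩, hgen⟩ := IsCyclic.exists_ofOrder_eq_natCard (α := P)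
      have h1 : orderOf (⟨(g : G), ⟨g, hg, rfl⟩⟩ : P) ∣ 2 := orderOf_dvd_of_pow_eq_one (by
        rw [pow_two]
        exact Subtype.ext (congrArg Subtype.val (hsq g hg) :))
      rw [show orderOf (⟨(g : G), ⟨g, hg, rfl⟩⟩ : P) = Nat.card P from hgen, hPcard] at h1
      have := Nat.le_of_dvd (by norm_num) (hP4.trans h1)
      omega
    have hPnorm : P ≤ Subgroup.normalizer (L : Set G) := by
      rintro _ ⟨g, -, rfl⟩
      rw [Subgroup.mem_normalizer_iff]
      intro h
      have hinv : ∀ i, (Y.subtype g)⁻¹ • T i = T ((pat g)⁻¹ i) := fun i => by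
        rw [inv_smul_eq_iff, Subgroup.coe_subtype, hpatT]; simp
      refine ⟨fun hh => (hL _).2 fun i => ?_, fun hh => (hL h).2 fun i => ?_⟩
      · rw [mul_smul, mul_smul, hinv, (hL h).1 hh, ← hinv, smul_inv_smul]
      · have h1 := (hL _).1 hh (pat g i)
        rw [mul_smul, mul_smul, hinv] at h1
        rw [show (pat g)⁻¹ (pat g i) = i by simp, ← hpatT g i] at h1
        exact MulAction.injective (g : G) h1
    have hcop : (Nat.card P).Coprime (Nat.card L) := by
      obtain ⟨k, hk⟩ := P₀.2.exists_card_eq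
      rw [hPcard, hk]
      exact Nat.Coprime.pow_left k (Nat.coprime_two_left.2 hLodd)
    have hgen := Coprime.iSup_centralizer_eq hnc hPnorm hcop
    suffices hle : L ≤ stabilizer G x from fun h hh => hle hh
    rw [← hgen]
    refine iSup₂_le fun u hu h hh => ?_
    obtain ⟨⟨g, hg, rfl⟩, hu1⟩ := hu
    obtain ⟨hhL, hhc⟩ := hh
    have hg1 : g ≠ 1 := fun e => hu1 (by rw [e]; rfl)
    have hgsq : (g : G) * g = 1 := congrArg Subtype.val (hsq g hg)
    have hcomm : (g : G) * h = h * g := Subgroup.mem_centralizer_iff.1 hhc g rfl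
    obtain ⟨π4, hπ4, hπe⟩ := hpatV g
    have hπ1 : π4 ≠ 1 := fun e => hg1 (hsmall g hg (hker g (Subtype.ext (by
      show pat g = 1
      rw [← hπe, e, map_one]))))
    have hj : ∀ i : Fin t, 4 ≤ (i : ℕ) → (g : G) • T i = T i := fun i hi => by
      rw [hpatT, ← hπe, hV4 π4 i hi]
    have hne0 : (g : G) • T (e4 0) ≠ T (e4 0) := fun e => (four_spec hπ4).2.2 hπ1 (by
      rw [hpatT, ← hπe, Equiv.Perm.viaEmbeddingHom_apply, Equiv.Perm.viaEmbedding_apply] at e
      exact e4.injective (T.injective e))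
    -- at most two fixed points outside `T`
    have hfix3 : ∀ y₁ y₂ y₃ : α, y₁ ∉ Set.range T → y₂ ∉ Set.range T → y₃ ∉ Set.range T →
        (g : G) • y₁ = y₁ → (g : G) • y₂ = y₂ → (g : G) • y₃ = y₃ →
        y₁ ≠ y₂ → y₁ ≠ y₃ → y₂ ≠ y₃ → False := by
      intro y₁ y₂ y₃ hy1 hy2 hy3 e1 e2 e3 h12 h13 h23
      let f : Fin (t - 1) → α := fun i =>
        if (i : ℕ) = 0 then y₁ else if h1 : (i : ℕ) = 1 then y₂ else if h2 : (i : ℕ) = 2 then y₃
        else T ⟨i + 1, by have := i.2; omega⟩
      have hf : Function.Injective f := by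
        intro i j e
        simp only [f] at e
        have n1 : ∀ k, y₁ ≠ T k := fun k e' => hy1 ⟨k, e'.symm⟩
        have n2 : ∀ k, y₂ ≠ T k := fun k e' => hy2 ⟨k, e'.symm⟩
        have n3 : ∀ k, y₃ ≠ T k := fun k e' => hy3 ⟨k, e'.symm⟩
        split_ifs at e
        all_goals first
          | exact Fin.ext (by omega)
          | exact absurd e h12
          | exact absurd e.symm h12
          | exact absurd e h13
          | exact absurd e.symm h13
          | exact absurd e h23
          | exact absurd e.symm h23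
          | exact absurd e (n1 _)
          | exact absurd e.symm (n1 _)
          | exact absurd e (n2 _)
          | exact absurd e.symm (n2 _)
          | exact absurd e (n3 _)
          | exact absurd e.symm (n3 _)
          | (have := congrArg Fin.val (T.injective e); exact Fin.ext (by simp only at this; omega))
      refine hswap g (T (e4 0)) ((g : G) • T (e4 0)) ⟨f, hf⟩ hne0.symm rfl
        (by rw [← mul_smul, hgsq, one_smul]) fun i => ?_
      show (g : G) • f i = f i
      simp only [f]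
      split_ifs with h0 h1 h2
      · exact e1
      · exact e2
      · exact e3
      · exact hj _ (show 4 ≤ (i : ℕ) + 1 by omega)
    have hgx : (g : G) • x = x := g.2.1
    have hmap : ∀ y : α, (g : G) • y = y → (g : G) • h • y = h • y := fun y hy => by
      rw [← mul_smul, hcomm, mul_smul, hy]
    have hout : ∀ y : α, y ∉ Set.range T → h • y ∉ Set.range T := by
      rintro y hy ⟨i, hi⟩
      exact hy ⟨i, MulAction.injective h (((hL h).1 hhL i).trans hi)⟩
    rw [mem_stabilizer_iff]
    by_contra hhx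
    have h2 : (h ^ 2) • x = x := by
      rw [pow_two, mul_smul]
      by_contra hne
      exact hfix3 x (h • x) (h • h • x) hxT (hout x hxT) (hout _ (hout x hxT)) hgx (hmap x hgx)
        (hmap _ (hmap x hgx)) (Ne.symm hhx) (Ne.symm hne)
        fun e => hhx (MulAction.injective h e).symm
    obtain ⟨k, hk⟩ : Odd (orderOf h) := Odd.of_dvd_nat hLodd (by
      rw [← Subgroup.orderOf_mk h hhL]; exact orderOf_dvd_natCard _)
    have h3 : h ^ (2 * k + 1) • x = x := by rw [← hk, pow_orderOf_eq_one, one_smul]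
    have h4 : (h ^ (2 * k)) • x = x := by
      rw [pow_mul]
      exact pow_mem (show h ^ 2 ∈ stabilizer G x from h2) k
    rw [pow_succ', mul_smul, h4] at h3
    exact hhx h3
  -- the pointwise stabiliser of `T` is trivial
  have hL1 : ∀ h ∈ L, h = 1 := fun h hh => eq_of_smul_eq_smul fun y : α => by
    rw [one_smul]
    by_cases hy : y ∈ Set.range T
    · obtain ⟨i, rfl⟩ := hy; exact (hL h).1 hh i
    · exact hfixall y hy h hh
  obtain ⟨y₁, y₂, y₃, hy1, hy2, hy3, h12, h13, h23⟩ : ∃ y₁ y₂ y₃ : α, y₁ ∉ Set.range T ∧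
      y₂ ∉ Set.range T ∧ y₃ ∉ Set.range T ∧ y₁ ≠ y₂ ∧ y₁ ≠ y₃ ∧ y₂ ≠ y₃ := by
    let S : Finset α := Finset.univ \ Finset.univ.image T
    have hS : 3 ≤ S.card := by
      rw [Finset.card_sdiff_of_subset (Finset.subset_univ _), Finset.card_univ,
        Finset.card_image_of_injective _ T.injective, Finset.card_univ, Fintype.card_fin]
      omega
    obtain ⟨y₁, y₂, y₃, a1, a2, a3, b1, b2, b3⟩ := Finset.two_lt_card_iff.1 hS
    have hmem : ∀ y, y ∈ S → y ∉ Set.range T := fun y hy ⟨i, hi⟩ => by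
      simp only [S, Finset.mem_sdiff, Finset.mem_image, Finset.mem_univ, true_and] at hy
      exact hy ⟨i, hi⟩
    exact ⟨y₁, y₂, y₃, hmem _ a1, hmem _ a2, hmem _ a3, b1, b2, b3⟩
  let ext : ∀ y, y ∉ Set.range T → Fin (t + 1) ↪ α := fun y hy =>
    ⟨Fin.snoc T y, Fin.snoc_injective_of_injective T.injective hy⟩
  -- two distinct extensions differ by an odd permutation
  have hdiff : ∀ y z (hy : y ∉ Set.range T) (hz : z ∉ Set.range T), y ≠ z →
      ∀ (g : G) (π : Equiv.Perm (Fin (t + 1))), (∀ i, g • ext y hy i = ext z hz (π i)) →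
        Equiv.Perm.sign π = -1 := by
    intro y z hy hz hyz g π hg
    refine (Int.units_eq_one_or _).resolve_left fun hs => hyz ?_
    obtain ⟨k, hk⟩ := hA (ext z hz) π⁻¹ (by rw [map_inv, hs, inv_one])
    have he : ∀ i, (k * g) • ext y hy i = ext z hz i := fun i => by
      rw [mul_smul, hg, hk]; simp
    have hmem : k * g ∈ L := (hL _).2 fun i => by simpa [ext] using he i.castSucc
    have := he (Fin.last t)
    rw [hL1 _ hmem, one_smul] at this
    simpa [ext] using this
  obtain ⟨g₂, π₂, hg₂⟩ := hH (ext y₂ hy2) (ext y₁ hy1)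
  obtain ⟨g₃, π₃, hg₃⟩ := hH (ext y₃ hy3) (ext y₁ hy1)
  have := hdiff y₂ y₃ hy2 hy3 h23 (g₃⁻¹ * g₂) (π₃⁻¹ * π₂) (fun i => by
    rw [mul_smul, inv_smul_eq_iff, hg₂, hg₃]; simp)
  rw [map_mul, map_inv, hdiff y₂ y₁ hy2 hy1 (Ne.symm h12) g₂ π₂ hg₂,
    hdiff y₃ y₁ hy3 hy1 (Ne.symm h13) g₃ π₃ hg₃] at this
  exact absurd this (by decide)

end Cfsg.Agent.PermB.Oriented
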