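import Cfsg.Agent.SmallGroups.Basic
import Cfsg.Agent.Transfer.Frobenius
import Cfsg.Agent.Perm.PrimeDegree
import Mathlib.GroupTheory.GroupAction.Primitive
import Mathlib.GroupTheory.SpecificGroups.Cyclic

/-! Sylow counting in transitive groups of prime degree. -/

set_option autoImplicit false

namespace Cfsg.Agent.PermB

open MulAction

/-- In a faithful transitive group of prime degree `p` and order greater than `p`, the residue of
`|G| / p` modulo `p` is a nontrivial divisor of `p - 1`. -/
theorem exists_residue_of_prime_degree {G Ω : Type*} [Group G] [Finite G] [MulAction G Ω]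
    [FaithfulSMul G Ω] [Finite Ω] [IsPretransitive G Ω] {p : ℕ} (hp : p.Prime)
    (hΩ : Nat.card Ω = p) (hG : p < Nat.card G) :
    ∃ r, r ∣ p - 1 ∧ 1 < r ∧ (Nat.card G / p) % p = r % p := by
  classical
  haveI : Fact p.Prime := ⟨hp⟩
  haveI : Fintype Ω := Fintype.ofFinite Ω
  have hΩ' : Fintype.card Ω = p := by rw [← Nat.card_eq_fintype_card, hΩ]
  haveI : Nonempty Ω := by rw [← Fintype.card_pos_iff, hΩ']; exact hp.pos
  obtain ⟨P⟩ : Nonempty (Sylow p G) := inferInstance
  have hP := PermLib.card_sylow_of_prime_degree hΩ' P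
  have hfaith : ∀ c : G, (∀ y : Ω, c • y = y) → c = 1 := fun c h =>
    eq_of_smul_eq_smul fun y : Ω => by rw [h, one_smul]
  obtain ⟨u, huP, hu1⟩ := (Subgroup.bot_or_exists_ne_one (P : Subgroup G)).resolve_left fun e => by
    rw [e, Subgroup.card_bot] at hP
    exact hp.one_lt.ne hP
  obtain ⟨x, hx⟩ : ∃ x : Ω, u • x ≠ x := by
    by_contra h
    push Not at h
    exact hu1 (hfaith u h)
  have horb : orbit (P : Subgroup G) x = Set.univ := by
    have h1 : Nat.card (orbit (P : Subgroup G) x) ∣ p := by
      refine dvd_trans ?_ hP.dvd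
      exact Dvd.intro _ (((Nat.card_prod _ _).symm).trans
        (Nat.card_congr (orbitProdStabilizerEquivGroup (P : Subgroup G) x)))
    rcases (Nat.dvd_prime hp).1 h1 with h | h
    · exfalso
      obtain ⟨hs, -⟩ := Nat.card_eq_one_iff_unique.1 h
      exact hx (congrArg Subtype.val (hs.elim
        (⟨u • x, ⟨⟨u, huP⟩, rfl⟩⟩ : orbit (P : Subgroup G) x) ⟨x, mem_orbit_self x⟩))
    · refine Set.eq_univ_of_forall fun y => ?_
      by_contra hy
      have h2 : Fintype.card (orbit (P : Subgroup G) x) < Fintype.card Ω :=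
        Fintype.card_subtype_lt hy
      rw [← Nat.card_eq_fintype_card, h, hΩ'] at h2
      omega
  have hC : Subgroup.centralizer ((P : Subgroup G) : Set G) = P := by
    haveI : IsCyclic (P : Subgroup G) := isCyclic_of_prime_card hP
    refine (Subgroup.eq_of_le_of_card_ge ?_ ?_).symm
    · intro q hq
      rw [Subgroup.mem_centralizer_iff]
      intro v hv
      exact congrArg Subtype.val (IsMulCommutative.is_comm.comm
        (⟨v, hv⟩ : (P : Subgroup G)) ⟨q, hq⟩)
    · refine le_of_le_of_eq ?_ (hΩ.trans hP.symm)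
      refine Nat.card_le_card_of_injective
        (fun c : Subgroup.centralizer ((P : Subgroup G) : Set G) => (c : G) • x) fun c c' e => ?_
      refine Subtype.ext (inv_mul_eq_one.1 (hfaith _ fun y => ?_)).symm
      obtain ⟨⟨v, hv⟩, rfl⟩ : y ∈ orbit (P : Subgroup G) x := horb ▸ Set.mem_univ y
      have hd := Subgroup.mem_centralizer_iff.1
        ((Subgroup.centralizer ((P : Subgroup G) : Set G)).mul_mem
          ((Subgroup.centralizer ((P : Subgroup G) : Set G)).inv_mem c'.2) c.2) v hv
      show ((c' : G)⁻¹ * c) • v • x = v • x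
      rw [← mul_smul, ← hd, mul_smul, mul_smul, show (c : G) • x = (c' : G) • x from e,
        inv_smul_smul]
  set N := Subgroup.normalizer ((P : Subgroup G) : Set G) with hN
  have hr : (Subgroup.centralizer ((P : Subgroup G) : Set G)).relIndex N ∣ p - 1 := by
    haveI : IsCyclic (P : Subgroup G) := isCyclic_of_prime_card hP
    have h := SmallGroups.relIndex_centralizer_dvd (P : Subgroup G)
    rwa [IsCyclic.card_mulAut, hP, Nat.totient_prime hp] at h
  rw [hC] at hr
  have hNcard : Nat.card N = p * (P : Subgroup G).relIndex N := by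
    have h := Subgroup.card_mul_index ((P : Subgroup G).subgroupOf N)
    rw [Nat.card_congr (Subgroup.subgroupOfEquivOfLe (Subgroup.le_normalizer)).toEquiv, hP] at h
    exact h.symm
  refine ⟨_, hr, ?_, ?_⟩
  · by_contra hle
    have hne : (P : Subgroup G).relIndex N ≠ 0 := fun e => by
      rw [e, mul_zero] at hNcard
      exact Nat.card_pos.ne' hNcard
    have hle' : N ≤ Subgroup.centralizer ((P : Subgroup G) : Set G) := by
      rw [hC]
      exact Subgroup.relIndex_eq_one.1 (by omega)
    obtain ⟨P', K, hKn, hKc⟩ := Transfer.hasNormalPComplement_of_normalizer_le_centralizer P hle'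
    have hcard := hKc.card_mul
    rw [PermLib.card_sylow_of_prime_degree hΩ' P'] at hcard
    have hK1 : K ≠ ⊥ := fun e => by rw [e, Subgroup.card_bot, one_mul] at hcard; omega
    obtain ⟨w, hwK, hw1⟩ := (Subgroup.bot_or_exists_ne_one K).resolve_left hK1
    haveI : IsPreprimitive G Ω := IsPreprimitive.of_prime_card (hΩ ▸ hp)
    haveI : IsPretransitive K Ω := IsQuasiPreprimitive.isPretransitive_of_normal (by
      intro e
      refine hw1 (hfaith w fun y => ?_)
      exact (show y ∈ fixedPoints K Ω from e ▸ Set.mem_univ y) ⟨w, hwK⟩)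
    have hpK : p ∣ Nat.card K := hΩ ▸ PermLib.card_dvd_card
    obtain ⟨j, hj⟩ := hpK
    have h2 : p ^ 2 ∣ Nat.card G := ⟨j, by rw [← hcard, hj]; ring⟩
    rw [hp.pow_dvd_iff_le_factorization Nat.card_pos.ne'] at h2
    have h1 := P.card_eq_multiplicity
    rw [hP] at h1
    have h3 : p ^ 2 ≤ p ^ (Nat.card G).factorization p := Nat.pow_le_pow_right hp.pos h2
    rw [← h1] at h3
    have := hp.two_le
    nlinarith
  · have hmul := Subgroup.card_mul_index N
    rw [hNcard, show N.index = Nat.card (Sylow p G) from P.card_eq_index_normalizer.symm] at hmul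
    have hmod := card_sylow_modEq_one p G
    rw [Nat.ModEq, Nat.mod_eq_of_lt hp.one_lt] at hmod
    rw [← hmul, mul_assoc, Nat.mul_div_cancel_left _ hp.pos, Nat.mul_mod, hmod, mul_one, Nat.mod_mod]

end Cfsg.Agent.PermB
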