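import Cfsg.Agent.PermB.LivAlt
import Cfsg.Agent.PermB.Oriented
import Cfsg.Agent.PermB.PrimeCount
import Cfsg.Agent.S0735
import Cfsg.Agent.S0736
import Cfsg.Agent.S0744
import Mathlib.Data.Set.PowersetCard

/-!
Homogeneous groups are transitive of one degree less.
-/

set_option autoImplicit false

namespace Cfsg.Agent.PermB.Liv

open MulAction

variable {α : Type*} [Fintype α] [DecidableEq α] {G : Subgroup (Equiv.Perm α)}

theorem hom_pred {k : ℕ} (hk : 2 ≤ k) (hkn : 2 * k ≤ Fintype.card α + 1)
    (hh : IsPretransitive G (Set.powersetCard α k)) :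
    IsPretransitive G (Set.powersetCard α (k - 1)) :=
  S0736.result G hk hh fun q _ hq => by
    have := Nat.le_of_dvd (by omega) hq
    omega

theorem choose_dvd {k : ℕ} (hkn : k ≤ Fintype.card α)
    (hh : IsPretransitive G (Set.powersetCard α k)) :
    (Fintype.card α).choose k ∣ Nat.card G := by
  obtain ⟨s, -, hs⟩ := Finset.exists_subset_card_eq (s := (Finset.univ : Finset α)) (n := k)
    (by rw [Finset.card_univ]; exact hkn)
  haveI : Nonempty (Set.powersetCard α k) := ⟨⟨s, hs⟩⟩
  have := PermLib.card_dvd_card (G := G) (α := Set.powersetCard α k)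
  rwa [Set.powersetCard.card, Nat.card_eq_fintype_card] at this

theorem fixing_const {k : ℕ} (hh : IsPretransitive G (Set.powersetCard α k)) {s t : Finset α}
    (hs : s.card = k) (ht : t.card = k) :
    Nat.card (fixingSubgroup G (s : Set α)) = Nat.card (fixingSubgroup G (t : Set α)) := by
  obtain ⟨g, hg⟩ := exists_image_eq hh s t hs ht
  refine Nat.card_congr
    { toFun := fun u => ⟨g * u * g⁻¹, ?_⟩
      invFun := fun u => ⟨g⁻¹ * u * g, ?_⟩
      left_inv := fun u => Subtype.ext (by simp [mul_assoc])
      right_inv := fun u => Subtype.ext (by simp [mul_assoc]) }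
  · rw [mem_fixingSubgroup_iff]
    intro y hy
    rw [Finset.mem_coe, ← hg, Finset.mem_image] at hy
    obtain ⟨z, hz, rfl⟩ := hy
    rw [mul_smul, mul_smul, inv_smul_smul, (mem_fixingSubgroup_iff G).1 u.2 z hz]
  · rw [mem_fixingSubgroup_iff]
    intro z hz
    have : g • z ∈ (t : Set α) := by
      rw [Finset.mem_coe, ← hg]; exact Finset.mem_image.2 ⟨z, hz, rfl⟩
    rw [mul_smul, mul_smul, (mem_fixingSubgroup_iff G).1 u.2 _ this, inv_smul_smul]

/-- A group free on lists of `j` points has order dividing their number. -/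
theorem card_dvd_descFactorial {j : ℕ}
    (hfree : ∀ s : Finset α, s.card = j → Nat.card (fixingSubgroup G (s : Set α)) = 1) :
    Nat.card G ∣ (Fintype.card α).descFactorial j ∧
      (j ≤ Fintype.card α → Nat.card G = (Fintype.card α).descFactorial j →
        IsMultiplyPretransitive G α j) := by
  have hinj : ∀ x : Fin j ↪ α, Function.Injective fun g : G => g • x := by
    intro x g h e
    have hmem : h⁻¹ * g ∈ fixingSubgroup G ((Finset.univ.map x : Finset α) : Set α) := by
      rw [mem_fixingSubgroup_iff]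
      intro y hy
      obtain ⟨i, -, rfl⟩ := Finset.mem_map.1 hy
      rw [mul_smul, inv_smul_eq_iff]
      exact DFunLike.congr_fun e i
    rw [Subgroup.eq_bot_of_card_eq _ (hfree _ (by simp)), Subgroup.mem_bot, inv_mul_eq_one] at hmem
    exact hmem.symm
  refine ⟨?_, fun hj hc => ?_⟩
  · rw [show (Fintype.card α).descFactorial j = (Finset.univ : Finset (Fin j ↪ α)).card by
      rw [Finset.card_univ, Fintype.card_embedding_eq, Fintype.card_fin]]
    refine dvd_card_of_orbits (G := G) _ (fun g x _ => Finset.mem_univ _) fun x _ => ?_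
    rw [Nat.card_congr (Equiv.ofInjective _ (hinj x))]
    exact dvd_rfl
  · rw [isMultiplyPretransitive_iff]
    intro x y
    have hsurj := ((Nat.bijective_iff_injective_and_card fun g : G => g • x).2
      ⟨hinj x, by rw [hc, Nat.card_eq_fintype_card, Fintype.card_embedding_eq,
        Fintype.card_fin]⟩).2
    exact hsurj y

theorem pow_card_dvd {j : ℕ} (hj : j ≤ Fintype.card α) (h : IsMultiplyPretransitive G α j) :
    (Fintype.card α).descFactorial j ∣ Nat.card G := by
  haveI : Nonempty (Fin j ↪ α) :=
    Function.Embedding.nonempty_of_card_le (by rw [Fintype.card_fin]; exact hj)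
  have := @PermLib.card_dvd_card G (Fin j ↪ α) _ _ h _
  rwa [Nat.card_eq_fintype_card, Fintype.card_embedding_eq, Fintype.card_fin] at this

theorem kill_three_thirty [IsPretransitive G α] (hn : Fintype.card α = 11)
    (hG : Nat.card G = 330) : False := by
  obtain ⟨r, h1, h2, h3⟩ := exists_residue_of_prime_degree (G := G) (Ω := α) (p := 11)
    (by norm_num) (by rw [Nat.card_eq_fintype_card, hn]) (by omega)
  rw [hG] at h3
  have := Nat.le_of_dvd (by norm_num) h1
  interval_cases r <;> revert h1 h3 <;> decide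

theorem card_res_singleton [IsPretransitive G α] (a : α) :
    Fintype.card α * Nat.card (res G {a}) = Nat.card G := by
  rw [PermLib.card_eq_mul_card_stabilizer (G := G) a, Nat.card_eq_fintype_card (α := α)]
  congr 1
  refine Nat.card_eq_of_bijective
    (fun q : res G {a} => (⟨⟨Equiv.Perm.ofSubtype (q : Equiv.Perm {y : α // y ∉ ({a} : Finset α)}), q.2⟩, ?_⟩ :
      stabilizer G a)) ⟨fun p q e => ?_, ?_⟩
  · show Equiv.Perm.ofSubtype _ a = a
    exact Equiv.Perm.ofSubtype_apply_of_not_mem (p := fun y => y ∉ ({a} : Finset α)) _ (by simp)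
  · exact Subtype.ext (Equiv.Perm.ofSubtype_injective
      (congrArg (fun w : stabilizer G a => ((w : G) : Equiv.Perm α)) e))
  · rintro ⟨⟨f, hf⟩, hfa⟩
    have hfa' : f a = a := hfa
    have hP : ∀ y, f y ∉ ({a} : Finset α) ↔ y ∉ ({a} : Finset α) := fun y => by
      simp only [Finset.mem_singleton]
      exact not_congr ⟨fun e => f.injective (e.trans hfa'.symm), fun e => e ▸ hfa'⟩
    have e : Equiv.Perm.ofSubtype (f.subtypePerm (p := fun y => y ∉ ({a} : Finset α)) hP) = f := by
      refine Equiv.ext fun y => ?_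
      by_cases hy : y ∈ ({a} : Finset α)
      · rw [Equiv.Perm.ofSubtype_apply_of_not_mem (p := fun y => y ∉ ({a} : Finset α)) _
          (not_not.2 hy), Finset.mem_singleton.1 hy, hfa']
      · exact Equiv.Perm.ofSubtype_apply_coe (f.subtypePerm hP) ⟨y, hy⟩
    exact ⟨⟨f.subtypePerm (p := fun y => y ∉ ({a} : Finset α)) hP,
      show Equiv.Perm.ofSubtype _ ∈ G by rw [e]; exact hf⟩, Subtype.ext (Subtype.ext e)⟩

theorem five_cases : ∀ d ∈ Finset.range 25, ∀ m ∈ Finset.range 121, d ∣ 24 → d ≠ 24 → 6 ≤ m → m ∣ 5 * d →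
    24 ∣ (m + 1) * d → (m = 15 ∧ (d = 3 ∨ d = 6 ∨ d = 12)) ∨ ((m = 8 ∨ m = 20) ∧ d = 8) := by
  decide +kernel

theorem four_cases : ∀ d ∈ Finset.range 7, ∀ m ∈ Finset.range 25, d ∣ 6 → d ≠ 6 → 5 ≤ m → m ∣ 4 * d →
    6 ∣ (m + 1) * d → m = 8 ∧ d = 2 := by
  decide +kernel

/-- Homogeneous groups whose stabilisers of lists of one point less are trivial. -/
theorem transitive_of_free {k : ℕ} (hk : 3 ≤ k) (hk5 : k ≤ 5) (hkn : 2 * k ≤ Fintype.card α)
    (hh : IsPretransitive G (Set.powersetCard α k))
    (hh1 : IsPretransitive G (Set.powersetCard α (k - 1)))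
    (ht : IsMultiplyPretransitive G α (k - 2))
    (hfree : ∀ s : Finset α, s.card = k - 1 → Nat.card (fixingSubgroup G (s : Set α)) = 1) :
    IsMultiplyPretransitive G α (k - 1) := by
  set n := Fintype.card α with hn
  obtain ⟨hdvd, hfull⟩ := card_dvd_descFactorial hfree
  obtain ⟨d, hd⟩ := choose_dvd (by omega) hh1
  rw [← hn] at hd
  have hdk : d ∣ (k - 1).factorial := by
    rw [Nat.descFactorial_eq_factorial_mul_choose, hd, mul_comm ((k - 1).factorial)] at hdvd
    exact Nat.dvd_of_mul_dvd_mul_left (Nat.choose_pos (by omega)) hdvd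
  by_cases hdfull : d = (k - 1).factorial
  · exact hfull (by omega) (by rw [hd, hdfull, Nat.descFactorial_eq_factorial_mul_choose]; ring)
  obtain ⟨e, he⟩ := choose_dvd (by omega) hh
  rw [← hn] at he
  have hsucc := Nat.choose_succ_right_eq n (k - 1)
  rw [show k - 1 + 1 = k by omega] at hsucc
  have hem : (n - (k - 1)) * e = k * d := by
    refine Nat.eq_of_mul_eq_mul_left (Nat.choose_pos (show k - 1 ≤ n by omega)) ?_
    rw [← mul_assoc, ← hsucc, mul_right_comm, ← he, hd]; ring
  obtain ⟨s, hs⟩ := pow_card_dvd (by omega) ht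
  rw [hd] at hs
  haveI h1t : IsPretransitive G α := by
    haveI := ht
    rw [← is_one_pretransitive_iff]
    exact isMultiplyPretransitive_of_le' (m := 1) (n := k - 2) (by omega)
      (by rw [ENat.card_eq_coe_fintype_card]; exact_mod_cast show k - 2 ≤ n by omega)
  rcases (show k = 3 ∨ k = 4 ∨ k = 5 by omega) with rfl | rfl | rfl
  · -- three
    by_cases heven : Even (Nat.card G)
    · exact (S0735.result G hh1 (by omega)).1 heven
    exfalso
    have h2 : d ∣ 2 := hdk
    rcases (Nat.dvd_prime Nat.prime_two).1 h2 with rfl | rfl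
    · have h3 : n - 2 ∣ 3 := Dvd.intro e (by rw [show n - 2 = n - (3 - 1) by rfl, hem])
      have := Nat.le_of_dvd (by norm_num) h3
      omega
    · exact hdfull rfl
  · -- four
    exfalso
    have h6 : d ∣ 6 := hdk
    have hd7 := Nat.le_of_dvd (by norm_num) h6
    have hm : n - 3 ∣ 4 * d := Dvd.intro e hem
    have hmle := Nat.le_of_dvd (by
      rcases Nat.eq_zero_or_pos d with rfl | h
      · simp at h6
      · omega) hm
    have h2 : 6 ∣ (n - 3 + 1) * d := by
      refine ⟨s, Nat.eq_of_mul_eq_mul_left (n := n * (n - 1))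
        (Nat.mul_pos (by omega) (by omega)) ?_⟩
      have e1 : n.descFactorial 2 = n * (n - 1) := by simp [Nat.descFactorial_succ, mul_comm]
      have e2 : 6 * n.choose (4 - 1) = n * (n - 1) * (n - 2) := by
        rw [show 4 - 1 = 3 from rfl, show (6 : ℕ) = (3 : ℕ).factorial from rfl,
          ← Nat.descFactorial_eq_factorial_mul_choose]
        simp [Nat.descFactorial_succ]; ring
      rw [show 4 - 2 = 2 from rfl, e1] at hs
      rw [show n - 3 + 1 = n - 2 by omega]
      calc n * (n - 1) * ((n - 2) * d) = 6 * (n.choose (4 - 1) * d) := by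
            rw [← mul_assoc, ← e2]; ring
        _ = n * (n - 1) * (6 * s) := by rw [hs]; ring
    obtain ⟨hm8, rfl⟩ := four_cases d (Finset.mem_range.2 (by omega)) (n - 3) (Finset.mem_range.2 (by omega)) h6 hdfull (by omega) hm h2
    have hn11 : n = 11 := by omega
    rw [hn11] at hd
    exact kill_three_thirty (hn.symm.trans hn11) (hd.trans (by decide +kernel))
  · -- five
    exfalso
    have h24 : d ∣ 24 := hdk
    have hd25 := Nat.le_of_dvd (by norm_num) h24
    have hm : n - 4 ∣ 5 * d := Dvd.intro e hem
    have hmle := Nat.le_of_dvd (by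
      rcases Nat.eq_zero_or_pos d with rfl | h
      · simp at h24
      · omega) hm
    have h2 : 24 ∣ (n - 4 + 1) * d := by
      refine ⟨s, Nat.eq_of_mul_eq_mul_left (n := n * (n - 1) * (n - 2))
        (Nat.mul_pos (Nat.mul_pos (by omega) (by omega)) (by omega)) ?_⟩
      have e1 : n.descFactorial 3 = n * (n - 1) * (n - 2) := by
        simp [Nat.descFactorial_succ]; ring
      have e2 : 24 * n.choose (5 - 1) = n * (n - 1) * (n - 2) * (n - 3) := by
        rw [show 5 - 1 = 4 from rfl, show (24 : ℕ) = (4 : ℕ).factorial from rfl,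
          ← Nat.descFactorial_eq_factorial_mul_choose]
        simp [Nat.descFactorial_succ]; ring
      rw [show 5 - 2 = 3 from rfl, e1] at hs
      rw [show n - 4 + 1 = n - 3 by omega]
      calc n * (n - 1) * (n - 2) * ((n - 3) * d) = 24 * (n.choose (5 - 1) * d) := by
            rw [← mul_assoc, ← e2]; ring
        _ = n * (n - 1) * (n - 2) * (24 * s) := by rw [hs]; ring
    rcases five_cases d (Finset.mem_range.2 (by omega)) (n - 4) (Finset.mem_range.2 (by omega)) h24 hdfull (by omega) hm h2 with
      ⟨hm15, hdd⟩ | ⟨hm8, rfl⟩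
    · have hn19 : n = 19 := by omega
      rw [hn19] at hd
      obtain ⟨r, h1, h2', h3⟩ := exists_residue_of_prime_degree (G := G) (Ω := α) (p := 19)
        (by norm_num) (by rw [Nat.card_eq_fintype_card, ← hn, hn19]) (by
          rcases hdd with rfl | rfl | rfl <;> rw [hd] <;> decide)
      have := Nat.le_of_dvd (by norm_num) h1
      rcases hdd with rfl | rfl | rfl <;> rw [hd] at h3 <;> interval_cases r <;>
        revert h1 h3 <;> decide +kernel
    · obtain ⟨a⟩ : Nonempty α := Fintype.card_pos_iff.1 (by omega)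
      haveI : IsPretransitive (res G {a}) {y : α // y ∉ ({a} : Finset α)} := by
        rw [← is_one_pretransitive_iff]
        exact res_pretransitive (k := 3) (by omega) ht {a} (by simp)
      have hcard : Fintype.card {y : α // y ∉ ({a} : Finset α)} = n - 1 := by
        rw [Fintype.card_subtype_compl, Fintype.card_coe, Finset.card_singleton]
      have hX := card_res_singleton (G := G) a
      rw [← hn, hd] at hX
      rcases hm8 with h | h
      · have hn12 : n = 12 := by omega
        refine kill_three_thirty (G := res G {a}) (by rw [hcard, hn12]) ?_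
        rw [hn12, show (12 : ℕ).choose (5 - 1) * 8 = 12 * 330 by decide +kernel] at hX
        exact Nat.eq_of_mul_eq_mul_left (by norm_num) hX
      · have hn24 : n = 24 := by omega
        rw [hn24, show (24 : ℕ).choose (5 - 1) * 8 = 24 * 3542 by decide +kernel] at hX
        have hX' := Nat.eq_of_mul_eq_mul_left (by norm_num) hX
        obtain ⟨r, h1, h2', h3⟩ := exists_residue_of_prime_degree (G := res G {a})
          (Ω := {y : α // y ∉ ({a} : Finset α)}) (p := 23) (by norm_num)
          (by rw [Nat.card_eq_fintype_card, hcard, hn24]) (by omega)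
        rw [hX'] at h3
        have := Nat.le_of_dvd (by norm_num) h1
        interval_cases r <;> revert h1 h3 <;> decide +kernel

/-- Oriented step from homogeneity and one set with all even permutations. -/
theorem transitive_of_hasAlt {t : ℕ} (ht : 4 ≤ t) (hn : t + 3 ≤ Fintype.card α)
    (hh : IsPretransitive G (Set.powersetCard α (t + 1))) (hA : HasAlt G t) :
    IsMultiplyPretransitive G α (t + 1) := by
  obtain ⟨Δ, hΔ, hΔA⟩ := hA
  refine Oriented.transitive_of_even_induced ht hn ?_ ?_
  · intro x y
    obtain ⟨g, hg⟩ := exists_image_eq hh (Finset.univ.map x) (Finset.univ.map y) (by simp) (by simp)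
    have h : ∀ i, ∃ j, y j = g • x i := fun i => by
      have : g • x i ∈ Finset.univ.map y := hg ▸ Finset.mem_image.2
        ⟨x i, Finset.mem_map.2 ⟨i, Finset.mem_univ _, rfl⟩, rfl⟩
      obtain ⟨j, -, hj⟩ := Finset.mem_map.1 this
      exact ⟨j, hj⟩
    choose p hp using h
    have hinj : Function.Injective p := fun i j e =>
      x.injective (MulAction.injective g ((hp i).symm.trans (e ▸ hp j)))
    exact ⟨g, Equiv.ofBijective p (Finite.injective_iff_bijective.1 hinj), fun i => (hp i).symm⟩
  · intro x π hπ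
    obtain ⟨g, hg⟩ := exists_image_eq hh (Finset.univ.map x) Δ (by simp) hΔ
    have hmem : ∀ i, g • x i ∈ Δ := fun i =>
      hg ▸ Finset.mem_image.2 ⟨x i, Finset.mem_map.2 ⟨i, Finset.mem_univ _, rfl⟩, rfl⟩
    let e : Fin (t + 1) ≃ ↥Δ := Equiv.ofBijective (fun i => ⟨g • x i, hmem i⟩)
      ((Fintype.bijective_iff_injective_and_card _).2
        ⟨fun i j e => x.injective (MulAction.injective g (congrArg Subtype.val e)), by simp [hΔ]⟩)
    obtain ⟨f, hf, hfe⟩ := hΔA (e.permCongr π) (by
      rw [Equiv.Perm.mem_alternatingGroup, Equiv.Perm.sign_permCongr]; exact hπ)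
    refine ⟨g⁻¹ * ⟨f, hf⟩ * g, fun i => ?_⟩
    rw [mul_smul, mul_smul, inv_smul_eq_iff]
    have := hfe (e i)
    rw [Equiv.permCongr_apply, Equiv.symm_apply_apply] at this
    exact this

/-- A `k`-homogeneous group with `4 ≤ 2 k ≤ n` is `(k - 1)`-transitive. -/
theorem pred_transitive : ∀ k : ℕ, 2 ≤ k → 2 * k ≤ Fintype.card α →
    IsPretransitive G (Set.powersetCard α k) → IsMultiplyPretransitive G α (k - 1) := by
  intro k
  induction k using Nat.strong_induction_on with
  | _ k ih =>
    intro hk hkn hh
    have hh1 := hom_pred hk (by omega) hh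
    rcases (show k = 2 ∨ 3 ≤ k by omega) with rfl | hk3
    · refine isMultiplyPretransitive_of_fix fun T hT x y _ _ => ?_
      rw [show T = ∅ from Finset.card_eq_zero.1 (by omega)]
      obtain ⟨g, hg⟩ := exists_image_eq hh1 {x} {y} (by simp) (by simp)
      exact ⟨g, by simp, by simpa using hg⟩
    have ht : IsMultiplyPretransitive G α (k - 2) := by
      have := ih (k - 1) (by omega) (by omega) (by omega) hh1
      rwa [show k - 1 - 1 = k - 2 by omega] at this
    rcases (show k ≤ 5 ∨ 6 ≤ k by omega) with hk5 | hk6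
    · obtain ⟨s₀, -, hs₀⟩ := Finset.exists_subset_card_eq (s := (Finset.univ : Finset α)) (n := k - 1)
        (by rw [Finset.card_univ]; omega)
      obtain ⟨t₀, -, ht₀⟩ := Finset.exists_subset_card_eq (s := (Finset.univ : Finset α)) (n := k)
        (by rw [Finset.card_univ]; omega)
      by_cases hl : 1 < Nat.card (fixingSubgroup G (s₀ : Set α))
      · exact S0744.result G (by omega) (by omega) _ _ hl (fun s hs => fixing_const hh1 hs hs₀)
          (fun s hs => fixing_const hh hs ht₀)
      · refine transitive_of_free hk3 hk5 hkn hh hh1 ht fun s hs => ?_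
        rw [fixing_const hh1 hs hs₀]
        have := Nat.card_pos (α := fixingSubgroup G (s₀ : Set α))
        omega
    · have hA := hasAlt _ α G (k - 2) rfl (by omega) (by omega) ht
      have := transitive_of_hasAlt (t := k - 2) (by omega) (by omega)
        (by rwa [show k - 2 + 1 = k - 1 by omega]) hA
      rwa [show k - 2 + 1 = k - 1 by omega] at this

/-- A `k`-homogeneous group with `10 ≤ 2 k ≤ n` is `k`-transitive. -/
theorem transitive {k : ℕ} (hk : 5 ≤ k) (hkn : 2 * k ≤ Fintype.card α)
    (hh : IsPretransitive G (Set.powersetCard α k)) : IsMultiplyPretransitive G α k := by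
  have ht := pred_transitive k (by omega) hkn hh
  have hA := hasAlt _ α G (k - 1) rfl (by omega) (by omega) ht
  have := transitive_of_hasAlt (t := k - 1) (by omega) (by omega)
    (by rwa [show k - 1 + 1 = k by omega]) hA
  rwa [show k - 1 + 1 = k by omega] at this

end Cfsg.Agent.PermB.Liv
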