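import Cfsg.Agent.PermB.Basic
import Cfsg.Agent.PermP.SmallSupport
import Mathlib.GroupTheory.Perm.Cycle.Type

/-!
Restriction of a multiply transitive permutation group to the points outside a fixed set.
-/

set_option autoImplicit false

namespace Cfsg.Agent.PermB.Liv

open MulAction

universe u

variable {α : Type u} [Fintype α] [DecidableEq α]

/-- The points fixed by a permutation. -/
def fixed (g : Equiv.Perm α) : Finset α := Finset.univ.filter fun y => g y = y

theorem mem_fixed {g : Equiv.Perm α} {y : α} : y ∈ fixed g ↔ g y = y := by simp [fixed]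

theorem card_fixed_add (g : Equiv.Perm α) :
    (fixed g).card + g.support.card = Fintype.card α := by
  have h : fixed g = g.supportᶜ := by ext y; simp [mem_fixed, Equiv.Perm.mem_support]
  rw [h, Finset.card_compl]
  have := Finset.card_le_univ g.support
  omega

/-- Two embeddings of a small type are related by the group. -/
theorem exists_agree {G : Subgroup (Equiv.Perm α)} {k : ℕ} (hkn : k ≤ Fintype.card α)
    (hG : IsMultiplyPretransitive G α k) {ι : Type*} [Fintype ι] (hι : Fintype.card ι ≤ k)
    (f f' : ι ↪ α) : ∃ g ∈ G, ∀ i, g (f i) = f' i := by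
  classical
  let T : Finset α := Finset.univ.map f
  have hex : ∃ π : Equiv.Perm α, ∀ i, π (f i) = f' i := by
    let e : {y // y ∈ Set.range f} ≃ {y // y ∈ Set.range f'} :=
      (Equiv.ofInjective f f.injective).symm.trans (Equiv.ofInjective f' f'.injective)
    refine ⟨e.extendSubtype, fun i => ?_⟩
    rw [Equiv.extendSubtype_apply_of_mem e (f i) ⟨i, rfl⟩]
    simp [e, Equiv.ofInjective_symm_apply]
  obtain ⟨π, hπ⟩ := hex
  obtain ⟨g, hg, hgT⟩ := PermP.agree_of_pretransitive hkn hG (T := T)
    (by rw [Finset.card_map, Finset.card_univ]; exact hι) π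
  exact ⟨g, hg, fun i => (hgT _ (Finset.mem_map.2 ⟨i, Finset.mem_univ _, rfl⟩)).trans (hπ i)⟩

/-- The permutations of the points outside `P` induced by the pointwise stabiliser of `P`. -/
def res (G : Subgroup (Equiv.Perm α)) (P : Finset α) :
    Subgroup (Equiv.Perm {y : α // y ∉ P}) :=
  G.comap Equiv.Perm.ofSubtype

theorem res_pretransitive {G : Subgroup (Equiv.Perm α)} {k i : ℕ} (hkn : k ≤ Fintype.card α)
    (hG : IsMultiplyPretransitive G α k) (P : Finset α) (hP : P.card + i ≤ k) :
    IsMultiplyPretransitive (res G P) {y : α // y ∉ P} i := by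
  rw [isMultiplyPretransitive_iff]
  intro x y
  let emb : (Fin i ↪ {y : α // y ∉ P}) → (P ⊕ Fin i ↪ α) := fun x =>
    ⟨Sum.elim (fun p => (p : α)) fun j => (x j : α), by
      rintro (a | a) (b | b) h <;> simp only [Sum.elim_inl, Sum.elim_inr] at h
      · rw [Subtype.ext h]
      · exact absurd a.2 (h ▸ (x b).2)
      · exact absurd b.2 (h.symm ▸ (x a).2)
      · rw [x.injective (Subtype.ext h)]⟩
  obtain ⟨g, hg, hgx⟩ := exists_agree hkn hG (by simp; omega) (emb x) (emb y)
  have hfix : ∀ p ∈ P, g p = p := fun p hp => hgx (Sum.inl ⟨p, hp⟩)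
  have hinv : ∀ z, g z ∉ P ↔ z ∉ P := fun z => by
    refine not_congr ⟨fun h => ?_, fun h => by rwa [hfix z h]⟩
    have := g.injective (hfix _ h)
    rwa [this] at h
  refine ⟨⟨g.subtypePerm hinv, ?_⟩, Function.Embedding.ext fun j => Subtype.ext (hgx (Sum.inr j))⟩
  show Equiv.Perm.ofSubtype (g.subtypePerm hinv) ∈ G
  convert hg using 1
  refine Equiv.ext fun z => ?_
  by_cases hz : z ∈ P
  · rw [Equiv.Perm.ofSubtype_apply_of_not_mem (p := fun y => y ∉ P) _ (not_not.2 hz), hfix z hz]
  · exact (Equiv.Perm.ofSubtype_apply_coe (g.subtypePerm hinv) ⟨z, hz⟩).trans rfl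

theorem card_fixed_ofSubtype (P : Finset α) (σ : Equiv.Perm {y : α // y ∉ P})
    (S : Finset {y : α // y ∉ P}) (hS : ∀ y ∈ S, σ y = y) :
    P.card + S.card ≤ (fixed (Equiv.Perm.ofSubtype σ)).card := by
  have hd : Disjoint P (S.map (Function.Embedding.subtype _)) := by
    rw [Finset.disjoint_left]
    rintro a ha h
    obtain ⟨b, -, rfl⟩ := Finset.mem_map.1 h
    exact b.2 ha
  calc P.card + S.card = (P ∪ S.map (Function.Embedding.subtype _)).card := by
        rw [Finset.card_union_of_disjoint hd, Finset.card_map]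
    _ ≤ _ := Finset.card_le_card fun a ha => by
        rw [mem_fixed]
        rcases Finset.mem_union.1 ha with h | h
        · exact Equiv.Perm.ofSubtype_apply_of_not_mem (p := fun y => y ∉ P) _ (not_not.2 h)
        · obtain ⟨b, hb, rfl⟩ := Finset.mem_map.1 h
          show Equiv.Perm.ofSubtype σ (b : α) = b
          rw [Equiv.Perm.ofSubtype_apply_coe, hS b hb]

/-- Elements agreeing on `k` points of a group in which only the identity fixes `k` points. -/
theorem eq_of_agree {G : Subgroup (Equiv.Perm α)} {k : ℕ}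
    (hsharp : ∀ g ∈ G, g ≠ 1 → (fixed g).card < k) {T : Finset α} (hT : k ≤ T.card)
    {x y : Equiv.Perm α} (hx : x ∈ G) (hy : y ∈ G) (h : ∀ t ∈ T, x t = y t) : x = y := by
  by_contra hne
  have := hsharp (y⁻¹ * x) (G.mul_mem (G.inv_mem hy) hx) (fun e => hne (inv_mul_eq_one.1 e).symm)
  have hsub : T ⊆ fixed (y⁻¹ * x) := fun t ht => mem_fixed.2 (by
    rw [Equiv.Perm.mul_apply, h t ht]; simp)
  have := Finset.card_le_card hsub
  omega

end Cfsg.Agent.PermB.Liv
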