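import Cfsg.Agent.PermB.LivRes
import Mathlib.GroupTheory.SpecificGroups.Alternating

/-!
Set stabilisers in sharply multiply transitive groups with five or seven further points.
-/

set_option autoImplicit false

namespace Cfsg.Agent.PermB.Liv

open MulAction

variable {α : Type*} [Fintype α] [DecidableEq α] {G : Subgroup (Equiv.Perm α)} {k : ℕ}

/-- The setting: a group sharply transitive on lists of `k` points. -/
structure Sharp (G : Subgroup (Equiv.Perm α)) (k : ℕ) : Prop where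
  le : k ≤ Fintype.card α
  trans : IsMultiplyPretransitive G α k
  sharp : ∀ g ∈ G, g ≠ 1 → (fixed g).card < k

namespace Sharp

variable (hS : Sharp G k)

include hS

theorem eq_of_emb (x : Fin k ↪ α) {g h : Equiv.Perm α} (hg : g ∈ G) (hh : h ∈ G)
    (e : ∀ i, g (x i) = h (x i)) : g = h := by
  refine eq_of_agree hS.sharp (T := Finset.univ.map x) (by simp) hg hh fun t ht => ?_
  obtain ⟨i, -, rfl⟩ := Finset.mem_map.1 ht
  exact e i

theorem exists_lift (x : Fin k ↪ α) (π : Equiv.Perm (Fin k)) :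
    ∃ g ∈ G, ∀ i, g (x i) = x (π i) :=
  exists_agree hS.le hS.trans (by simp) x (π.toEmbedding.trans x)

/-- The permutations of `x` lift to a group of permutations of all points. -/
theorem exists_hom (x : Fin k ↪ α) : ∃ ψ : Equiv.Perm (Fin k) →* Equiv.Perm α,
    ∀ π, ψ π ∈ G ∧ ∀ i, ψ π (x i) = x (π i) := by
  choose f hf using hS.exists_lift x
  refine ⟨MonoidHom.mk' f fun p q => hS.eq_of_emb x (hf _).1 (G.mul_mem (hf p).1 (hf q).1) fun i => ?_,
    hf⟩
  rw [Equiv.Perm.mul_apply, (hf q).2, (hf p).2, (hf _).2, Equiv.Perm.mul_apply]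

omit hS in
theorem notMem_range {x : Fin k ↪ α} {ψ : Equiv.Perm α} {π : Equiv.Perm (Fin k)}
    (h : ∀ i, ψ (x i) = x (π i)) (y : α) : ψ y ∉ Set.range x ↔ y ∉ Set.range x := by
  refine not_congr ⟨?_, ?_⟩
  · rintro ⟨i, hi⟩
    refine ⟨π.symm i, ψ.injective ?_⟩
    rw [h, Equiv.apply_symm_apply, hi]
  · rintro ⟨i, rfl⟩
    exact ⟨π i, (h i).symm⟩

/-- A lifted transposition fixes exactly one of the remaining points. -/
theorem unique_fixed_outside (hodd : Odd (Fintype.card α - k)) (x : Fin k ↪ α) {b c : Fin k}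
    (hbc : b ≠ c) {g : Equiv.Perm α} (hg : g ∈ G) (hgx : ∀ i, g (x i) = x (Equiv.swap b c i)) :
    g * g = 1 ∧ (fixed g).card + 1 = k ∧
      ∃! z : α, g z = z ∧ z ∉ Set.range x := by
  have hgg : g * g = 1 := hS.eq_of_emb x (G.mul_mem hg hg) G.one_mem fun i => by
    rw [Equiv.Perm.mul_apply, hgx, hgx, Equiv.swap_apply_self, Equiv.Perm.one_apply]
  have hg1 : g ≠ 1 := fun e => hbc (by
    have := hgx b
    rw [e, Equiv.Perm.one_apply, Equiv.swap_apply_left] at this
    exact x.injective this)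
  have hlt := hS.sharp g hg hg1
  have hsplit : (fixed g).card =
      (fixed g \ Finset.univ.map x).card + (fixed g ∩ Finset.univ.map x).card :=
    (Finset.card_sdiff_add_card_inter _ _).symm
  have hin : (fixed g ∩ Finset.univ.map x).card = k - 2 := by
    have e : fixed g ∩ Finset.univ.map x = (Finset.univ \ {b, c}).map x := by
      ext y
      simp only [Finset.mem_inter, mem_fixed, Finset.mem_map, Finset.mem_univ, true_and,
        Finset.mem_sdiff, Finset.mem_insert, Finset.mem_singleton]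
      constructor
      · rintro ⟨hy, i, rfl⟩
        rw [hgx, x.injective.eq_iff] at hy
        refine ⟨i, not_or.2 ⟨fun e => hbc ?_, fun e => hbc ?_⟩, rfl⟩
        · subst e; rw [Equiv.swap_apply_left] at hy; exact hy.symm
        · subst e; rw [Equiv.swap_apply_right] at hy; exact hy
      · rintro ⟨i, hi, rfl⟩
        rw [not_or] at hi
        exact ⟨by rw [hgx, Equiv.swap_apply_of_ne_of_ne hi.1 hi.2], i, rfl⟩
    rw [e, Finset.card_map, Finset.card_univ_diff, Finset.card_pair hbc, Fintype.card_fin]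
  have heven := Equiv.Perm.two_dvd_card_support (σ := g) (by rw [pow_two, hgg])
  have hsum := card_fixed_add g
  have hle := hS.le
  obtain ⟨m, hm⟩ := hodd
  obtain ⟨j, hj⟩ := heven
  have hb := Finset.card_le_univ ({b, c} : Finset (Fin k))
  rw [Finset.card_pair hbc, Fintype.card_fin] at hb
  have h1 : (fixed g \ Finset.univ.map x).card = 1 := by omega
  refine ⟨hgg, by omega, ?_⟩
  obtain ⟨z, hz⟩ := Finset.card_eq_one.1 h1
  have hmem : ∀ y, y ∈ fixed g \ Finset.univ.map x ↔ g y = y ∧ y ∉ Set.range x := fun y => by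
    simp [mem_fixed]
  refine ⟨z, (hmem z).1 (hz ▸ Finset.mem_singleton_self z), fun y hy => ?_⟩
  have := (hmem y).2 hy
  rwa [hz, Finset.mem_singleton] at this

/-- There is no such group with five further points. -/
theorem false_of_five (hk : k = 4 ∨ k = 5) (hn : Fintype.card α = k + 5) : False := by
  obtain ⟨x⟩ : Nonempty (Fin k ↪ α) :=
    Function.Embedding.nonempty_of_card_le (by rw [Fintype.card_fin]; exact hS.le)
  obtain ⟨ψ, hψ⟩ := hS.exists_hom x
  let β := {y : α // y ∉ Set.range x}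
  let φ : Equiv.Perm (Fin k) →* Equiv.Perm β := MonoidHom.mk'
    (fun π => (ψ π).subtypePerm (notMem_range (hψ π).2))
    (fun p q => Equiv.ext fun y => Subtype.ext (by simp [Equiv.Perm.subtypePerm_apply]))
  have hφ : ∀ π (y : β), ((φ π y : β) : α) = ψ π y := fun π y => rfl
  have hβ : Fintype.card β = 5 := by
    have h5 : Fintype.card β = Fintype.card α - Fintype.card (Set.range x) :=
      Fintype.card_subtype_compl _
    rw [h5, Set.card_range_of_injective x.injective, Fintype.card_fin, hn]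
    omega
  have hinj : Function.Injective φ := by
    rw [injective_iff_map_eq_one]
    intro π hπ
    have h1 : ψ π = 1 := by
      by_contra hne
      have hlt := hS.sharp _ (hψ π).1 hne
      have hsub : Finset.univ.map (Function.Embedding.subtype fun y => y ∉ Set.range x) ⊆
          fixed (ψ π) := fun y hy => by
        obtain ⟨w, -, rfl⟩ := Finset.mem_map.1 hy
        rw [mem_fixed]
        show ψ π (w : α) = w
        rw [← hφ π w, hπ, Equiv.Perm.one_apply]
      have := Finset.card_le_card hsub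
      rw [Finset.card_map, Finset.card_univ] at this
      simp only [β] at hβ
      omega
    refine Equiv.ext fun i => x.injective ?_
    rw [← (hψ π).2, h1]; rfl
  have hsign : ∀ π, Equiv.Perm.sign (φ π) = 1 := by
    intro π
    induction π using Equiv.Perm.swap_induction_on with
    | one => simp
    | swap_mul f b c hbc ih =>
      rw [map_mul, map_mul, ih, mul_one]
      obtain ⟨hgg, hfix, z, ⟨hz, hzr⟩, huniq⟩ := hS.unique_fixed_outside ⟨2, by omega⟩ x hbc
        (hψ (Equiv.swap b c)).1 (hψ _).2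
      have hsupp : (φ (Equiv.swap b c)).support = Finset.univ.erase ⟨z, hzr⟩ := by
        ext y
        rw [Equiv.Perm.mem_support, Finset.mem_erase]
        constructor
        · intro h
          exact ⟨fun e => h (Subtype.ext (by rw [hφ, e, hz])), Finset.mem_univ _⟩
        · rintro ⟨h, -⟩ e
          exact h (Subtype.ext (huniq y ⟨by rw [← hφ, e], y.2⟩))
      have hc4 : (φ (Equiv.swap b c)).support.card = 4 := by
        rw [hsupp, Finset.card_erase_of_mem (Finset.mem_univ _), Finset.card_univ, hβ]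
      have h2 : orderOf (φ (Equiv.swap b c)) = 2 := by
        haveI : Fact (Nat.Prime 2) := ⟨Nat.prime_two⟩
        refine orderOf_eq_prime ?_ fun e => ?_
        · rw [← map_pow, pow_two, Equiv.swap_mul_self, map_one]
        · rw [e, Equiv.Perm.support_one, Finset.card_empty] at hc4; omega
      obtain ⟨m, hm⟩ := Equiv.Perm.cycleType_prime_order
        (σ := φ (Equiv.swap b c)) (by rw [h2]; exact Nat.prime_two)
      have hs := Equiv.Perm.sum_cycleType (φ (Equiv.swap b c))
      rw [hm, h2, Multiset.sum_replicate, hc4, smul_eq_mul] at hs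
      rw [Equiv.Perm.sign_of_cycleType, hm, h2, Multiset.sum_replicate, Multiset.card_replicate,
        show m = 1 by omega]
      rfl
  haveI : Nontrivial β := Fintype.one_lt_card_iff_nontrivial.1 (by omega)
  have hdvd : k.factorial ∣ 60 := by
    have e1 : Nat.card (Equiv.Perm (Fin k)) = k.factorial := by
      rw [Nat.card_eq_fintype_card, Fintype.card_perm, Fintype.card_fin]
    have e2 : Nat.card (alternatingGroup β) = 60 := by
      rw [nat_card_alternatingGroup, Nat.card_eq_fintype_card, hβ]; rfl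
    rw [← e1, ← e2, Nat.card_congr (MonoidHom.ofInjective hinj).toEquiv]
    exact Subgroup.card_dvd_of_le (by rintro _ ⟨π, rfl⟩; exact hsign π)
  rcases hk with rfl | rfl
  · exact absurd hdvd (by decide)
  · exact absurd hdvd (by decide)

/-- All lifted transpositions fix the same further point. -/
theorem exists_common (hk : k = 4 ∨ k = 5) (hn : Fintype.card α = k + 7) (x : Fin k ↪ α)
    {ψ : Equiv.Perm (Fin k) →* Equiv.Perm α} (hψ : ∀ π, ψ π ∈ G ∧ ∀ i, ψ π (x i) = x (π i)) :
    ∃ z : α, z ∉ Set.range x ∧ ∀ π, ψ π z = z := by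
  have hodd : Odd (Fintype.card α - k) := ⟨3, by omega⟩
  have hex : ∀ b c : Fin k, ∃ z : α, b ≠ c →
      ψ (Equiv.swap b c) z = z ∧ z ∉ Set.range x ∧
        ∀ y, ψ (Equiv.swap b c) y = y → y ∉ Set.range x → y = z := by
    intro b c
    by_cases hbc : b = c
    · exact ⟨x b, fun h => absurd hbc h⟩
    · obtain ⟨-, -, z, ⟨h1, h2⟩, h3⟩ :=
        hS.unique_fixed_outside hodd x hbc (hψ _).1 (hψ _).2
      exact ⟨z, fun _ => ⟨h1, h2, fun y e1 e2 => h3 y ⟨e1, e2⟩⟩⟩
  choose Z hZ using hex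
  have hcomm : ∀ b c d e : Fin k, b ≠ c → d ≠ e → b ≠ d → b ≠ e → c ≠ d → c ≠ e →
      Z b c = Z d e := by
    intro b c d e hbc hde h1 h2 h3 h4
    obtain ⟨p1, p2, -⟩ := hZ b c hbc
    obtain ⟨q1, q2, q3⟩ := hZ d e hde
    have hw := hψ (Equiv.swap d e)
    obtain ⟨-, -, r3⟩ := hZ b c hbc
    have hswap : Equiv.swap b c * Equiv.swap d e = Equiv.swap d e * Equiv.swap b c :=
      (Equiv.Perm.disjoint_iff_disjoint_support.2 (by
        rw [Equiv.Perm.support_swap hbc, Equiv.Perm.support_swap hde]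
        simp [h1, h2, h3, h4, Ne.symm h1, Ne.symm h2, Ne.symm h3, Ne.symm h4])).commute.eq
    refine q3 _ (r3 _ ?_ ?_) p2
    · rw [← Equiv.Perm.mul_apply, ← map_mul, hswap, map_mul, Equiv.Perm.mul_apply, p1]
    · exact (notMem_range hw.2 _).2 p2
  suffices hall : ∃ z, ∀ b c, b ≠ c → Z b c = z by
    obtain ⟨z, hz⟩ := hall
    have h01 : (⟨0, by omega⟩ : Fin k) ≠ ⟨1, by omega⟩ := fun e => by simp at e
    refine ⟨z, hz _ _ h01 ▸ (hZ _ _ h01).2.1, fun π => ?_⟩
    induction π using Equiv.Perm.swap_induction_on with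
    | one => simp
    | swap_mul f b c hbc ih =>
      rw [map_mul, Equiv.Perm.mul_apply, ih, ← hz b c hbc]
      exact (hZ b c hbc).1
  rcases hk with rfl | rfl
  swap
  · -- five points: any two transpositions are joined through disjoint ones
    refine ⟨Z 0 1, fun b c hbc => ?_⟩
    have key : ∀ b c : Fin 5, b ≠ c → ((b = 0 ∧ c = 1) ∨ (b = 1 ∧ c = 0)) ∨
        (b ≠ 0 ∧ b ≠ 1 ∧ c ≠ 0 ∧ c ≠ 1) ∨
        ∃ d e : Fin 5, d ≠ e ∧ b ≠ d ∧ b ≠ e ∧ c ≠ d ∧ c ≠ e ∧ d ≠ 0 ∧ d ≠ 1 ∧ e ≠ 0 ∧ e ≠ 1 := by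
      decide
    rcases key b c hbc with (⟨rfl, rfl⟩ | ⟨rfl, rfl⟩) | ⟨h1, h2, h3, h4⟩ |
        ⟨d, e, hde, h1, h2, h3, h4, h5, h6, h7, h8⟩
    · rfl
    · refine (hcomm 1 0 2 3 ?_ ?_ ?_ ?_ ?_ ?_).trans (hcomm 2 3 0 1 ?_ ?_ ?_ ?_ ?_ ?_) <;> decide
    · exact hcomm b c 0 1 hbc (by decide) h1 h2 h3 h4
    · exact (hcomm b c d e hbc hde h1 h2 h3 h4).trans
        (hcomm d e 0 1 hde (by decide) h5 h6 h7 h8)
  -- four points
  have hconj : ∀ (w : Equiv.Perm (Fin 4)) (b c : Fin 4), b ≠ c →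
      ψ w (Z b c) = Z (w b) (w c) := by
    intro w b c hbc
    have hne : w b ≠ w c := fun e => hbc (w.injective e)
    obtain ⟨p1, p2, -⟩ := hZ b c hbc
    refine (hZ _ _ hne).2.2 _ ?_ ((notMem_range (hψ w).2 _).2 p2)
    rw [← Equiv.Perm.mul_apply, ← map_mul,
      show Equiv.swap (w b) (w c) * w = w * Equiv.swap b c by
        rw [Equiv.mul_swap_eq_swap_mul], map_mul, Equiv.Perm.mul_apply, p1]
  have hrev : ∀ b c : Fin 4, b ≠ c → Z c b = Z b c := by
    intro b c hbc
    obtain ⟨p1, p2, -⟩ := hZ c b hbc.symm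
    exact (hZ b c hbc).2.2 _ (by rw [Equiv.swap_comm]; exact p1) p2
  have c1 := hcomm 2 3 0 1 (by decide) (by decide) (by decide) (by decide) (by decide) (by decide)
  have c2 := hcomm 1 3 0 2 (by decide) (by decide) (by decide) (by decide) (by decide) (by decide)
  have c3 := hcomm 1 2 0 3 (by decide) (by decide) (by decide) (by decide) (by decide) (by decide)
  have hclass : ∀ b c : Fin 4, b ≠ c → Z b c = Z 0 1 ∨ Z b c = Z 0 2 ∨ Z b c = Z 0 3 := by
    intro b c hbc
    fin_cases b <;> fin_cases c <;> simp at hbc ⊢ <;>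
      first
        | simp [hrev 0 1 (by decide), hrev 0 2 (by decide), hrev 0 3 (by decide),
            hrev 1 2 (by decide), hrev 1 3 (by decide), hrev 2 3 (by decide), c1, c2, c3]
        | skip
  have hq : (Z 0 1 = Z 0 2 ∧ Z 0 1 = Z 0 3) ∨
      (Z 0 1 ≠ Z 0 2 ∧ Z 0 1 ≠ Z 0 3 ∧ Z 0 2 ≠ Z 0 3) := by
    by_cases e12 : Z 0 1 = Z 0 2
    · left
      refine ⟨e12, ?_⟩
      have h := congrArg (ψ (Equiv.swap (1 : Fin 4) 3)) e12
      rw [hconj _ _ _ (by decide), hconj _ _ _ (by decide)] at h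
      rw [show Equiv.swap (1 : Fin 4) 3 0 = 0 by decide, show Equiv.swap (1 : Fin 4) 3 1 = 3 by decide,
        show Equiv.swap (1 : Fin 4) 3 2 = 2 by decide] at h
      rw [h, e12]
    by_cases e13 : Z 0 1 = Z 0 3
    · exfalso
      have h := congrArg (ψ (Equiv.swap (1 : Fin 4) 2)) e13
      rw [hconj _ _ _ (by decide), hconj _ _ _ (by decide)] at h
      rw [show Equiv.swap (1 : Fin 4) 2 0 = 0 by decide, show Equiv.swap (1 : Fin 4) 2 1 = 2 by decide,
        show Equiv.swap (1 : Fin 4) 2 3 = 3 by decide] at h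
      exact e12 (e13.trans h.symm)
    by_cases e23 : Z 0 2 = Z 0 3
    · exfalso
      have h := congrArg (ψ (Equiv.swap (1 : Fin 4) 2)) e23
      rw [hconj _ _ _ (by decide), hconj _ _ _ (by decide)] at h
      rw [show Equiv.swap (1 : Fin 4) 2 0 = 0 by decide, show Equiv.swap (1 : Fin 4) 2 2 = 1 by decide,
        show Equiv.swap (1 : Fin 4) 2 3 = 3 by decide] at h
      exact e13 h
    exact Or.inr ⟨e12, e13, e23⟩
  rcases hq with ⟨e2, e3⟩ | ⟨n12, n13, n23⟩
  · refine ⟨Z 0 1, fun b c hbc => ?_⟩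
    rcases hclass b c hbc with h | h | h
    · exact h
    · exact h.trans e2.symm
    · exact h.trans e3.symm
  exfalso
  let V : Finset (Equiv.Perm (Fin 4)) := {1, Equiv.swap 0 1 * Equiv.swap 2 3,
    Equiv.swap 0 2 * Equiv.swap 1 3, Equiv.swap 0 3 * Equiv.swap 1 2}
  have hVZ : ∀ d ∈ V, ψ d (Z 0 1) = Z 0 1 ∧ ψ d (Z 0 2) = Z 0 2 ∧ ψ d (Z 0 3) = Z 0 3 := by
    intro d hd
    rw [hconj _ _ _ (by decide), hconj _ _ _ (by decide), hconj _ _ _ (by decide)]
    simp only [V, Finset.mem_insert, Finset.mem_singleton] at hd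
    rcases hd with rfl | rfl | rfl | rfl <;> simp [hrev 0 1 (by decide), hrev 0 2 (by decide),
      hrev 0 3 (by decide), hrev 1 2 (by decide), hrev 1 3 (by decide), hrev 2 3 (by decide),
      c1, c2, c3, Equiv.swap_apply_def]
  obtain ⟨p1, p2, p3⟩ := hZ 0 1 (by decide)
  have q2 := (hZ 0 2 (by decide)).2.1
  have q3 := (hZ 0 3 (by decide)).2.1
  let out : Finset α := Finset.univ \ (Finset.univ.map x ∪ {Z 0 1, Z 0 2, Z 0 3})
  have hout : ∀ y, y ∈ out ↔ y ∉ Set.range x ∧ y ≠ Z 0 1 ∧ y ≠ Z 0 2 ∧ y ≠ Z 0 3 := fun y => by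
    simp [out, not_or]; tauto
  have hcard : out.card = 4 := by
    rw [Finset.card_univ_diff, Finset.card_union_of_disjoint, Finset.card_map, Finset.card_univ,
      Fintype.card_fin, Finset.card_insert_of_notMem (by simp [n12, n13]),
      Finset.card_pair n23, hn]
    simp only [Finset.disjoint_right, Finset.mem_insert, Finset.mem_singleton]
    rintro y (rfl | rfl | rfl) hy <;>
      obtain ⟨i, -, hi⟩ := Finset.mem_map.1 hy
    · exact p2 ⟨i, hi⟩
    · exact q2 ⟨i, hi⟩
    · exact q3 ⟨i, hi⟩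
  obtain ⟨y, hy⟩ := Finset.card_pos.1 (show 0 < out.card by omega)
  have hy' := (hout y).1 hy
  have hfree : ∀ d ∈ V, ψ d y = y → ψ d = 1 := by
    intro d hd hdy
    by_contra hne
    obtain ⟨h1, h2, h3⟩ := hVZ d hd
    have hlt := hS.sharp _ (hψ d).1 hne
    have hsub : ({Z 0 1, Z 0 2, Z 0 3, y} : Finset α) ⊆ fixed (ψ d) := fun w hw => by
      simp only [Finset.mem_insert, Finset.mem_singleton] at hw
      rw [mem_fixed]
      rcases hw with rfl | rfl | rfl | rfl <;> assumption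
    have := Finset.card_le_card hsub
    rw [Finset.card_insert_of_notMem (by simp [n12, n13, Ne.symm hy'.2.1]),
      Finset.card_insert_of_notMem (by simp [n23, Ne.symm hy'.2.2.1]),
      Finset.card_pair (Ne.symm hy'.2.2.2)] at this
    omega
  have hψinj : ∀ {p q : Equiv.Perm (Fin 4)}, ψ p = ψ q → p = q := by
    intro p q e
    refine Equiv.ext fun i => x.injective ?_
    rw [← (hψ p).2, ← (hψ q).2, e]
  have himg : V.image (fun d => ψ d y) = out := by
    refine Finset.eq_of_subset_of_card_le ?_ ?_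
    · intro w hw
      obtain ⟨d, hd, rfl⟩ := Finset.mem_image.1 hw
      obtain ⟨h1, h2, h3⟩ := hVZ d hd
      refine (hout _).2 ⟨(notMem_range (hψ d).2 _).2 hy'.1, fun e => hy'.2.1 ?_,
        fun e => hy'.2.2.1 ?_, fun e => hy'.2.2.2 ?_⟩
      · exact (ψ d).injective (e.trans h1.symm)
      · exact (ψ d).injective (e.trans h2.symm)
      · exact (ψ d).injective (e.trans h3.symm)
    · rw [hcard, Finset.card_image_of_injOn]
      · decide
      intro d hd d' hd' e
      have hmem : ∀ d ∈ V, ∀ d' ∈ V, d⁻¹ * d' ∈ V := by decide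
      have h1 := hfree _ (hmem d hd d' hd') (by
        rw [map_mul, Equiv.Perm.mul_apply, ← show ψ d y = ψ d' y from e, ← Equiv.Perm.mul_apply,
          ← map_mul, inv_mul_cancel, map_one, Equiv.Perm.one_apply])
      exact (inv_mul_eq_one.1 (hψinj (h1.trans (map_one ψ).symm)))
  set τ : Equiv.Perm (Fin 4) := Equiv.swap 0 1
  have hτy : ψ τ y ∈ out := by
    refine (hout _).2 ⟨(notMem_range (hψ τ).2 _).2 hy'.1, fun e => hy'.2.1 ?_, fun e => ?_,
      fun e => ?_⟩
    · exact (ψ τ).injective (e.trans p1.symm)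
    · have h3 : ψ τ (Z 0 3) = Z 0 2 := by
        rw [hconj _ _ _ (by decide), show τ 0 = 1 by decide, show τ 3 = 3 by decide, c2]
      exact hy'.2.2.2 ((ψ τ).injective (e.trans h3.symm))
    · have h2 : ψ τ (Z 0 2) = Z 0 3 := by
        rw [hconj _ _ _ (by decide), show τ 0 = 1 by decide, show τ 2 = 2 by decide, c3]
      exact hy'.2.2.1 ((ψ τ).injective (e.trans h2.symm))
  rw [← himg] at hτy
  obtain ⟨d, hd, hdy⟩ := Finset.mem_image.1 hτy
  have hback : ψ (τ * d * τ * d) y = y := by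
    rw [map_mul, Equiv.Perm.mul_apply, hdy, ← Equiv.Perm.mul_apply, ← map_mul,
      show τ * d * τ * τ = τ * d by rw [mul_assoc, Equiv.swap_mul_self, mul_one], map_mul,
      Equiv.Perm.mul_apply, hdy, ← Equiv.Perm.mul_apply, ← map_mul, Equiv.swap_mul_self, map_one,
      Equiv.Perm.one_apply]
  have hmemV : ∀ d ∈ V, Equiv.swap 0 1 * d * Equiv.swap 0 1 * d ∈ V := by decide
  have h1 : τ * d * τ * d = 1 :=
    hψinj ((hfree _ (hmemV d hd) hback).trans (map_one ψ).symm)
  have hd01 : ∀ d ∈ V, Equiv.swap 0 1 * d * Equiv.swap 0 1 * d = 1 →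
      d = 1 ∨ d * Equiv.swap 0 1 = Equiv.swap 2 3 := by decide
  rcases hd01 d hd h1 with rfl | h23
  · rw [map_one, Equiv.Perm.one_apply] at hdy
    exact hy'.2.1 (p3 y hdy.symm hy'.1)
  · -- `(2 3)` fixes a second point
    refine hy'.2.1 ?_
    rw [← c1]
    refine (hZ 2 3 (by decide)).2.2 y ?_ hy'.1
    have hdd : ∀ d ∈ V, d * d = 1 := by decide
    rw [← h23, map_mul, Equiv.Perm.mul_apply, ← hdy, ← Equiv.Perm.mul_apply, ← map_mul, hdd d hd,
      map_one, Equiv.Perm.one_apply]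

/-- With seven further points some `k + 1` points carry all their permutations. -/
theorem exists_full (hk : k = 4 ∨ k = 5) (hn : Fintype.card α = k + 7) :
    ∃ Δ : Finset α, Δ.card = k + 1 ∧
      ∀ σ : Equiv.Perm ↥Δ, ∃ g ∈ G, ∀ y : ↥Δ, g (y : α) = σ y := by
  obtain ⟨x⟩ : Nonempty (Fin k ↪ α) :=
    Function.Embedding.nonempty_of_card_le (by rw [Fintype.card_fin]; exact hS.le)
  obtain ⟨ψ, hψ⟩ := hS.exists_hom x
  obtain ⟨z, hzr, hz⟩ := hS.exists_common hk hn x hψ
  have hodd : Odd (Fintype.card α - k) := ⟨3, by omega⟩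
  set Δ := insert z (Finset.univ.map x) with hΔ
  refine ⟨Δ, ?_, fun σ => ?_⟩
  · rw [hΔ, Finset.card_insert_of_notMem (by simpa using hzr), Finset.card_map, Finset.card_univ,
      Fintype.card_fin]
  have hzΔ : z ∈ Δ := Finset.mem_insert_self _ _
  have hxΔ : ∀ i, x i ∈ Δ := fun i =>
    Finset.mem_insert_of_mem (Finset.mem_map.2 ⟨i, Finset.mem_univ _, rfl⟩)
  -- it suffices to move `z`
  suffices hmove : ∃ h ∈ G, h z = σ ⟨z, hzΔ⟩ ∧ ∀ y ∈ Δ, h y ∈ Δ by
    obtain ⟨h, hh, hhz, hhΔ⟩ := hmove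
    have hsurj : ∀ w ∈ Δ, h⁻¹ w ∈ Δ := by
      intro w hw
      have him : Δ.image h = Δ := Finset.eq_of_subset_of_card_le
        (fun v hv => by obtain ⟨u, hu, rfl⟩ := Finset.mem_image.1 hv; exact hhΔ u hu)
        (by rw [Finset.card_image_of_injective _ h.injective])
      rw [← him] at hw
      obtain ⟨u, hu, rfl⟩ := Finset.mem_image.1 hw
      simpa using hu
    let f : Fin k → α := fun i => h⁻¹ (σ ⟨x i, hxΔ i⟩ : α)
    have hf : ∀ i, ∃ j, x j = f i := by
      intro i
      have hmem := hsurj _ (σ ⟨x i, hxΔ i⟩).2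
      replace hmem := Finset.mem_insert.1 hmem
      rcases hmem with e | e
      · exfalso
        have e2 : h z = (σ ⟨x i, hxΔ i⟩ : α) := by rw [← e]; simp
        rw [hhz] at e2
        exact hzr ⟨i, (congrArg Subtype.val (σ.injective (Subtype.ext e2))).symm⟩
      · obtain ⟨j, -, hj⟩ := Finset.mem_map.1 e
        exact ⟨j, hj⟩
    choose p hp using hf
    have hpinj : Function.Injective p := by
      intro i j e
      have e1 : f i = f j := by rw [← hp, ← hp, e]
      exact x.injective (congrArg Subtype.val (σ.injective (Subtype.ext (h⁻¹.injective e1))))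
    let π : Equiv.Perm (Fin k) :=
      Equiv.ofBijective p (Finite.injective_iff_bijective.1 hpinj)
    refine ⟨h * ψ π, G.mul_mem hh (hψ π).1, ?_⟩
    rintro ⟨y, hy⟩
    have hy' := Finset.mem_insert.1 hy
    show h (ψ π y) = _
    rcases hy' with rfl | hy'
    · rw [hz]; exact hhz
    · obtain ⟨i, -, rfl⟩ := Finset.mem_map.1 hy'
      rw [(hψ π).2, show x (π i) = f i from hp i]
      simp [f]
  have hσz := (σ ⟨z, hzΔ⟩).2
  replace hσz := Finset.mem_insert.1 hσz
  rcases hσz with e | e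
  · exact ⟨1, G.one_mem, e.symm, fun y hy => hy⟩
  obtain ⟨j, -, hj⟩ := Finset.mem_map.1 e
  obtain ⟨a, b, c, haj, hab, hac, hbc⟩ : ∃ a b c : Fin k, a ≠ j ∧ a ≠ b ∧ a ≠ c ∧ b ≠ c := by
    rcases hk with rfl | rfl
    · exact (by decide : ∀ j : Fin 4, ∃ a b c, a ≠ j ∧ a ≠ b ∧ a ≠ c ∧ b ≠ c) j
    · exact (by decide : ∀ j : Fin 5, ∃ a b c, a ≠ j ∧ a ≠ b ∧ a ≠ c ∧ b ≠ c) j
  -- the same frame with `x a` exchanged for `z`
  let x' : Fin k ↪ α := ⟨Function.update x a z, by
    intro i i' e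
    rcases eq_or_ne i a with hi | hi <;> rcases eq_or_ne i' a with hi' | hi'
    · rw [hi, hi']
    · rw [hi, Function.update_self, Function.update_of_ne hi'] at e; exact absurd ⟨i', e.symm⟩ hzr
    · rw [hi', Function.update_self, Function.update_of_ne hi] at e; exact absurd ⟨i, e⟩ hzr
    · rw [Function.update_of_ne hi, Function.update_of_ne hi'] at e; exact x.injective e⟩
  have hx'a : x' a = z := Function.update_self (f := x) a z
  have hx' : ∀ i, i ≠ a → x' i = x i := fun i hi => Function.update_of_ne hi z x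
  obtain ⟨ψ', hψ'⟩ := hS.exists_hom x'
  obtain ⟨z', hz'r, hz'⟩ := hS.exists_common hk hn x' hψ'
  have hs_eq : ψ' (Equiv.swap b c) = ψ (Equiv.swap b c) := by
    refine hS.eq_of_emb x' (hψ' _).1 (hψ _).1 fun i => ?_
    rw [(hψ' _).2]
    rcases eq_or_ne i a with hi | hi
    · rw [hi, Equiv.swap_apply_of_ne_of_ne hab hac, hx'a, hz]
    · have hsa : Equiv.swap b c i ≠ a := fun e => hi (by
        rw [← Equiv.swap_apply_self b c i, e, Equiv.swap_apply_of_ne_of_ne hab hac])
      rw [hx' _ hsa, hx' _ hi, (hψ _).2]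
  have hza : z' = x a := by
    obtain ⟨-, -, w, -, huniq⟩ :=
      hS.unique_fixed_outside hodd x' hbc (hψ' (Equiv.swap b c)).1 (hψ' _).2
    refine (huniq z' ⟨hz' _, hz'r⟩).trans (huniq (x a) ⟨?_, ?_⟩).symm
    · rw [hs_eq, (hψ _).2, Equiv.swap_apply_of_ne_of_ne hab hac]
    · rintro ⟨i, hi⟩
      rcases eq_or_ne i a with h | h
      · rw [h, hx'a] at hi; exact hzr ⟨a, hi.symm⟩
      · rw [hx' i h] at hi; exact h (x.injective hi)
  refine ⟨ψ' (Equiv.swap a j), (hψ' _).1, ?_, fun y hy => ?_⟩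
  · have e1 := (hψ' (Equiv.swap a j)).2 a
    rw [hx'a, Equiv.swap_apply_left, hx' j haj.symm] at e1
    exact e1.trans hj
  · replace hy := Finset.mem_insert.1 hy
    have hmem : ∀ i, x' i ∈ Δ := fun i => by
      rcases eq_or_ne i a with h | h
      · rw [h, hx'a]; exact hzΔ
      · rw [hx' i h]; exact hxΔ i
    rcases hy with rfl | hy
    · rw [← hx'a, (hψ' _).2]; exact hmem _
    · obtain ⟨i, -, rfl⟩ := Finset.mem_map.1 hy
      rcases eq_or_ne i a with h | h
      · rw [h, ← hza, hz', hza]; exact hxΔ a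
      · rw [← hx' i h, (hψ' _).2]; exact hmem _

end Sharp

end Cfsg.Agent.PermB.Liv
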