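import Mathlib.GroupTheory.Subgroup.Simple
import Mathlib.GroupTheory.Subgroup.Center
import Mathlib.Algebra.Group.Pi.Lemmas
import Mathlib.Data.Fintype.Basic
import Mathlib.Data.Fintype.Card
import Mathlib.Algebra.Group.Subgroup.Finite
import Mathlib.GroupTheory.Commutator.Basic
import Mathlib.Tactic.Group

/-! Direct powers of a non-abelian simple group: automorphisms and subdirect subgroups. -/

set_option autoImplicit false

namespace Cfsg.Agent.PermB

variable {T : Type*} [Group T]

/-- A non-abelian simple group has trivial centre, elementwise. -/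
theorem eq_one_of_forall_commute [IsSimpleGroup T] (hT : ¬ IsMulCommutative T) {x : T}
    (hx : ∀ y, x * y = y * x) : x = 1 := by
  rcases IsSimpleGroup.eq_bot_or_eq_top_of_normal (Subgroup.center T) inferInstance with h | h
  · have : x ∈ Subgroup.center T := Subgroup.mem_center_iff.2 fun y => (hx y).symm
    rwa [h, Subgroup.mem_bot] at this
  · exact absurd ⟨⟨fun a b => ((Subgroup.mem_center_iff.1 (h ▸ Subgroup.mem_top a : a ∈ Subgroup.center T)) b).symm⟩⟩ hT

theorem mul_single_conj {ι : Type*} [DecidableEq ι] (f : ι → T) (i : ι) (x : T) :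
    f * Pi.mulSingle i x * f⁻¹ = Pi.mulSingle i (f i * x * (f i)⁻¹) := by
  funext j
  by_cases h : j = i
  · subst h; simp
  · simp [h]

/-- Non-trivial normal subgroups of a direct power contain a factor. -/
theorem exists_single_mem {ι : Type*} [DecidableEq ι] [IsSimpleGroup T]
    (hT : ¬ IsMulCommutative T) (M : Subgroup (ι → T)) [hM : M.Normal] {f : ι → T} (hf : f ∈ M)
    {i : ι} (hi : f i ≠ 1) : ∀ x : T, Pi.mulSingle i x ∈ M := by
  have hn : (M.comap (MonoidHom.mulSingle (fun _ : ι => T) i)).Normal := hM.comap _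
  rcases IsSimpleGroup.eq_bot_or_eq_top_of_normal _ hn with h | h
  · exfalso
    refine hi (eq_one_of_forall_commute hT fun y => ?_)
    have h1 : f * Pi.mulSingle i y * f⁻¹ * (Pi.mulSingle i y)⁻¹ ∈ M := by
      have := M.mul_mem hf (hM.conj_mem _ (M.inv_mem hf) (Pi.mulSingle i y))
      simpa only [mul_assoc] using this
    rw [mul_single_conj, ← Pi.mulSingle_inv, ← Pi.mulSingle_mul] at h1
    have h2 : f i * y * (f i)⁻¹ * y⁻¹ ∈ M.comap (MonoidHom.mulSingle (fun _ : ι => T) i) := h1
    rw [h, Subgroup.mem_bot, mul_inv_eq_one, mul_inv_eq_iff_eq_mul] at h2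
    exact h2
  · intro x
    have : x ∈ M.comap (MonoidHom.mulSingle (fun _ : ι => T) i) := h ▸ Subgroup.mem_top x
    exact this

/-- An automorphism of a power of a non-abelian simple group permutes the factors. -/
theorem exists_factor_perm {m : ℕ} [Finite T] [IsSimpleGroup T] (hT : ¬ IsMulCommutative T)
    (α : (Fin m → T) ≃* (Fin m → T)) :
    ∃ (π : Equiv.Perm (Fin m)) (a : Fin m → T → T),
      (∀ i, a i 1 = 1) ∧ ∀ (f : Fin m → T) (i : Fin m), α f (π i) = a i (f i) := by
  classical
  obtain ⟨x₀, hx₀⟩ := exists_ne (1 : T)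
  -- every factor is mapped into a single factor
  have hrange : ∀ (β : (Fin m → T) ≃* (Fin m → T)) (i : Fin m), ∃ j, ∀ x,
      ∃ y, β.symm (Pi.mulSingle j y) = Pi.mulSingle i x := by
    intro β i
    let M : Subgroup (Fin m → T) := (MonoidHom.mulSingle (fun _ : Fin m => T) i).range.map β.toMonoidHom
    have hR : (MonoidHom.mulSingle (fun _ : Fin m => T) i).range.Normal := by
      refine ⟨?_⟩
      rintro _ ⟨x, rfl⟩ g
      exact ⟨g i * x * (g i)⁻¹, (mul_single_conj g i x).symm⟩
    haveI : M.Normal := hR.map _ β.surjective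
    have hne : β (Pi.mulSingle i x₀) ≠ 1 := by
      intro h
      have h2 : Pi.mulSingle i x₀ = (1 : Fin m → T) := β.injective (h.trans (map_one β).symm)
      exact hx₀ (by simpa using congrFun h2 i)
    obtain ⟨j, hj⟩ := Function.ne_iff.1 hne
    have hsingle := exists_single_mem hT M (f := β (Pi.mulSingle i x₀)) ⟨_, ⟨x₀, rfl⟩, rfl⟩ hj
    refine ⟨j, fun x => ?_⟩
    have : ∀ y, ∃ x, β (Pi.mulSingle i x) = Pi.mulSingle j y := fun y => by
      obtain ⟨_, ⟨x, rfl⟩, hx⟩ := hsingle y
      exact ⟨x, hx⟩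
    choose g hg using this
    have hginj : Function.Injective g := fun a b hab => by
      have := (hg a).symm.trans (hab ▸ hg b)
      simpa using congrFun this j
    obtain ⟨y, rfl⟩ := (Finite.injective_iff_surjective.1 hginj) x
    exact ⟨y, by rw [← hg, MulEquiv.symm_apply_apply]⟩
  choose σ hσ using hrange α
  have hα : ∀ i x, ∃ y, α (Pi.mulSingle i x) = Pi.mulSingle (σ i) y := fun i x => by
    obtain ⟨y, hy⟩ := hσ i x
    exact ⟨y, by rw [← hy, MulEquiv.apply_symm_apply]⟩
  choose a ha using hα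
  have ha1 : ∀ i, a i 1 = 1 := fun i => by
    have h := ha i 1
    rw [Pi.mulSingle_one, map_one] at h
    simpa using (congrFun h (σ i)).symm
  have hσinj : Function.Injective σ := by
    intro i j hij
    by_contra hne
    obtain ⟨z, hz⟩ := hσ i x₀
    have h1 : ∀ y, ∃ x, Pi.mulSingle (σ i) y = α (Pi.mulSingle i x) := by
      have hinj : Function.Injective (a i) := fun u v huv => by
        have := (ha i u).trans ((congrArg (Pi.mulSingle (σ i)) huv).trans (ha i v).symm)
        exact Pi.mulSingle_injective i (α.injective this)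
      intro y
      obtain ⟨x, rfl⟩ := (Finite.injective_iff_surjective.1 hinj) y
      exact ⟨x, (ha i x).symm⟩
    obtain ⟨x, hx⟩ := h1 (a j x₀)
    have h2 : α (Pi.mulSingle j x₀) = α (Pi.mulSingle i x) := by
      rw [← hx, ha, hij]
    have := congrFun (α.injective h2) j
    rw [Pi.mulSingle_eq_same, Pi.mulSingle_eq_of_ne (Ne.symm hne)] at this
    exact hx₀ this
  let π : Equiv.Perm (Fin m) := Equiv.ofBijective σ ⟨hσinj, Finite.injective_iff_surjective.1 hσinj⟩
  refine ⟨π, a, ha1, fun f i => ?_⟩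
  show α f (σ i) = a i (f i)
  -- coordinates away from `i` do not matter
  let g : Fin m → T := Function.update f i 1
  have hfg : f = g * Pi.mulSingle i (f i) := by
    funext j
    by_cases h : j = i
    · subst h; simp [g]
    · simp [g, h]
  have hker : α g (σ i) = 1 := by
    let K : Subgroup (Fin m → T) :=
      ((Pi.evalMonoidHom (fun _ : Fin m => T) (σ i)).comp α.toMonoidHom).ker
    have : g ∈ K := by
      refine Subgroup.pi_mem_of_mulSingle_mem g fun j => ?_
      show α (Pi.mulSingle j (g j)) (σ i) = 1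
      by_cases h : j = i
      · subst h; simp [g]
      · rw [ha, Pi.mulSingle_eq_of_ne (fun e => h (hσinj e.symm))]
    exact this
  conv_lhs => rw [hfg, map_mul, Pi.mul_apply, hker, one_mul, ha, Pi.mulSingle_eq_same]

/-- Hall's lemma: a subdirect subgroup of a power of a non-abelian simple group in which no two
coordinates are linked is everything. -/
theorem eq_top_of_pairwise {ι : Type*} [Fintype ι] [DecidableEq ι] [IsSimpleGroup T]
    (hT : ¬ IsMulCommutative T) (D : Subgroup (ι → T)) (hsurj : ∀ i x, ∃ d ∈ D, d i = x)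
    (hpair : ∀ i j, i ≠ j → ∀ x, ∃ d ∈ D, d j = 1 ∧ d i = x) : D = ⊤ := by
  have key : ∀ (s : Finset ι) (i : ι), i ∉ s → ∀ x, ∃ d ∈ D, (∀ j ∈ s, d j = 1) ∧ d i = x := by
    intro s
    induction s using Finset.induction_on with
    | empty =>
      intro i _ x
      obtain ⟨d, hd, hdx⟩ := hsurj i x
      exact ⟨d, hd, by simp, hdx⟩
    | @insert j s hj ih =>
      intro i hi x
      rw [Finset.mem_insert, not_or] at hi
      let E : Subgroup T :=
        { carrier := {x | ∃ d ∈ D, (∀ k ∈ insert j s, d k = 1) ∧ d i = x}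
          one_mem' := ⟨1, D.one_mem, fun _ _ => rfl, rfl⟩
          mul_mem' := by
            rintro _ _ ⟨d, hd, hd1, rfl⟩ ⟨d', hd', hd1', rfl⟩
            exact ⟨d * d', D.mul_mem hd hd', fun k hk => by simp [hd1 k hk, hd1' k hk], rfl⟩
          inv_mem' := by
            rintro _ ⟨d, hd, hd1, rfl⟩
            exact ⟨d⁻¹, D.inv_mem hd, fun k hk => by simp [hd1 k hk], rfl⟩ }
      have hn : E.Normal := by
        refine ⟨?_⟩
        rintro _ ⟨d, hd, hd1, rfl⟩ z
        obtain ⟨c, hc, rfl⟩ := hsurj i z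
        exact ⟨c * d * c⁻¹, D.mul_mem (D.mul_mem hc hd) (D.inv_mem hc),
          fun k hk => by simp [hd1 k hk], rfl⟩
      rcases IsSimpleGroup.eq_bot_or_eq_top_of_normal E hn with h | h
      · exfalso
        obtain ⟨u, hu⟩ := exists_ne (1 : T)
        refine hu (eq_one_of_forall_commute hT fun v => ?_)
        obtain ⟨d, hd, hd1, hdu⟩ := ih i hi.2 u
        obtain ⟨c, hc, hcj, hcv⟩ := hpair i j hi.1 v
        have : d i * c i * (d i)⁻¹ * (c i)⁻¹ ∈ E := by
          refine ⟨d * c * d⁻¹ * c⁻¹,
            D.mul_mem (D.mul_mem (D.mul_mem hd hc) (D.inv_mem hd)) (D.inv_mem hc), ?_, rfl⟩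
          intro k hk
          rcases Finset.mem_insert.1 hk with rfl | hk
          · simp [hcj]
          · simp [hd1 k hk]
        rw [h, Subgroup.mem_bot, hdu, hcv, mul_inv_eq_one, mul_inv_eq_iff_eq_mul] at this
        exact this
      · exact (h ▸ Subgroup.mem_top x : x ∈ E)
  refine eq_top_iff.2 fun f _ => Subgroup.pi_mem_of_mulSingle_mem f fun i => ?_
  obtain ⟨d, hd, hd1, hdx⟩ := key (Finset.univ.erase i) i (Finset.notMem_erase _ _) (f i)
  have : d = Pi.mulSingle i (f i) := by
    funext j
    by_cases h : j = i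
    · subst h; simpa using hdx
    · rw [Pi.mulSingle_eq_of_ne h]
      exact hd1 j (Finset.mem_erase.2 ⟨h, Finset.mem_univ _⟩)
  exact this ▸ hd

end Cfsg.Agent.PermB
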