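import Cfsg.Agent.Zassenhaus.AbelianFew
import Cfsg.Agent.PermB.PslOdd
import Cfsg.Prelude.Def_Perm
import Cfsg.Agent.PermB.Sharp3Pgl
import Cfsg.Agent.Perm.Sharp
import Cfsg.Agent.S0742
import Mathlib.FieldTheory.Finite.GaloisField
import Mathlib.FieldTheory.Galois.Basic
import Mathlib.NumberTheory.LucasLehmer

/-! Transitive groups of degree `p + 1` whose order is `(p + 1) p d` with `d < p`. -/

set_option autoImplicit false

open scoped OnePoint MatrixGroups

namespace Cfsg.Agent.PermB

open MulAction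

universe u

/-- Two point stabilisers transitive on the other points give triple transitivity. -/
theorem three_pretransitive_of_card_H2 {G α : Type*} [Group G] [MulAction G α] [Finite α]
    [Finite G] (hz : ZData G α) {x y : α} (hxy : x ≠ y)
    (hd : Nat.card (ZData.H2 (G := G) x y) + 2 = Nat.card α) :
    IsMultiplyPretransitive G α 3 := by
  classical
  haveI : Fintype α := Fintype.ofFinite α
  haveI : Fintype G := Fintype.ofFinite G
  rw [PermLib.three_pretransitive_iff]
  intro a b c a' b' c' hab hac hbc hab' hac' hbc'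
  obtain ⟨g, hga, hgb⟩ := hz.two hab hab'
  have hca : g • c ≠ a' := fun e => hac (MulAction.injective g (hga.trans e.symm))
  have hcb : g • c ≠ b' := fun e => hbc (MulAction.injective g (hgb.trans e.symm))
  let f : ZData.H2 (G := G) a' b' → {p : α // p ≠ a' ∧ p ≠ b'} := fun k =>
    ⟨(k : G) • (g • c),
      fun e => hca (MulAction.injective (k : G) (e.trans (ZData.mem_H2.1 k.2).1.symm)),
      fun e => hcb (MulAction.injective (k : G) (e.trans (ZData.mem_H2.1 k.2).2.symm))⟩
  have hinj : Function.Injective f := fun k k' e => Subtype.ext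
    (hz.eq_of_H2_smul_eq hab' hca hcb k.2 k'.2 (congrArg Subtype.val e))
  have hsurj : Function.Surjective f := by
    refine ((Fintype.bijective_iff_injective_and_card f).2 ⟨hinj, ?_⟩).2
    rw [← Nat.card_eq_fintype_card, hz.card_H2_eq hxy hab', Fintype.card_subtype,
      show (Finset.univ.filter fun p : α => p ≠ a' ∧ p ≠ b') = Finset.univ \ {a', b'} by
        ext p; simp,
      Finset.card_univ_sdiff, Finset.card_pair hab', ← Nat.card_eq_fintype_card]
    omega
  obtain ⟨k, hk⟩ := hsurj ⟨c', hac'.symm, hbc'.symm⟩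
  obtain ⟨hka, hkb⟩ := ZData.mem_H2.1 k.2
  exact ⟨(k : G) * g, by rw [mul_smul, hga, hka], by rw [mul_smul, hgb, hkb],
    by rw [mul_smul]; exact congrArg Subtype.val hk⟩

/-- A Zassenhaus group with abelian kernel, not sharply triply transitive, is `PSL(2, K)`. -/
theorem exists_mulEquiv_psl_of_abelian {G : Type u} {α : Type*} [Group G] [Finite G]
    [MulAction G α] [Finite α] (hZ : Cfsg.IsZassenhausGroup G α) {N : Subgroup G} {x y : α}
    (hxy : x ≠ y) (hN : IsKernel N x) (hNc : IsMulCommutative N)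
    (hlt : Nat.card (ZData.H2 (G := G) x y) + 2 < Nat.card α) :
    2 * Nat.card (ZData.H2 (G := G) x y) + 2 = Nat.card α ∧
    ∃ (K : Type) (_ : Field K) (_ : Fintype K), Fintype.card K + 1 = Nat.card α ∧
      Nonempty (G ≃* Matrix.ProjectiveSpecialLinearGroup (Fin 2) K) := by
  classical
  haveI : Fintype α := Fintype.ofFinite α
  haveI : Fintype G := Fintype.ofFinite G
  have hz := zData_of_isZassenhausGroup hZ
  have h3 := three_le_card_of_isZassenhausGroup hZ
  set d := Nat.card (ZData.H2 (G := G) x y) with hd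
  rcases Nat.even_or_odd d with heven | hodd
  · have h1 := hz.card_sub_two_le_two_mul hxy h3 heven
    obtain ⟨k, hk⟩ := hN.dvd_card_invariant hz hxy.symm
      ((Finset.univ.filter fun u => u ∈ N).erase 1)
      (fun u hu => by simpa [and_comm] using hu)
      (fun g hg u hu => by
        simp only [Finset.mem_erase, Finset.mem_filter, Finset.mem_univ, true_and] at hu ⊢
        refine ⟨fun e => hu.1 ?_, hN.conj g (ZData.mem_H2.1 hg).1 u hu.2⟩
        rw [show u = g⁻¹ * (g * u * g⁻¹) * g by group, e]; group)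
    have hc := hN.card_add_one hxy.symm
    rw [Finset.card_erase_of_mem (by simp), ← Fintype.card_subtype, ← Nat.card_eq_fintype_card,
      show Nat.card {u // u ∈ N} - 1 = Nat.card α - 2 by omega, ← hd] at hk
    have hk2 : 2 ≤ k := by
      by_contra hc2
      have := Nat.mul_le_mul_left d (show k ≤ 1 by omega)
      omega
    have hd2 : 2 * d + 2 = Nat.card α := by
      have := Nat.mul_le_mul_left d hk2
      omega
    obtain ⟨p, f, K, iK, iF, hp, hp2, hK, hα, hiso⟩ := S0742.result hZ hxy heven (by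
      rw [← Nat.card_eq_fintype_card]
      show 2 * d ≤ _
      omega)
    exact ⟨hd2, K, iK, iF, by rw [hK, ← hα, Nat.card_eq_fintype_card], hiso⟩
  · obtain ⟨hdeg, hsimple⟩ := Zassenhaus.abelian_odd_few hZ hxy hN hNc hodd hlt
    haveI := hsimple
    obtain ⟨-, v, -, hva, hvb, hinv⟩ := Zassenhaus.isCyclic_H2 hZ hxy
    have hfree : ∀ s : G, s • x = y → s • y = x → s * s = 1 ∧ ∀ p : α, s • p ≠ p := by
      intro s hsx hsy
      have hss := CharDeep.ZC.swapInvol_of_simple hZ hxy hsx hsy
      refine ⟨hss, fun p hp => ?_⟩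
      have hs1 : s ≠ 1 := fun e => hxy (by rw [e, one_smul] at hsx; exact hsx)
      have hfix := CharDeep.ZC.card_fixF_invol hz hxy hodd (CharDeep.ZC.mem_invol.2 ⟨hss, hs1⟩)
      rw [if_neg (by rw [← hdeg, Nat.not_odd_iff_even]; exact ⟨d + 1, by ring⟩),
        Finset.card_eq_zero] at hfix
      exact Finset.notMem_empty p (hfix ▸ CharDeep.ZC.mem_fixF.2 hp)
    obtain ⟨K, iK, iF, hK, -, hiso⟩ := exists_mulEquiv_psl_odd hz hN hxy hNc hva hvb hinv hfree hdeg hodd
    exact ⟨hdeg, K, iK, iF, hK, hiso⟩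

/-- `PGL(2)` only depends on the field up to isomorphism. -/
theorem pgl_congr {R S : Type*} [CommRing R] [CommRing S] (e : R ≃+* S) :
    Nonempty (Matrix.ProjGenLinGroup (Fin 2) R ≃* Matrix.ProjGenLinGroup (Fin 2) S) := by
  let f : GL (Fin 2) R ≃* GL (Fin 2) S := Units.mapEquiv (RingEquiv.mapMatrix e).toMulEquiv
  refine ⟨QuotientGroup.congr _ _ f ?_⟩
  ext x
  constructor
  · rintro ⟨y, hy, rfl⟩
    refine Subgroup.mem_center_iff.mpr fun z => ?_
    obtain ⟨w, rfl⟩ := f.surjective z
    exact (map_mul f w y).symm.trans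
      ((congrArg _ (Subgroup.mem_center_iff.mp hy w)).trans (map_mul f y w))
  · intro hx
    obtain ⟨y, rfl⟩ := f.surjective x
    refine ⟨y, Subgroup.mem_center_iff.mpr fun w => f.injective ?_, rfl⟩
    rw [map_mul, map_mul]
    exact Subgroup.mem_center_iff.mp hx _

variable {G α : Type*} [Group G] [MulAction G α]

/-- The point stabiliser of a transitive group of order `(p + 1) p d` and degree `p + 1`. -/
theorem exists_kernel_prime [Finite α] [Finite G] [FaithfulSMul G α] [IsPretransitive G α] {p d : ℕ}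
    (hp : p.Prime) (hα : Nat.card α = p + 1) (hG : Nat.card G = (p + 1) * p * d) (hd : d < p)
    (a : α) :
    ∃ P : Subgroup G, IsKernel P a ∧ Nat.card P = p ∧ IsMulCommutative P := by
  classical
  haveI := Fact.mk hp
  set M := stabilizer G a with hM
  have hMc : Nat.card M = p * d := by
    have h := PermLib.card_eq_mul_card_stabilizer (G := G) a
    rw [hG, hα, mul_assoc] at h
    exact (Nat.eq_of_mul_eq_mul_left (by omega) h).symm
  obtain ⟨w, hw⟩ := exists_prime_orderOf_dvd_card' (G := M) p (by rw [hMc]; exact dvd_mul_right p d)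
  set P₀ : Subgroup M := Subgroup.zpowers w
  have hP₀ : Nat.card P₀ = p := by rw [Nat.card_zpowers, hw]
  have huniq : ∀ Q : Subgroup M, Nat.card Q = p → Q = P₀ := by
    intro Q hQ
    by_contra hne
    have hinf : Q ⊓ P₀ = ⊥ := by
      rcases (Nat.dvd_prime hp).1 (hQ ▸ Subgroup.card_dvd_of_le (inf_le_left : Q ⊓ P₀ ≤ Q)) with h | h
      · exact Subgroup.card_eq_one.1 h
      · exfalso
        have h1 : Q ⊓ P₀ = Q := Subgroup.eq_of_le_of_card_ge inf_le_left (by rw [hQ, h])
        exact hne (Subgroup.eq_of_le_of_card_ge (h1 ▸ inf_le_right) (by rw [hQ, hP₀]))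
    have hinj : Function.Injective fun x : Q × P₀ => (x.1 : M) * x.2 := by
      rintro ⟨x, y⟩ ⟨x', y'⟩ e
      have e' : (x' : M)⁻¹ * x = y' * (y : M)⁻¹ := by
        rw [eq_mul_inv_iff_mul_eq, mul_assoc, inv_mul_eq_iff_eq_mul]; exact e
      have h1 : (x' : M)⁻¹ * x ∈ Q ⊓ P₀ :=
        ⟨Q.mul_mem (Q.inv_mem x'.2) x.2, e' ▸ P₀.mul_mem y'.2 (P₀.inv_mem y.2)⟩
      rw [hinf, Subgroup.mem_bot, inv_mul_eq_one] at h1
      refine Prod.ext (Subtype.ext h1.symm) (Subtype.ext ?_)
      simp only [h1] at e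
      exact mul_left_cancel e
    have h := Nat.card_le_card_of_injective _ hinj
    rw [Nat.card_prod, hQ, hP₀, hMc] at h
    have := Nat.le_of_mul_le_mul_left h hp.pos
    omega
  set P := P₀.map M.subtype
  have hPc : Nat.card P = p := by
    rw [Subgroup.card_map_of_injective M.subtype_injective, hP₀]
  have hle : P ≤ M := Subgroup.map_subtype_le _
  haveI : IsCyclic P := isCyclic_of_prime_card hPc
  refine ⟨P, ⟨hle, fun g hg u hu => ?_, ?_⟩, hPc, IsCyclic.isMulCommutative⟩
  · obtain ⟨u₀, hu₀, rfl⟩ := hu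
    have hc : P₀.map (MulAut.conj (⟨g, hg⟩ : M)).toMonoidHom = P₀ := huniq _ (by
      rw [Subgroup.card_map_of_injective (MulAut.conj _).injective, hP₀])
    exact ⟨⟨g, hg⟩ * u₀ * (⟨g, hg⟩ : M)⁻¹, hc ▸ ⟨u₀, hu₀, rfl⟩, rfl⟩
  · -- regularity
    have hfix : ∀ v ∈ P, v ≠ 1 → ∀ u ∈ P, ∀ z : α, v • z = z → u • z = z := by
      intro v hv hv1 u hu z hz
      have : (⟨u, hu⟩ : P) ∈ Subgroup.zpowers (⟨v, hv⟩ : P) :=
        mem_zpowers_of_prime_card hPc (fun e => hv1 (congrArg Subtype.val e))
      obtain ⟨i, hi⟩ := Subgroup.mem_zpowers_iff.1 this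
      have hui : u = v ^ i := by rw [← Subgroup.coe_zpow P ⟨v, hv⟩ i, hi]
      rw [hui]
      exact mem_stabilizer_iff.1 ((stabilizer G z).zpow_mem hz i)
    obtain ⟨w₁, hw₁, hw₁1⟩ : ∃ w₁ ∈ P, w₁ ≠ 1 := by
      by_contra hc
      push Not at hc
      rw [(Subgroup.eq_bot_iff_forall P).2 hc, Subgroup.card_bot] at hPc
      exact hp.one_lt.ne hPc
    obtain ⟨z₀, hz₀⟩ : ∃ z : α, w₁ • z ≠ z := by
      by_contra hc
      push Not at hc
      exact hw₁1 (FaithfulSMul.eq_of_smul_eq_smul fun z => by rw [hc z, one_smul])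
    have hsub : ∀ u ∈ P, u • z₀ = z₀ → u = 1 := fun u hu h => by
      by_contra h1
      exact hz₀ (hfix u hu h1 w₁ hw₁ z₀ h)
    have hz₀a : z₀ ≠ a := fun e => hz₀ (by rw [e]; exact hle hw₁)
    haveI : Fintype α := Fintype.ofFinite α
    haveI : Fintype G := Fintype.ofFinite G
    let F : P → {z : α // z ≠ a} := fun u => ⟨(u : G) • z₀, fun e => hz₀a
      (MulAction.injective (u : G) (e.trans (hle u.2 : (u : G) • a = a).symm))⟩
    have hF : Function.Bijective F := by
      refine (Fintype.bijective_iff_injective_and_card F).2 ⟨fun u v e => ?_, ?_⟩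
      · have e' : (u : G) • z₀ = (v : G) • z₀ := congrArg Subtype.val e
        refine (inv_mul_eq_one.1 (Subtype.ext (hsub _ ((v : P)⁻¹ * u).2 ?_))).symm
        show ((v : G)⁻¹ * (u : G)) • z₀ = z₀
        rw [mul_smul, e', inv_smul_smul]
      · rw [← Nat.card_eq_fintype_card, hPc, Fintype.card_subtype_compl, Fintype.card_subtype_eq,
          ← Nat.card_eq_fintype_card, hα]
        omega
    intro z z' hz hz'
    obtain ⟨u, hu⟩ := hF.2 ⟨z, hz⟩
    obtain ⟨v, hv⟩ := hF.2 ⟨z', hz'⟩
    have hu' : (u : G) • z₀ = z := congrArg Subtype.val hu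
    have hv' : (v : G) • z₀ = z' := congrArg Subtype.val hv
    refine ⟨v * u⁻¹, ?_, fun x hx => ?_⟩
    · show ((v : G) * (u : G)⁻¹) • z = z'
      rw [← hu', mul_smul, inv_smul_smul, hv']
    · have hxe : ((x * u : P) : G) • z₀ = (v : G) • z₀ := by
        show ((x : G) * u) • z₀ = _
        rw [mul_smul, hu', hx, hv']
      rw [eq_mul_inv_iff_mul_eq]
      exact hF.1 (Subtype.ext hxe)

/-- A transitive group with such kernels is doubly transitive with trivial three point
stabilisers. -/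
theorem zData_of_kernel_prime [Finite α] [Finite G] [FaithfulSMul G α] [IsPretransitive G α] {p : ℕ}
    (hp : p.Prime) (hker : ∀ a : α, ∃ P : Subgroup G, IsKernel P a ∧ Nat.card P = p ∧ IsMulCommutative P) :
    ZData G α := by
  refine ⟨fun g hg => FaithfulSMul.eq_of_smul_eq_smul (α := α) fun x => by rw [hg, one_smul],
    fun {a b c e} hab hce => ?_, fun g a b c hab hbc hac ha hb hc => ?_⟩
  · obtain ⟨g, hg⟩ := IsPretransitive.exists_smul_eq (M := G) a c
    obtain ⟨P, hP, -, -⟩ := hker c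
    have hgb : g • b ≠ c := fun h => hab (MulAction.injective g (hg.trans h.symm))
    obtain ⟨u, hu, hue⟩ := hP.exists_smul hgb hce.symm
    exact ⟨u * g, by rw [mul_smul, hg]; exact hP.le hu, by rw [mul_smul, hue]⟩
  · obtain ⟨P, hP, hPc, -⟩ := hker a
    obtain ⟨v, hv, hvc⟩ := hP.exists_smul hab.symm hac.symm
    have hv1 : v ≠ 1 := fun e => hbc (by rw [e, one_smul] at hvc; exact hvc)
    have hgv : g * v * g⁻¹ = v := by
      refine hP.inj (hP.conj g ha v hv) hv hab.symm ?_
      rw [IsKernel.conj_smul hb, hvc, hc]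
    refine FaithfulSMul.eq_of_smul_eq_smul (α := α) fun z => ?_
    rw [one_smul]
    by_cases hza : z = a
    · rw [hza, ha]
    obtain ⟨u, hu, rfl⟩ := hP.exists_smul hab.symm hza
    haveI := Fact.mk hp
    have hmem : (⟨u, hu⟩ : P) ∈ Subgroup.zpowers (⟨v, hv⟩ : P) :=
      mem_zpowers_of_prime_card hPc (fun e => hv1 (congrArg Subtype.val e))
    obtain ⟨i, hi⟩ := Subgroup.mem_zpowers_iff.1 hmem
    have hui : u = v ^ i := by rw [← Subgroup.coe_zpow P ⟨v, hv⟩ i, hi]
    have hgu : g * u = u * g := by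
      have h1 : Commute g v := mul_inv_eq_iff_eq_mul.1 hgv
      rw [hui]
      exact (h1.zpow_right i).eq
    rw [← mul_smul, hgu, mul_smul, hb]

/-- A regular normal subgroup in degree `p + 1`, `p` odd: semilinear maps of `GF(2 ^ q)`. -/
theorem exists_semiaffine [Finite α] [Finite G] (hz : ZData G α) {p : ℕ} (hp : p.Prime) (hp2 : p ≠ 2)
    (hα : Nat.card α = p + 1) {a b : α} (hab : a ≠ b) {P : Subgroup G} (hP : IsKernel P a)
    (hPc : IsMulCommutative P) {R : Subgroup G} [R.Normal] [IsPretransitive R α]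
    (hR : stabilizer R a = ⊥) :
    ∃ q : ℕ, q.Prime ∧ p + 1 = 2 ^ q ∧
      (Nat.card (ZData.H2 (G := G) a b) = 1 ∨ Nat.card (ZData.H2 (G := G) a b) = q) ∧
      ∃ e : α ≃ GaloisField 2 q, ∀ g : G,
        (e.symm.trans ((MulAction.toPerm g).trans e)) ∈ Cfsg.semiaffineGroup (GaloisField 2 q) := by
  classical
  haveI : Fintype α := Fintype.ofFinite α
  haveI : Fintype G := Fintype.ofFinite G
  -- the regular normal subgroup
  let E : R → α := fun r => (r : G) • a
  have hEinj : Function.Injective E := by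
    intro r s e
    have e' : (r : G) • a = (s : G) • a := e
    have hmem : s⁻¹ * r ∈ stabilizer R a := by
      rw [mem_stabilizer_iff, Subgroup.smul_def]
      show ((s : G)⁻¹ * (r : G)) • a = a
      rw [mul_smul, e', inv_smul_smul]
    rw [hR, Subgroup.mem_bot, inv_mul_eq_one] at hmem
    exact hmem.symm
  have hE : Function.Bijective E := ⟨hEinj, fun z => IsPretransitive.exists_smul_eq (M := R) a z⟩
  have hRc : Nat.card R = p + 1 := (Nat.card_eq_of_bijective E hE).trans hα
  haveI : Nontrivial R := Finite.one_lt_card_iff_nontrivial.1 (by rw [hRc]; have := hp.two_le; omega)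
  obtain ⟨hRab, hel⟩ := PermLib.elementary_of_regular_normal hz.isMultiplyPretransitive hR
  obtain ⟨l, q, hl, hq1, hlq, -⟩ := hel inferInstance
  have hpodd : p % 2 = 1 := hp.eq_two_or_odd.resolve_left hp2
  have hl2 : l = 2 := by
    have : 2 ∣ l ^ q := by rw [← hlq, hRc]; omega
    exact ((Nat.prime_dvd_prime_iff_eq Nat.prime_two hl).1 (Nat.prime_two.dvd_of_dvd_pow this)).symm
  subst hl2
  rw [hRc] at hlq
  have hq : q.Prime := by
    refine (Nat.prime_of_pow_sub_one_prime (a := 2) (fun h => ?_) ?_).2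
    · rw [h] at hlq; have := hp.two_le; omega
    · rw [← hlq, Nat.add_sub_cancel]; exact hp
  refine ⟨q, hq, hlq, ?_⟩
  -- the module
  letI : CommGroup R := { (inferInstance : Group R) with mul_comm := fun u v => hRab.is_comm.comm u v }
  let cj : G → R → R := fun g r => ⟨g * r * g⁻¹, ‹R.Normal›.conj_mem r r.2 g⟩
  let A := Additive R
  let ρ₀ : P →* AddMonoid.End A :=
    { toFun := fun u => MonoidHom.toAdditive (MonoidHom.mk' (cj u) fun r s => Subtype.ext (by simp [cj, mul_assoc]))
      map_one' := by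
        refine AddMonoidHom.ext fun r => Additive.toMul.injective (Subtype.ext ?_)
        show (((1 : P) : G) * ((r.toMul : R) : G) * ((1 : P) : G)⁻¹) = ((r.toMul : R) : G)
        simp
      map_mul' := fun u v => by
        refine AddMonoidHom.ext fun r => Additive.toMul.injective (Subtype.ext ?_)
        show ((u * v : P) : G) * ((r.toMul : R) : G) * ((u * v : P) : G)⁻¹
          = (u : G) * ((v : G) * ((r.toMul : R) : G) * (v : G)⁻¹) * (u : G)⁻¹
        simp [mul_assoc] }
  have hconjpt : ∀ (g : G), g • a = a → ∀ r : R, ((cj g r : R) : G) • a = g • ((r : G) • a) :=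
    fun g hg r => IsKernel.conj_smul hg (r : G)
  obtain ⟨r₀, hr₀⟩ := hE.2 b
  have hr₀1 : Additive.ofMul r₀ ≠ (0 : A) := by
    intro e
    have h1 : r₀ = 1 := Additive.ofMul.injective e
    rw [h1] at hr₀
    exact hab ((one_smul G a).symm.trans hr₀)
  have hPtr : ∀ r : R, r ≠ 1 → ∃ u : P, cj u r₀ = r := by
    intro r hr
    have hra : (r : G) • a ≠ a := fun e => hr (hEinj (e.trans (one_smul G a).symm))
    obtain ⟨u, hu, hue⟩ := hP.exists_smul hab.symm hra
    refine ⟨⟨u, hu⟩, hEinj ?_⟩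
    show ((cj u r₀ : R) : G) • a = (r : G) • a
    rw [hconjpt u (hP.le hu), show (r₀ : G) • a = b from hr₀, hue]
  haveI : Finite A := inferInstanceAs (Finite R)
  obtain ⟨K, iK, iF, ψ, χ, hψ1, hψ⟩ := exists_field_of_irreducible ρ₀
    (fun u v => by rw [← map_mul, ← map_mul, hPc.is_comm.comm u v])
    (fun W hW => by
      by_cases hbot : W = ⊥
      · exact Or.inl hbot
      right
      obtain ⟨m, hm, hm0⟩ := W.bot_or_exists_ne_zero.resolve_left hbot
      obtain ⟨u, hu⟩ := hPtr m.toMul (fun e => hm0 (Additive.toMul.injective e))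
      have h0 : Additive.ofMul r₀ ∈ W := by
        have := hW u⁻¹ m hm
        convert this using 1
        refine Additive.toMul.injective (Subtype.ext ?_)
        show (r₀ : G) = ((u⁻¹ : P) : G) * ((m.toMul : R) : G) * ((u⁻¹ : P) : G)⁻¹
        rw [← hu]
        simp [cj, mul_assoc]
      rw [eq_top_iff]
      intro x _
      by_cases hx : x.toMul = 1
      · rw [show x = 0 from Additive.toMul.injective hx]; exact W.zero_mem
      obtain ⟨v, hv⟩ := hPtr x.toMul hx
      convert hW v _ h0 using 1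
      exact Additive.toMul.injective hv.symm)
    (Additive.ofMul r₀) hr₀1
  have hKc : Fintype.card K = 2 ^ q := by
    rw [← Nat.card_eq_fintype_card, ← Nat.card_congr ψ.toEquiv, ← hlq, ← hRc]
    exact Nat.card_congr Additive.toMul
  haveI := Fact.mk Nat.prime_two
  haveI : Fintype (GaloisField 2 q) := Fintype.ofFinite _
  let ι : K ≃+* GaloisField 2 q := FiniteField.ringEquivOfCardEq (by
    rw [hKc, ← Nat.card_eq_fintype_card, GaloisField.card 2 q hq.ne_zero])
  -- coordinates
  let Ψ : R → GaloisField 2 q := fun r => ι (ψ (Additive.ofMul r))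
  have hΨadd : ∀ r s : R, Ψ (r * s) = Ψ r + Ψ s := fun r s => by
    show ι (ψ (Additive.ofMul r + Additive.ofMul s)) = _
    rw [map_add, map_add]
  have hΨbij : Function.Bijective Ψ :=
    ι.bijective.comp (ψ.bijective.comp Additive.ofMul.bijective)
  have hΨone : Ψ 1 = 0 := by
    show ι (ψ 0) = 0
    rw [map_zero, map_zero]
  have hΨr₀ : Ψ r₀ = 1 := by show ι (ψ _) = 1; rw [hψ1, map_one]
  let ω : P → GaloisField 2 q := fun u => ι (χ u)
  have hΨP : ∀ (u : P) (r : R), Ψ (cj u r) = ω u * Ψ r := fun u r => by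
    show ι (ψ (ρ₀ u (Additive.ofMul r))) = ι (χ u) * ι (ψ (Additive.ofMul r))
    rw [hψ, map_mul]
  -- semilinearity of the stabiliser
  have hstab : ∀ h : G, h • a = a → ∃ φ : GaloisField 2 q ≃+* GaloisField 2 q,
      ∀ r : R, Ψ (cj h r) = Ψ (cj h r₀) * φ (Ψ r) := by
    intro h hh
    have hcjmul : ∀ r s : R, cj h (r * s) = cj h r * cj h s := fun r s =>
      Subtype.ext (by simp [cj, mul_assoc])
    have hcjinj : Function.Injective (cj h) := fun r s e => by
      have e' := congrArg Subtype.val e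
      exact Subtype.ext (mul_left_cancel (mul_right_cancel e'))
    have hcjbij : Function.Bijective (cj h) := Finite.injective_iff_bijective.1 hcjinj
    set T1 := Ψ (cj h r₀)
    have hT1 : T1 ≠ 0 := fun e => by
      have h1 := hcjinj ((hΨbij.1 (e.trans hΨone.symm)).trans (Subtype.ext (by simp [cj]) : (1 : R) = cj h 1))
      rw [h1] at hr₀1
      exact hr₀1 rfl
    let inv : GaloisField 2 q → R := Function.surjInv hΨbij.2
    have hinv : ∀ x, Ψ (inv x) = x := Function.surjInv_eq hΨbij.2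
    let T : GaloisField 2 q → GaloisField 2 q := fun x => Ψ (cj h (inv x))
    have hT : ∀ r, T (Ψ r) = Ψ (cj h r) := fun r => by
      show Ψ (cj h (inv (Ψ r))) = _
      rw [hΨbij.1 (hinv (Ψ r))]
    have hTω : ∀ (u : P) (x : GaloisField 2 q), ∃ u' : P, T (ω u * x) = ω u' * T x ∧ T (ω u) = ω u' * T1 := by
      intro u x
      refine ⟨⟨h * u * h⁻¹, hP.conj h hh u u.2⟩, ?_⟩
      have key : ∀ r, T (ω u * Ψ r) = ω ⟨h * u * h⁻¹, hP.conj h hh u u.2⟩ * Ψ (cj h r) := by
        intro r
        rw [← hΨP, hT, ← hΨP]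
        congr 1
        exact Subtype.ext (by simp [cj, mul_assoc])
      obtain ⟨r, rfl⟩ := hΨbij.2 x
      refine ⟨by rw [key, hT], ?_⟩
      have := key r₀
      rwa [hΨr₀, mul_one] at this
    have hTadd : ∀ x y, T (x + y) = T x + T y := fun x y => by
      obtain ⟨r, rfl⟩ := hΨbij.2 x
      obtain ⟨s, rfl⟩ := hΨbij.2 y
      rw [← hΨadd, hT, hT, hT, hcjmul, hΨadd]
    have hTone : T 1 = T1 := by rw [← hΨr₀, hT]
    have hT0 : T 0 = 0 := by
      rw [← hΨone, hT, show cj h 1 = 1 from Subtype.ext (by simp [cj])]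
    let Φ : GaloisField 2 q → GaloisField 2 q := fun x => T x / T1
    have hΦmul : ∀ x y, Φ (x * y) = Φ x * Φ y := by
      intro x y
      by_cases hx : x = 0
      · subst hx; simp [Φ, hT0]
      obtain ⟨r, rfl⟩ := hΨbij.2 x
      obtain ⟨u, hu⟩ := hPtr r (fun e => hx (by rw [e, hΨone]))
      have hur : Ψ r = ω u := by rw [← hu, hΨP, hΨr₀, mul_one]
      obtain ⟨u', h1, h2⟩ := hTω u y
      simp only [Φ, hur, h1, h2]
      field_simp
    have hΦbij : Function.Bijective Φ := by
      refine Finite.injective_iff_bijective.1 fun x y e => ?_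
      have e' : T x = T y := by
        simp only [Φ, div_left_inj' hT1] at e
        exact e
      obtain ⟨r, rfl⟩ := hΨbij.2 x
      obtain ⟨s, rfl⟩ := hΨbij.2 y
      rw [hT, hT] at e'
      rw [hcjinj (hΨbij.1 e')]
    refine ⟨{ Equiv.ofBijective Φ hΦbij with
      map_mul' := hΦmul
      map_add' := fun x y => by show Φ (x + y) = Φ x + Φ y; simp only [Φ, hTadd, add_div] }, fun r => ?_⟩
    show Ψ (cj h r) = T1 * (T (Ψ r) / T1)
    rw [hT, mul_div_cancel₀ _ hT1]
  let e : α ≃ GaloisField 2 q := (Equiv.ofBijective E hE).symm.trans (Equiv.ofBijective Ψ hΨbij)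
  have he : ∀ r : R, e ((r : G) • a) = Ψ r := fun r => by
    show Ψ ((Equiv.ofBijective E hE).symm (E r)) = _
    rw [Equiv.ofBijective_symm_apply_apply]
  refine ⟨?_, e, fun g => ?_⟩
  · -- the two point stabiliser consists of field automorphisms
    choose φ hφ using fun h : ZData.H2 (G := G) a b => hstab h (ZData.mem_H2.1 h.2).1
    have hone : ∀ h : ZData.H2 (G := G) a b, cj h r₀ = r₀ := fun h => hEinj (by
      show ((cj (h : G) r₀ : R) : G) • a = (r₀ : G) • a
      rw [hconjpt _ (ZData.mem_H2.1 h.2).1, show (r₀ : G) • a = b from hr₀]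
      exact (ZData.mem_H2.1 h.2).2)
    have hφ' : ∀ (h : ZData.H2 (G := G) a b) (r : R), φ h (Ψ r) = Ψ (cj h r) := fun h r => by
      rw [hφ h r, hone h, hΨr₀, one_mul]
    let Φ : ZData.H2 (G := G) a b →* (GaloisField 2 q ≃ₐ[ZMod 2] GaloisField 2 q) :=
      MonoidHom.mk' (fun h => AlgEquiv.ofRingEquiv (f := φ h) fun x => by
        exact RingHom.congr_fun (Subsingleton.elim
          ((φ h).toRingHom.comp (algebraMap (ZMod 2) (GaloisField 2 q)))
          (algebraMap (ZMod 2) (GaloisField 2 q))) x)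
        fun h k => AlgEquiv.ext fun x => by
          obtain ⟨r, rfl⟩ := hΨbij.2 x
          show φ (h * k) (Ψ r) = φ h (φ k (Ψ r))
          rw [hφ', hφ', hφ']
          congr 1
          exact Subtype.ext (by simp [cj, mul_assoc])
    have hΦ : Function.Injective Φ := by
      rw [injective_iff_map_eq_one]
      intro h hh
      refine Subtype.ext (hz.faithful (h : G) fun z => ?_)
      obtain ⟨r, rfl⟩ := hE.2 z
      have h1 : φ h (Ψ r) = Ψ r := DFunLike.congr_fun hh (Ψ r)
      rw [hφ'] at h1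
      show (h : G) • ((r : G) • a) = (r : G) • a
      rw [← hconjpt _ (ZData.mem_H2.1 h.2).1, hΨbij.1 h1]
    have hdvd := Subgroup.card_dvd_of_injective Φ hΦ
    rw [IsGalois.card_aut_eq_finrank, GaloisField.finrank 2 hq.ne_zero] at hdvd
    exact (Nat.dvd_prime hq).1 hdvd
  · obtain ⟨r₁, hr₁⟩ := hE.2 (g • a)
    have hha : ((r₁ : G)⁻¹ * g) • a = a := by rw [mul_smul, inv_smul_eq_iff]; exact hr₁.symm
    obtain ⟨φ, hφ⟩ := hstab _ hha
    have hT1 : Ψ (cj ((r₁ : G)⁻¹ * g) r₀) ≠ 0 := fun e0 => by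
      have h1 := hΨbij.1 (e0.trans hΨone.symm)
      have h2 : ((cj ((r₁ : G)⁻¹ * g) r₀ : R) : G) • a = a := by rw [h1]; exact one_smul G a
      rw [hconjpt _ hha, show (r₀ : G) • a = b from hr₀] at h2
      exact hab (MulAction.injective _ (hha.trans h2.symm))
    refine ⟨Units.mk0 _ hT1, Ψ r₁, φ, fun x => ?_⟩
    obtain ⟨r, rfl⟩ := hΨbij.2 x
    show e (g • e.symm (Ψ r)) = _
    rw [← he r, Equiv.symm_apply_apply, he r, Units.val_mk0, ← hφ r, add_comm, ← hΨadd, ← he]
    congr 1
    show g • ((r : G) • a) = ((r₁ * cj ((r₁ : G)⁻¹ * g) r : R) : G) • a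
    rw [Subgroup.coe_mul, mul_smul, hconjpt _ hha, mul_smul (r₁ : G)⁻¹ g, smul_inv_smul]

end Cfsg.Agent.PermB
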