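import Cfsg.Agent.PermB.Sharp3
import Cfsg.Agent.PermB.Recognition
import Cfsg.Agent.PermB.PrimeCount
import Cfsg.Agent.CharInd.Frobenius
import Cfsg.Agent.Coprime.Generation
import Cfsg.Agent.OddChar.FixedPoint
import Mathlib.GroupTheory.GroupAction.MultipleTransitivity
import Mathlib.GroupTheory.PGroup

/-!
Quadruply transitive groups in which only the identity fixes five points: they are sharply
quadruply transitive or quintuply transitive.
-/

set_option autoImplicit false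

namespace Cfsg.Agent.PermB.SemiregFour

open MulAction

variable {G α : Type*} [Group G] [MulAction G α]

/-- The hypotheses. -/
structure Data (G α : Type*) [Group G] [MulAction G α] : Prop where
  four : ∀ a b c x a' b' c' x' : α, [a, b, c, x].Nodup → [a', b', c', x'].Nodup →
    ∃ g : G, g • a = a' ∧ g • b = b' ∧ g • c = c' ∧ g • x = x'
  five : ∀ g : G, ∀ a b c d e : α, [a, b, c, d, e].Nodup → g • a = a → g • b = b → g • c = c →
    g • d = d → g • e = e → g = 1

/-- The fixed points of an element. -/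
noncomputable def Fix [Fintype α] (g : G) : Finset α := by
  classical exact Finset.univ.filter fun y => g • y = y

theorem mem_Fix [Fintype α] {g : G} {y : α} : y ∈ Fix g ↔ g • y = y := by
  classical simp [Fix]

/-- The pointwise stabiliser of four points. -/
def quad (a b c x : α) : Subgroup G :=
  stabilizer G a ⊓ stabilizer G b ⊓ (stabilizer G c ⊓ stabilizer G x)

theorem mem_quad {a b c x : α} {g : G} :
    g ∈ quad (G := G) a b c x ↔ g • a = a ∧ g • b = b ∧ g • c = c ∧ g • x = x := by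
  simp only [quad, Subgroup.mem_inf, mem_stabilizer_iff, and_assoc]

namespace Data

variable [Fintype α] [Finite G] (hD : Data G α)

include hD

theorem card_Fix_le {g : G} (hg : g ≠ 1) : (Fix (α := α) g).card ≤ 4 := by
  classical
  by_contra h
  obtain ⟨S, hS, hS5⟩ := Finset.exists_subset_card_eq (show 5 ≤ (Fix (α := α) g).card by omega)
  have hnd := S.nodup_toList
  have hlen : S.toList.length = 5 := by rw [Finset.length_toList, hS5]
  have hmem : ∀ y ∈ S.toList, g • y = y := fun y hy => mem_Fix.1 (hS (Finset.mem_toList.1 hy))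
  match hl : S.toList, hlen with
  | [a, b, c, d, e], _ =>
    rw [hl] at hnd hmem
    simp only [List.forall_mem_cons] at hmem
    exact hg (hD.five g a b c d e hnd hmem.1 hmem.2.1 hmem.2.2.1 hmem.2.2.2.1 hmem.2.2.2.2.1)

theorem card_quad {a b c x a' b' c' x' : α} (h : [a, b, c, x].Nodup)
    (h' : [a', b', c', x'].Nodup) :
    Nat.card (quad (G := G) a b c x) = Nat.card (quad (G := G) a' b' c' x') := by
  obtain ⟨g, ga, gb, gc, gx⟩ := hD.four a b c x a' b' c' x' h h'
  refine Nat.card_congr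
    { toFun := fun u => ⟨g * u * g⁻¹, ?_⟩
      invFun := fun u => ⟨g⁻¹ * u * g, ?_⟩
      left_inv := fun u => Subtype.ext (by simp [mul_assoc])
      right_inv := fun u => Subtype.ext (by simp [mul_assoc]) }
  · obtain ⟨u1, u2, u3, u4⟩ := mem_quad.1 u.2
    refine mem_quad.2 ⟨?_, ?_, ?_, ?_⟩
    · rw [← ga, mul_smul, mul_smul, inv_smul_smul, u1]
    · rw [← gb, mul_smul, mul_smul, inv_smul_smul, u2]
    · rw [← gc, mul_smul, mul_smul, inv_smul_smul, u3]
    · rw [← gx, mul_smul, mul_smul, inv_smul_smul, u4]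
  · obtain ⟨u1, u2, u3, u4⟩ := mem_quad.1 u.2
    refine mem_quad.2 ⟨?_, ?_, ?_, ?_⟩
    · rw [mul_smul, mul_smul, ga, u1, ← ga, inv_smul_smul]
    · rw [mul_smul, mul_smul, gb, u2, ← gb, inv_smul_smul]
    · rw [mul_smul, mul_smul, gc, u3, ← gc, inv_smul_smul]
    · rw [mul_smul, mul_smul, gx, u4, ← gx, inv_smul_smul]

theorem eq_one_of_quad {a b c x y : α} {g : G} (hg : g ∈ quad (G := G) a b c x)
    (hnd : [a, b, c, x, y].Nodup) (hy : g • y = y) : g = 1 := by
  obtain ⟨h1, h2, h3, h4⟩ := mem_quad.1 hg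
  exact hD.five g a b c x y hnd h1 h2 h3 h4 hy

theorem orbit_quad_card {a b c x y : α} (hnd : [a, b, c, x, y].Nodup) :
    Nat.card (orbit (quad (G := G) a b c x) y) = Nat.card (quad (G := G) a b c x) := by
  refine (Nat.card_eq_of_bijective
    (fun h : quad (G := G) a b c x => (⟨h • y, mem_orbit y h⟩ : orbit _ y)) ⟨fun g k e => ?_, ?_⟩).symm
  · have e' : (g : G) • y = (k : G) • y := congrArg Subtype.val e
    refine Subtype.ext (inv_mul_eq_one.1 (hD.eq_one_of_quad ((k⁻¹ * g).2) hnd ?_)).symm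
    show ((k : G)⁻¹ * g) • y = y
    rw [mul_smul, e', inv_smul_smul]
  · rintro ⟨_, h, rfl⟩
    exact ⟨h, rfl⟩

/-- The regular normal subgroup of the stabiliser of three points. -/
theorem exists_triple_kernel {p q r x : α} (hnd : [p, q, r, x].Nodup) :
    ∃ F : Subgroup G, (∀ u ∈ F, u • p = p ∧ u • q = q ∧ u • r = r) ∧
      (∀ y : α, y ≠ p → y ≠ q → y ≠ r → ∃! u : F, (u : G) • x = y) ∧
      (∀ u ∈ F, ∀ y : α, y ≠ p → y ≠ q → y ≠ r → u • y = y → u = 1) ∧
      (∀ w : G, (w • p = p ∨ w • p = q ∨ w • p = r) → (w • q = p ∨ w • q = q ∨ w • q = r) →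
        (w • r = p ∨ w • r = q ∨ w • r = r) → ∀ u ∈ F, w * u * w⁻¹ ∈ F) := by
  classical
  let X : Subgroup G := stabilizer G p ⊓ stabilizer G q ⊓ stabilizer G r
  have hX : ∀ g : G, g ∈ X ↔ g • p = p ∧ g • q = q ∧ g • r = r := fun g => by
    simp only [X, Subgroup.mem_inf, mem_stabilizer_iff, and_assoc]
  obtain ⟨⟨hpq, hpr, hpx⟩, ⟨hqr, hqx⟩, hrx⟩ : (p ≠ q ∧ p ≠ r ∧ p ≠ x) ∧ (q ≠ r ∧ q ≠ x) ∧ r ≠ x := by
    simp only [List.nodup_cons, List.mem_cons, List.not_mem_nil, not_or, or_false] at hnd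
    tauto
  let H : Subgroup X := (stabilizer G x).subgroupOf X
  have hH : ∀ g : X, g ∈ H ↔ (g : G) • x = x := fun g => Iff.rfl
  have hnd5 : ∀ y : α, y ≠ p → y ≠ q → y ≠ r → y ≠ x → [p, q, r, x, y].Nodup := by
    intro y h1 h2 h3 h4
    simp only [List.nodup_cons, List.mem_cons, List.not_mem_nil, not_or, or_false, List.nodup_nil,
      and_true, not_false_eq_true]
    exact ⟨⟨hpq, hpr, hpx, h1.symm⟩, ⟨hqr, hqx, h2.symm⟩, ⟨hrx, h3.symm⟩, h4.symm⟩
  have hTI : ∀ g : X, g ∉ H → ∀ h ∈ H, g * h * g⁻¹ ∈ H → h = 1 := by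
    intro g hg h hh hgh
    obtain ⟨g1, g2, g3⟩ := (hX g).1 g.2
    obtain ⟨h1, h2, h3⟩ := (hX h).1 h.2
    rw [hH, Subgroup.coe_mul, Subgroup.coe_mul, Subgroup.coe_inv, mul_smul, mul_smul] at hgh
    have e : (h : G) • (g : G)⁻¹ • x = (g : G)⁻¹ • x := by rw [eq_inv_smul_iff]; exact hgh
    refine Subtype.ext (hD.eq_one_of_quad (g := (h : G)) (mem_quad.2 ⟨h1, h2, h3, (hH h).1 hh⟩)
      (hnd5 _ ?_ ?_ ?_ ?_) e)
    · intro e'; rw [inv_smul_eq_iff, g1] at e'; exact hpx e'.symm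
    · intro e'; rw [inv_smul_eq_iff, g2] at e'; exact hqx e'.symm
    · intro e'; rw [inv_smul_eq_iff, g3] at e'; exact hrx e'.symm
    · intro e'; exact hg ((hH g).2 ((inv_smul_eq_iff.1 e').symm))
  obtain ⟨K, hKn, hK, hKc⟩ := CharInd.frobenius_kernel H hTI
  have htrans : ∀ y : α, y ≠ p → y ≠ q → y ≠ r → ∃ v : X, (v : G) • x = y := by
    intro y h1 h2 h3
    obtain ⟨g, e1, e2, e3, e4⟩ := hD.four p q r x p q r y hnd (by
      simp only [List.nodup_cons, List.mem_cons, List.not_mem_nil, not_or, or_false, List.nodup_nil,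
        and_true, not_false_eq_true]
      exact ⟨⟨hpq, hpr, h1.symm⟩, ⟨hqr, h2.symm⟩, h3.symm⟩)
    exact ⟨⟨g, (hX g).2 ⟨e1, e2, e3⟩⟩, e4⟩
  have hchar : ∀ u : G, u ∈ K.map X.subtype ↔ (u • p = p ∧ u • q = q ∧ u • r = r) ∧
      ∀ y : α, y ≠ p → y ≠ q → y ≠ r → u • y = y → u = 1 := by
    intro u
    constructor
    · rintro ⟨k, hk, rfl⟩
      refine ⟨(hX k).1 k.2, fun y h1 h2 h3 hy => ?_⟩
      obtain ⟨v, rfl⟩ := htrans y h1 h2 h3
      have hy' : (k : G) • (v : G) • x = (v : G) • x := hy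
      have h4 : v⁻¹ * k * v ∈ H := by
        rw [hH]
        show ((v : G)⁻¹ * k * v) • x = x
        rw [mul_smul, mul_smul, hy', inv_smul_smul]
      have h5 := (hK k).1 hk v h4
      have : k = 1 := by
        calc k = v * (v⁻¹ * k * v) * v⁻¹ := by group
          _ = 1 := by rw [h5]; group
      rw [this]; rfl
    · rintro ⟨hu, hfree⟩
      refine ⟨⟨u, (hX u).2 hu⟩, (hK _).2 fun v hv => ?_, rfl⟩
      obtain ⟨v1, v2, v3⟩ := (hX v).1 v.2
      have hv' : ((v : G)⁻¹ * u * v) • x = x := hv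
      rw [mul_smul, mul_smul, inv_smul_eq_iff] at hv'
      have h6 := hfree ((v : G) • x) (fun e => hpx (MulAction.injective (v : G) (v1.trans e.symm)))
        (fun e => hqx (MulAction.injective (v : G) (v2.trans e.symm)))
        (fun e => hrx (MulAction.injective (v : G) (v3.trans e.symm))) hv'
      subst h6
      exact Subtype.ext (by simp)
  refine ⟨K.map X.subtype, fun u hu => ((hchar u).1 hu).1, fun y h1 h2 h3 => ?_,
    fun u hu => ((hchar u).1 hu).2, fun w wp wq wr u hu => ?_⟩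
  · obtain ⟨v, hv⟩ := htrans y h1 h2 h3
    obtain ⟨⟨⟨k, hk⟩, ⟨h, hh⟩⟩, hkh⟩ := hKc.2 v
    have e : (k : G) • x = y := by
      rw [← hv, ← show k * h = v from hkh, Subgroup.coe_mul, mul_smul, (hH h).1 hh]
    refine ⟨⟨(k : G), k, hk, rfl⟩, e, ?_⟩
    rintro ⟨u, hu⟩ hux
    refine Subtype.ext (inv_mul_eq_one.1 (((hchar _).1
      ((K.map X.subtype).mul_mem ((K.map X.subtype).inv_mem ⟨k, hk, rfl⟩) hu)).2 x hpx.symm hqx.symm
      hrx.symm ?_)).symm
    show ((k : G)⁻¹ * u) • x = x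
    rw [mul_smul, show u • x = y from hux, inv_smul_eq_iff, e]
  · obtain ⟨⟨u1, u2, u3⟩, hfree⟩ := (hchar u).1 hu
    -- `w⁻¹` permutes the three points
    have hinv : ∀ y : α, y = p ∨ y = q ∨ y = r → w⁻¹ • y = p ∨ w⁻¹ • y = q ∨ w⁻¹ • y = r := by
      intro y hy
      have hinj : ∀ {s t : α}, w • s = w • t → s = t := fun e => MulAction.injective w e
      simp only [inv_smul_eq_iff]
      rcases wp with wp | wp | wp <;> rcases wq with wq | wq | wq <;> rcases wr with wr | wr | wr <;>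
        first
          | exact absurd (hinj (wp.trans wq.symm)) hpq
          | exact absurd (hinj (wp.trans wr.symm)) hpr
          | exact absurd (hinj (wq.trans wr.symm)) hqr
          | (simp only [wp, wq, wr]; tauto)
    have hconj : ∀ y : α, y = p ∨ y = q ∨ y = r → (w * u * w⁻¹) • y = y := by
      intro y hy
      rw [mul_smul, mul_smul]
      rcases hinv y hy with e | e | e <;> rw [e] <;>
        (first | rw [u1] | rw [u2] | rw [u3]) <;> rw [← e, smul_inv_smul]
    refine (hchar _).2 ⟨⟨hconj p (Or.inl rfl), hconj q (Or.inr (Or.inl rfl)),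
      hconj r (Or.inr (Or.inr rfl))⟩, fun y h1 h2 h3 hy => ?_⟩
    rw [mul_smul, mul_smul, ← eq_inv_smul_iff] at hy
    have hne : ∀ z : α, z = p ∨ z = q ∨ z = r → w⁻¹ • y ≠ z := by
      intro z hz e
      rw [inv_smul_eq_iff] at e
      subst e
      rcases hz with rfl | rfl | rfl
      · rcases wp with e | e | e <;> simp_all
      · rcases wq with e | e | e <;> simp_all
      · rcases wr with e | e | e <;> simp_all
    rw [hfree _ (hne p (Or.inl rfl)) (hne q (Or.inr (Or.inl rfl))) (hne r (Or.inr (Or.inr rfl))) hy]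
    group

/-- Centralised elements of the kernel against fixed points. -/
theorem card_centralizer_add [DecidableEq α] {p q r x : α} {F : Subgroup G}
    (hFU : ∀ u ∈ F, u • p = p ∧ u • q = q ∧ u • r = r) (hx : x ≠ p ∧ x ≠ q ∧ x ≠ r)
    (hreg : ∀ y : α, y ≠ p → y ≠ q → y ≠ r → ∃! u : F, (u : G) • x = y)
    {w : G} (hwF : ∀ u ∈ F, w * u * w⁻¹ ∈ F) (hwx : w • x = x) :
    Nat.card ↥(F ⊓ Subgroup.centralizer {w}) + (Fix (α := α) w ∩ {p, q, r}).card
      = (Fix (α := α) w).card := by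
  classical
  have hw' : w⁻¹ • x = x := by rw [inv_smul_eq_iff, hwx]
  have hout : ∀ u ∈ F, u • x ≠ p ∧ u • x ≠ q ∧ u • x ≠ r := fun u hu => by
    obtain ⟨u1, u2, u3⟩ := hFU u hu
    exact ⟨fun e => hx.1 (MulAction.injective u (e.trans u1.symm)),
      fun e => hx.2.1 (MulAction.injective u (e.trans u2.symm)),
      fun e => hx.2.2 (MulAction.injective u (e.trans u3.symm))⟩
  have hkey : ∀ u ∈ F, (w • u • x = u • x ↔ w * u * w⁻¹ = u) := by
    intro u hu
    constructor
    · intro e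
      obtain ⟨h1, h2, h3⟩ := hout u hu
      obtain ⟨v, -, hv⟩ := hreg (u • x) h1 h2 h3
      have ea := hv ⟨_, hwF u hu⟩ (by
        show (w * u * w⁻¹) • x = u • x
        rw [mul_smul, mul_smul, hw', e])
      exact congrArg Subtype.val (ea.trans (hv ⟨u, hu⟩ rfl).symm)
    · intro e
      conv_rhs => rw [← e, mul_smul, mul_smul, hw']
  have e1 : Nat.card ↥(F ⊓ Subgroup.centralizer {w}) = (Fix (α := α) w \ {p, q, r}).card := by
    rw [← Nat.card_eq_finsetCard]
    refine Nat.card_eq_of_bijective (fun u => ⟨(u : G) • x, ?_⟩) ⟨fun u v e => ?_, ?_⟩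
    · obtain ⟨hu, hc⟩ := Subgroup.mem_inf.1 u.2
      obtain ⟨h1, h2, h3⟩ := hout u hu
      refine Finset.mem_sdiff.2 ⟨mem_Fix.2 ((hkey u hu).2 ?_), by simp [h1, h2, h3]⟩
      rw [Subgroup.mem_centralizer_iff.1 hc w rfl, mul_inv_cancel_right]
    · obtain ⟨h1, h2, h3⟩ := hout u (Subgroup.mem_inf.1 u.2).1
      obtain ⟨z, -, hz⟩ := hreg _ h1 h2 h3
      have ea := hz ⟨u, (Subgroup.mem_inf.1 u.2).1⟩ rfl
      have eb := hz ⟨v, (Subgroup.mem_inf.1 v.2).1⟩ (congrArg Subtype.val e).symm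
      exact Subtype.ext (congrArg Subtype.val (ea.trans eb.symm) :)
    · rintro ⟨y, hy⟩
      simp only [Finset.mem_sdiff, Finset.mem_insert, Finset.mem_singleton, not_or] at hy
      obtain ⟨⟨u, hu⟩, hux, -⟩ := hreg y hy.2.1 hy.2.2.1 hy.2.2.2
      have hux' : u • x = y := hux
      refine ⟨⟨u, Subgroup.mem_inf.2 ⟨hu, ?_⟩⟩, Subtype.ext hux'⟩
      rw [Subgroup.mem_centralizer_iff]
      rintro h rfl
      exact mul_inv_eq_iff_eq_mul.1 ((hkey u hu).1 (by rw [hux']; exact mem_Fix.1 hy.1))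
  rw [e1, Finset.card_sdiff_add_card_inter]

end Data

/-- An involution with the same effect on given points. -/
theorem exists_involution_of_sq [Finite G] {g : G} (hodd : Odd (orderOf (g * g))) :
    ∃ s : G, s * s = 1 ∧ ∃ j : ℕ, s = g * (g * g) ^ j := by
  obtain ⟨j, hj⟩ := hodd
  refine ⟨g * (g * g) ^ j, ?_, j, rfl⟩
  have hc : Commute ((g * g) ^ j) g := ((Commute.refl g).mul_left (Commute.refl g)).pow_left j
  calc g * (g * g) ^ j * (g * (g * g) ^ j) = g * g * ((g * g) ^ j * (g * g) ^ j) := by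
        simp only [mul_assoc]
        congr 1
        rw [← mul_assoc, hc.eq, mul_assoc]
    _ = (g * g) ^ orderOf (g * g) := by rw [hj, ← pow_add, ← pow_succ', two_mul]
    _ = 1 := pow_orderOf_eq_one _

end Cfsg.Agent.PermB.SemiregFour
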