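import Cfsg.Agent.PermB.SemiregFour

/-!
An intransitive stabiliser of four points is trivial.
-/

set_option autoImplicit false

namespace Cfsg.Agent.PermB.SemiregFour

open MulAction

variable {G α : Type*} [Group G] [Finite G] [MulAction G α] [Fintype α]

theorem eq_one_or_prime_kill {n l p : ℕ} [IsPretransitive G α] [FaithfulSMul G α]
    (hn : Fintype.card α = n) (hp : p.Prime) (hnp : n = p)
    (hG : Nat.card G = n * (n - 1) * (n - 2) * (n - 3) * l) (hlarge : p < Nat.card G)
    (hres : ∀ r, r ∣ p - 1 → 1 < r → ((n - 1) * (n - 2) * (n - 3) * l) % p ≠ r % p) : False := by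
  subst hnp
  obtain ⟨r, h1, h2, h3⟩ := exists_residue_of_prime_degree (G := G) (Ω := α) hp
    (by rw [Nat.card_eq_fintype_card, hn]) hlarge
  refine hres r h1 h2 ?_
  rw [← h3, hG, show n * (n - 1) * (n - 2) * (n - 3) * l = n * ((n - 1) * (n - 2) * (n - 3) * l) by
    ring, Nat.mul_div_cancel_left _ hp.pos]

theorem kill_eleven {l r : ℕ} (hl : l = 2 ∨ l = 4) (hr : r ∣ 10) (hr1 : 1 < r)
    (h : (10 * 9 * l) % 11 = r % 11) : False := by
  have := Nat.le_of_dvd (by norm_num) hr
  rcases hl with rfl | rfl <;> interval_cases r <;> simp_all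

namespace Data

variable (hD : Data G α)

include hD

theorem pretransitive_four : IsPretransitive G (Fin 4 ↪ α) := by
  refine ⟨fun s t => ?_⟩
  have hnd : ∀ s : Fin 4 ↪ α, [s 0, s 1, s 2, s 3].Nodup := fun s => by simp
  obtain ⟨g, h0, h1, h2, h3⟩ := hD.four _ _ _ _ _ _ _ _ (hnd s) (hnd t)
  refine ⟨g, Function.Embedding.ext fun i => ?_⟩
  fin_cases i <;> assumption

theorem card_group [DecidableEq α] {a b c x : α} (hnd : [a, b, c, x].Nodup) :
    Nat.card G = (Fintype.card α).descFactorial 4 * Nat.card (quad (G := G) a b c x) := by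
  haveI := hD.pretransitive_four
  let T : Fin 4 ↪ α := ⟨![a, b, c, x], by
    intro i j e
    simp only [List.nodup_cons, List.mem_cons, List.not_mem_nil, not_or, or_false] at hnd
    fin_cases i <;> fin_cases j <;> simp_all⟩
  rw [PermLib.card_eq_mul_card_stabilizer (G := G) T]
  congr 1
  · rw [Nat.card_eq_fintype_card, Fintype.card_embedding_eq, Fintype.card_fin]
  · refine congrArg (fun H : Subgroup G => Nat.card H) (Subgroup.ext fun g => ?_)
    rw [mem_stabilizer_iff, mem_quad]
    exact ⟨fun h => ⟨DFunLike.congr_fun h 0, DFunLike.congr_fun h 1, DFunLike.congr_fun h 2,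
      DFunLike.congr_fun h 3⟩, fun ⟨h0, h1, h2, h3⟩ => Function.Embedding.ext fun i => by
        fin_cases i <;> assumption⟩

/-- The centralised part of the kernel has at most `4 - |Fix w ∩ U|` elements. -/
theorem card_centralizer_le [DecidableEq α] {p q r x : α} {F : Subgroup G}
    (hFU : ∀ u ∈ F, u • p = p ∧ u • q = q ∧ u • r = r) (hx : x ≠ p ∧ x ≠ q ∧ x ≠ r)
    (hreg : ∀ y : α, y ≠ p → y ≠ q → y ≠ r → ∃! u : F, (u : G) • x = y)
    {w : G} (hwF : ∀ u ∈ F, w * u * w⁻¹ ∈ F) (hwx : w • x = x) (hw : w ≠ 1) :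
    Nat.card ↥(F ⊓ Subgroup.centralizer {w}) + (Fix (α := α) w ∩ {p, q, r}).card ≤ 4 :=
  (hD.card_centralizer_add hFU hx hreg hwF hwx).trans_le (hD.card_Fix_le hw)

theorem dvd_sub_four [DecidableEq α] {a b c x : α} (hnd : [a, b, c, x].Nodup) :
    Nat.card (quad (G := G) a b c x) ∣ Fintype.card α - 4 := by
  have hS : (Finset.univ \ ({a, b, c, x} : Finset α)).card = Fintype.card α - 4 := by
    rw [Finset.card_sdiff_of_subset (Finset.subset_univ _), Finset.card_univ]
    simp only [List.nodup_cons, List.mem_cons, List.not_mem_nil, not_or, or_false] at hnd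
    congr 1
    rw [Finset.card_insert_of_notMem (by simp; tauto), Finset.card_insert_of_notMem (by simp; tauto),
      Finset.card_pair (by tauto)]
  rw [← hS]
  refine dvd_card_of_orbits (G := quad (G := G) a b c x) _ (fun g y hy => ?_)
    fun y hy => (hD.orbit_quad_card ?_).symm.dvd
  · obtain ⟨h1, h2, h3, h4⟩ := mem_quad.1 g.2
    simp only [Finset.mem_sdiff, Finset.mem_univ, true_and, Finset.mem_insert,
      Finset.mem_singleton, not_or] at hy ⊢
    exact ⟨fun e => hy.1 (MulAction.injective (g : G) (e.trans h1.symm)),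
      fun e => hy.2.1 (MulAction.injective (g : G) (e.trans h2.symm)),
      fun e => hy.2.2.1 (MulAction.injective (g : G) (e.trans h3.symm)),
      fun e => hy.2.2.2 (MulAction.injective (g : G) (e.trans h4.symm))⟩
  · simp only [Finset.mem_sdiff, Finset.mem_univ, true_and, Finset.mem_insert,
      Finset.mem_singleton, not_or] at hy
    simp only [List.nodup_cons, List.mem_cons, List.not_mem_nil, not_or, or_false, List.nodup_nil,
      and_true, not_false_eq_true] at hnd ⊢
    obtain ⟨⟨h1, h2, h3⟩, ⟨h4, h5⟩, h6⟩ := hnd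
    exact ⟨⟨h1, h2, h3, Ne.symm hy.1⟩, ⟨h4, h5, Ne.symm hy.2.1⟩, ⟨h6, Ne.symm hy.2.2.1⟩,
      Ne.symm hy.2.2.2⟩

theorem card_kernel_add [DecidableEq α] {p q r x : α} {F : Subgroup G} (hpqr : [p, q, r, x].Nodup)
    (hFU : ∀ u ∈ F, u • p = p ∧ u • q = q ∧ u • r = r)
    (hreg : ∀ y : α, y ≠ p → y ≠ q → y ≠ r → ∃! u : F, (u : G) • x = y) :
    Nat.card F + 3 = Fintype.card α := by
  simp only [List.nodup_cons, List.mem_cons, List.not_mem_nil, not_or, or_false] at hpqr
  have e : Nat.card F = (Finset.univ \ ({p, q, r} : Finset α)).card := by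
    rw [← Nat.card_eq_finsetCard]
    refine Nat.card_eq_of_bijective (fun u => ⟨(u : G) • x, ?_⟩) ⟨fun u v e => ?_, ?_⟩
    · obtain ⟨u1, u2, u3⟩ := hFU u u.2
      simp only [Finset.mem_sdiff, Finset.mem_univ, true_and, Finset.mem_insert,
        Finset.mem_singleton, not_or]
      exact ⟨fun e => hpqr.1.2.2 (MulAction.injective (u : G) (e.trans u1.symm)).symm,
        fun e => hpqr.2.1.2 (MulAction.injective (u : G) (e.trans u2.symm)).symm,
        fun e => hpqr.2.2.1 (MulAction.injective (u : G) (e.trans u3.symm)).symm⟩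
    · obtain ⟨u1, u2, u3⟩ := hFU u u.2
      obtain ⟨z, -, hz⟩ := hreg ((u : G) • x)
        (fun e => hpqr.1.2.2 (MulAction.injective (u : G) (e.trans u1.symm)).symm)
        (fun e => hpqr.2.1.2 (MulAction.injective (u : G) (e.trans u2.symm)).symm)
        (fun e => hpqr.2.2.1 (MulAction.injective (u : G) (e.trans u3.symm)).symm)
      exact (hz u rfl).trans (hz v (congrArg Subtype.val e).symm).symm
    · rintro ⟨y, hy⟩
      simp only [Finset.mem_sdiff, Finset.mem_univ, true_and, Finset.mem_insert,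
        Finset.mem_singleton, not_or] at hy
      obtain ⟨u, hu, -⟩ := hreg y hy.1 hy.2.1 hy.2.2
      exact ⟨u, Subtype.ext hu⟩
  rw [e, Finset.card_sdiff_of_subset (Finset.subset_univ _), Finset.card_univ,
    Finset.card_insert_of_notMem (by simp; tauto), Finset.card_pair (by tauto)]
  have : 3 ≤ Fintype.card α := by
    have h3 := Finset.card_le_univ ({p, q, r} : Finset α)
    rwa [Finset.card_insert_of_notMem (by simp; tauto), Finset.card_pair (by tauto)] at h3
  omega

/-- The case of an even stabiliser: the degree is twelve. -/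
theorem false_of_even [DecidableEq α] [FaithfulSMul G α] {t₀ t₁ t₂ t₃ : α}
    (hnd : [t₀, t₁, t₂, t₃].Nodup) (hn : 8 ≤ Fintype.card α)
    (hint : 2 * Nat.card (quad (G := G) t₀ t₁ t₂ t₃) ≤ Fintype.card α - 4)
    (heven : Even (Nat.card (quad (G := G) t₀ t₁ t₂ t₃))) : False := by
  obtain ⟨z, hz⟩ := exists_prime_orderOf_dvd_card' (G := quad (G := G) t₀ t₁ t₂ t₃) 2
    (even_iff_two_dvd.1 heven)
  obtain ⟨z0, z1, z2, z3⟩ := mem_quad.1 z.2
  have hzz : (z : G) * z = 1 := by
    rw [← pow_two, ← SubmonoidClass.coe_pow, ← hz, pow_orderOf_eq_one]; rfl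
  have hz1 : (z : G) ≠ 1 := fun e => by rw [← Subgroup.orderOf_coe, e, orderOf_one] at hz; omega
  obtain ⟨p, hp⟩ : ∃ p : α, (z : G) • p ≠ p := by
    by_contra h
    push Not at h
    exact hz1 (eq_of_smul_eq_smul fun y : α => by rw [h, one_smul])
  set q := (z : G) • p with hq
  have hqp : (z : G) • q = p := by rw [hq, ← mul_smul, hzz, one_smul]
  have hpT : ∀ t, (z : G) • t = t → p ≠ t ∧ q ≠ t := fun t ht =>
    ⟨fun e => hp (by rw [hq, e, ht]), fun e => hp (by rw [← hqp, e, ht])⟩
  simp only [List.nodup_cons, List.mem_cons, List.not_mem_nil, not_or, or_false, List.nodup_nil,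
    and_true, not_false_eq_true] at hnd
  obtain ⟨⟨h01, h02, h03⟩, ⟨h12, h13⟩, h23⟩ := hnd
  have hnd' : [p, q, t₀, t₁].Nodup := by
    simp only [List.nodup_cons, List.mem_cons, List.not_mem_nil, not_or, or_false, List.nodup_nil,
      and_true, not_false_eq_true]
    exact ⟨⟨Ne.symm hp, (hpT _ z0).1, (hpT _ z1).1⟩, ⟨(hpT _ z0).2, (hpT _ z1).2⟩, h01⟩
  have hnd0 : [t₀, t₁, t₂, t₃].Nodup := by
    simp only [List.nodup_cons, List.mem_cons, List.not_mem_nil, not_or, or_false, List.nodup_nil,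
      and_true, not_false_eq_true]
    exact ⟨⟨h01, h02, h03⟩, ⟨h12, h13⟩, h23⟩
  obtain ⟨F, hFU, hreg, hfree, hnorm⟩ := hD.exists_triple_kernel hnd'
  have hx : t₁ ≠ p ∧ t₁ ≠ q ∧ t₁ ≠ t₀ := ⟨(hpT _ z1).1.symm, (hpT _ z1).2.symm, Ne.symm h01⟩
  obtain ⟨z', hz'⟩ := exists_prime_orderOf_dvd_card' (G := quad (G := G) p q t₀ t₁) 2 (by
    rw [hD.card_quad hnd' hnd0]; exact even_iff_two_dvd.1 heven)
  obtain ⟨zp, zq, zr, zx⟩ := mem_quad.1 z'.2
  have hz'z' : (z' : G) * z' = 1 := by
    rw [← pow_two, ← SubmonoidClass.coe_pow, ← hz', pow_orderOf_eq_one]; rfl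
  have hz'1 : (z' : G) ≠ 1 := fun e => by
    rw [← Subgroup.orderOf_coe, e, orderOf_one] at hz'; omega
  have hFz' : ∀ u ∈ F, (z' : G) * u * (z' : G)⁻¹ ∈ F :=
    hnorm _ (Or.inl zp) (Or.inr (Or.inl zq)) (Or.inr (Or.inr zr))
  have hFz : ∀ u ∈ F, (z : G) * u * (z : G)⁻¹ ∈ F :=
    hnorm _ (Or.inr (Or.inl rfl)) (Or.inl hqp) (Or.inr (Or.inr z0))
  have hint' : ∀ w : G, w • t₀ = t₀ → 1 ≤ (Fix (α := α) w ∩ {p, q, t₀}).card := fun w hw =>
    Finset.card_pos.2 ⟨t₀, Finset.mem_inter.2 ⟨mem_Fix.2 hw, by simp⟩⟩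
  -- `z'` inverts `F`
  have hcent1 : ∀ u ∈ F, (z' : G) * u * (z' : G)⁻¹ = u → u = 1 := by
    intro u hu e
    by_contra hu1
    have h3 : 3 ≤ (Fix (α := α) (z' : G) ∩ {p, q, t₀}).card := by
      rw [Finset.inter_eq_right.2 (by
        intro y hy
        simp only [Finset.mem_insert, Finset.mem_singleton] at hy
        rcases hy with rfl | rfl | rfl <;> rw [mem_Fix] <;> assumption),
        Finset.card_insert_of_notMem (by simp [Ne.symm hp, (hpT _ z0).1]),
        Finset.card_pair (hpT _ z0).2]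
    have h4 := hD.card_centralizer_le hFU hx hreg hFz' zx hz'1
    have h2 : 2 ≤ Nat.card ↥(F ⊓ Subgroup.centralizer {(z' : G)}) := by
      have hmem : u ∈ F ⊓ Subgroup.centralizer {(z' : G)} := Subgroup.mem_inf.2 ⟨hu, by
        rw [Subgroup.mem_centralizer_iff]
        rintro w rfl
        exact mul_inv_eq_iff_eq_mul.1 e⟩
      haveI : Nontrivial ↥(F ⊓ Subgroup.centralizer {(z' : G)}) :=
        ⟨⟨⟨u, hmem⟩, 1, fun e => hu1 (congrArg Subtype.val e)⟩⟩
      exact Finite.one_lt_card
    omega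
  have hinv := ZData.inverted_of_centralizer_trivial hz'z' hFz' hcent1
  have hFc := isMulCommutative_of_inverted hinv
  have hzinv : (z : G)⁻¹ = z := inv_eq_of_mul_eq_one_right hzz
  have hz'inv : (z' : G)⁻¹ = z' := inv_eq_of_mul_eq_one_right hz'z'
  have hsq : ∀ u ∈ F, u * u = 1 → u = 1 := fun u hu e => hcent1 u hu (by
    rw [hinv u hu, inv_eq_of_mul_eq_one_right e])
  -- `z` and `z'` commute
  have hcomm : (z : G) * z' = z' * z := by
    set w := (z : G) * z' * (z : G)⁻¹ with hwdef
    have hw : ∀ u ∈ F, w * u * w⁻¹ = u⁻¹ := fun u hu => by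
      rw [hwdef, show (z : G) * z' * (z : G)⁻¹ * u * ((z : G) * z' * (z : G)⁻¹)⁻¹
        = (z : G) * ((z' : G) * ((z : G)⁻¹ * u * z) * (z' : G)⁻¹) * (z : G)⁻¹ by group,
        hinv _ (by rw [hzinv]; have := hFz u hu; rwa [hzinv] at this)]
      group
    have hv : w * z' = 1 := by
      have hfixall : ∀ y : α, (w * z') • y = y := by
        intro y
        have hwfix : ∀ t : α, (z' : G) • t = t → (z' : G) • ((z : G) • t) = (z : G) • t →
            (w * z') • t = t := fun t h1 h2 => by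
          rw [hwdef, hzinv, mul_smul, mul_smul, mul_smul, h1, h2, ← mul_smul, hzz, one_smul]
        by_cases hyp : y = p
        · subst hyp; exact hwfix _ zp zq
        by_cases hyq : y = q
        · subst hyq; exact hwfix _ zq (by rw [hqp]; exact zp)
        by_cases hyr : y = t₀
        · subst hyr; exact hwfix _ zr (by rw [z0]; exact zr)
        obtain ⟨⟨u, hu⟩, hux, -⟩ := hreg y hyp hyq hyr
        have hux' : u • t₁ = y := hux
        have hfx : (w * z') • t₁ = t₁ := hwfix _ zx (by rw [z1]; exact zx)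
        rw [← hux', ← mul_smul]
        have hc : w * z' * u = u * (w * z') := by
          have e1 : (z' : G) * u = u⁻¹ * z' := by
            rw [← mul_inv_eq_iff_eq_mul]; exact hinv u hu
          have e2 : w * u⁻¹ = u * w := by
            rw [← mul_inv_eq_iff_eq_mul, hw _ (F.inv_mem hu), inv_inv]
          rw [mul_assoc, e1, ← mul_assoc, e2, mul_assoc]
        rw [hc, mul_smul, hfx]
      exact eq_of_smul_eq_smul fun y : α => by rw [hfixall, one_smul]
    rw [hwdef] at hv
    calc (z : G) * z' = ((z : G) * z' * (z : G)⁻¹ * z') * ((z' : G)⁻¹ * z) := by group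
      _ = z' * z := by rw [hv, one_mul, hz'inv]
  set v := (z : G) * z' with hvdef
  have hv1 : v ≠ 1 := fun e => hp (by
    have e' : (z : G) = z' := by
      calc (z : G) = v * (z' : G)⁻¹ := by rw [hvdef]; group
        _ = z' := by rw [e, one_mul, hz'inv]
    rw [hq, e', zp])
  have hFv : ∀ u ∈ F, v * u * v⁻¹ ∈ F := fun u hu => by
    rw [show v * u * v⁻¹ = (z : G) * ((z' : G) * u * (z' : G)⁻¹) * (z : G)⁻¹ by rw [hvdef]; group]
    exact hFz _ (hFz' u hu)
  have hCz := hD.card_centralizer_le hFU hx hreg hFz z1 hz1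
  have hCv := hD.card_centralizer_le hFU hx hreg hFv
    (by rw [hvdef, mul_smul, zx, z1]) hv1
  have hiz := hint' _ z0
  have hiv := hint' v (by rw [hvdef, mul_smul, zr, z0])
  -- `F` is the product of the two centralisers
  letI : CommGroup F :=
    { (inferInstance : Group F) with mul_comm := fun u v => hFc.is_comm.comm u v }
  let σ : F →* F := MonoidHom.mk' (fun u => ⟨(z : G) * u * (z : G)⁻¹, hFz u u.2⟩) fun u v =>
    Subtype.ext (by simp [mul_assoc])
  have hσσ : ∀ u, σ (σ u) = u := fun u => Subtype.ext (by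
    show (z : G) * ((z : G) * u * (z : G)⁻¹) * (z : G)⁻¹ = u
    rw [hzinv, show (z : G) * (z * u * z) * z = (z * z) * u * (z * z) by group, hzz]; simp)
  have hmemz : ∀ u : F, σ u = u → (u : G) ∈ F ⊓ Subgroup.centralizer {(z : G)} := fun u hu =>
    Subgroup.mem_inf.2 ⟨u.2, by
      rw [Subgroup.mem_centralizer_iff]; rintro w rfl
      exact mul_inv_eq_iff_eq_mul.1 (congrArg Subtype.val hu)⟩
  have hmemv : ∀ u : F, σ u = u⁻¹ → (u : G) ∈ F ⊓ Subgroup.centralizer {v} := fun u hu =>
    Subgroup.mem_inf.2 ⟨u.2, by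
      rw [Subgroup.mem_centralizer_iff]; rintro w rfl
      refine mul_inv_eq_iff_eq_mul.1 ?_
      have h1 : (z : G) * (u : G) * (z : G)⁻¹ = (u : G)⁻¹ := congrArg Subtype.val hu
      rw [hvdef, show (z : G) * z' * u * ((z : G) * z')⁻¹
        = (z : G) * ((z' : G) * u * (z' : G)⁻¹) * (z : G)⁻¹ by group, hinv _ u.2,
        show (z : G) * (u : G)⁻¹ * (z : G)⁻¹ = ((z : G) * u * (z : G)⁻¹)⁻¹ by group, h1, inv_inv]⟩
  let Φ : F → ↥(F ⊓ Subgroup.centralizer {(z : G)}) × ↥(F ⊓ Subgroup.centralizer {v}) := fun u =>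
    (⟨_, hmemz (u * σ u) (by rw [map_mul, hσσ, mul_comm])⟩,
      ⟨_, hmemv (u * (σ u)⁻¹) (by rw [map_mul, map_inv, hσσ, mul_inv, inv_inv, mul_comm])⟩)
  have hΦ : Function.Injective Φ := by
    intro u u' e
    have e1 : u * σ u = u' * σ u' :=
      Subtype.ext (congrArg (fun w => ((w.1 : ↥(F ⊓ Subgroup.centralizer {(z : G)})) : G)) e)
    have e2 : u * (σ u)⁻¹ = u' * (σ u')⁻¹ :=
      Subtype.ext (congrArg (fun w => ((w.2 : ↥(F ⊓ Subgroup.centralizer {v})) : G)) e)
    have e3 : (u / u') * (u / u') = 1 := by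
      have e4 : u * σ u * (u * (σ u)⁻¹) = u' * σ u' * (u' * (σ u')⁻¹) := by rw [e1, e2]
      rw [mul_mul_mul_comm, mul_inv_cancel, mul_one, mul_mul_mul_comm u' (σ u'), mul_inv_cancel,
        mul_one] at e4
      rw [div_mul_div_comm, e4, div_self']
    exact div_eq_one.1 (Subtype.ext (hsq _ (u / u').2 (congrArg Subtype.val e3)))
  have hm := Nat.card_le_card_of_injective Φ hΦ
  rw [Nat.card_prod] at hm
  have hmc := hD.card_kernel_add hnd' hFU hreg
  have hodd : Nat.card F % 2 = 1 := by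
    rcases Nat.mod_two_eq_zero_or_one (Nat.card F) with h | h
    · exfalso
      obtain ⟨u, hu⟩ := exists_prime_orderOf_dvd_card' (G := F) 2 (Nat.dvd_of_mod_eq_zero h)
      have hu2 : (u : G) * u = 1 := by
        rw [← pow_two, ← SubmonoidClass.coe_pow, ← hu, pow_orderOf_eq_one]; rfl
      have := hsq _ u.2 hu2
      rw [← Subgroup.orderOf_coe, this, orderOf_one] at hu
      omega
    · exact h
  have hz3 : Nat.card ↥(F ⊓ Subgroup.centralizer {(z : G)}) ≤ 3 := by omega
  have hv3 : Nat.card ↥(F ⊓ Subgroup.centralizer {v}) ≤ 3 := by omega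
  have hm9 : Nat.card F ≤ 9 := hm.trans (Nat.mul_le_mul hz3 hv3)
  have hl := hD.dvd_sub_four hnd0
  set l := Nat.card (quad (G := G) t₀ t₁ t₂ t₃) with hldef
  obtain ⟨le2, hle2⟩ := heven
  have hlpos : 0 < l := Nat.card_pos
  obtain ⟨hn12, hl4⟩ : Fintype.card α = 12 ∧ (l = 2 ∨ l = 4) := by
    -- `z` fixes an element of `F` besides the identity
    have hC3 : Nat.card ↥(F ⊓ Subgroup.centralizer {(z : G)}) = 3 := by
      have h := hD.card_centralizer_add hFU hx hreg hFz z1
      have hi : (Fix (α := α) (z : G) ∩ {p, q, t₀}).card = 1 := by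
        rw [show Fix (α := α) (z : G) ∩ {p, q, t₀} = {t₀} by
          ext y
          simp only [Finset.mem_inter, mem_Fix, Finset.mem_insert, Finset.mem_singleton]
          constructor
          · rintro ⟨hy, rfl | rfl | rfl⟩
            · exact absurd hy hp
            · exact absurd (hqp.symm.trans hy) (Ne.symm hp)
            · rfl
          · rintro rfl; exact ⟨z0, Or.inr (Or.inr rfl)⟩, Finset.card_singleton]
      have h4 : 4 ≤ (Fix (α := α) (z : G)).card := by
        refine le_trans ?_ (Finset.card_le_card (s := {t₀, t₁, t₂, t₃}) ?_)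
        · rw [Finset.card_insert_of_notMem (by simp [h01, h02, h03]),
            Finset.card_insert_of_notMem (by simp [h12, h13]), Finset.card_pair h23]
        · intro y hy
          simp only [Finset.mem_insert, Finset.mem_singleton] at hy
          rcases hy with rfl | rfl | rfl | rfl <;> rw [mem_Fix] <;> assumption
      omega
    have hdvd : 3 ∣ Nat.card F := hC3 ▸ Subgroup.card_dvd_of_le inf_le_left
    have h8 : Fintype.card α - 4 = 8 := by omega
    rw [h8] at hl hint
    exact ⟨by omega, by omega⟩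
  -- the stabiliser of a point has degree eleven
  let X := stabilizer G t₀
  let β := SubMulAction.ofStabilizer G t₀
  have hcoe : ∀ (g : X) (y : β), ((g • y : β) : α) = (g : G) • (y : α) := fun g y => rfl
  haveI : Finite β := Finite.of_injective (fun y : β => (y : α)) Subtype.val_injective
  haveI : FaithfulSMul X β := ⟨fun {g k} hgk => Subtype.ext (eq_of_smul_eq_smul fun y : α => by
    by_cases hy : y = t₀
    · subst hy; exact g.2.trans k.2.symm
    · exact congrArg Subtype.val (hgk ⟨y, hy⟩))⟩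
  haveI : IsPretransitive X β := by
    refine ⟨fun y w => ?_⟩
    obtain ⟨y, hy⟩ := y
    obtain ⟨w, hw⟩ := w
    have hy' : y ≠ t₀ := hy
    have hw' : w ≠ t₀ := hw
    have hex : ∀ y : α, y ≠ t₀ → ∃ a b : α, [t₀, y, a, b].Nodup := by
      intro y hy
      obtain ⟨a, -, ha⟩ := Finset.exists_mem_notMem_of_card_lt_card (s := ({t₀, y} : Finset α))
        (t := Finset.univ) (by
          rw [Finset.card_pair hy.symm, Finset.card_univ]; omega)
      obtain ⟨b, -, hb⟩ := Finset.exists_mem_notMem_of_card_lt_card (s := ({t₀, y, a} : Finset α))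
        (t := Finset.univ) (by
          have h3 : ({t₀, y, a} : Finset α).card ≤ 3 := Finset.card_le_three
          rw [Finset.card_univ]; omega)
      simp only [Finset.mem_insert, Finset.mem_singleton, not_or] at ha hb
      refine ⟨a, b, ?_⟩
      simp only [List.nodup_cons, List.mem_cons, List.not_mem_nil, not_or, or_false, List.nodup_nil,
        and_true, not_false_eq_true]
      exact ⟨⟨hy.symm, Ne.symm ha.1, Ne.symm hb.1⟩, ⟨Ne.symm ha.2, Ne.symm hb.2.1⟩, Ne.symm hb.2.2⟩
    obtain ⟨a, b, h1⟩ := hex y hy'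
    obtain ⟨a', b', h2⟩ := hex w hw'
    obtain ⟨g, g0, g1, -, -⟩ := hD.four _ _ _ _ _ _ _ _ h1 h2
    exact ⟨⟨g, g0⟩, Subtype.ext g1⟩
  have hβ : Nat.card β = 11 := by
    have e : Nat.card β = Nat.card {y : α // y ≠ t₀} :=
      Nat.card_congr (Equiv.subtypeEquivRight fun y => Iff.rfl)
    rw [e, Nat.card_eq_fintype_card, Fintype.card_subtype_compl, Fintype.card_subtype_eq, hn12]
  haveI : IsPretransitive G α := by
    refine ⟨fun y w => ?_⟩
    obtain ⟨T, hT⟩ : ∃ T : Fin 4 ↪ α, T 0 = y := by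
      obtain ⟨T⟩ : Nonempty (Fin 4 ↪ α) :=
        Function.Embedding.nonempty_of_card_le (by rw [Fintype.card_fin]; omega)
      exact ⟨T.trans (Equiv.swap (T 0) y).toEmbedding, by simp⟩
    obtain ⟨S, hS⟩ : ∃ S : Fin 4 ↪ α, S 0 = w := by
      obtain ⟨S⟩ : Nonempty (Fin 4 ↪ α) :=
        Function.Embedding.nonempty_of_card_le (by rw [Fintype.card_fin]; omega)
      exact ⟨S.trans (Equiv.swap (S 0) w).toEmbedding, by simp⟩
    haveI := hD.pretransitive_four
    obtain ⟨g, hg⟩ := exists_smul_eq G T S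
    exact ⟨g, by rw [← hT, ← hS, ← hg]; rfl⟩
  have hG := hD.card_group hnd0
  rw [← hldef, hn12, show Nat.descFactorial 12 4 = 12 * (11 * 10 * 9) from rfl] at hG
  have hXc : Nat.card X = 11 * 10 * 9 * l := by
    have h := PermLib.card_eq_mul_card_stabilizer (G := G) t₀
    rw [hG, Nat.card_eq_fintype_card (α := α), hn12, mul_assoc] at h
    exact (Nat.eq_of_mul_eq_mul_left (by norm_num) h).symm
  obtain ⟨r, hr1, hr2, hr3⟩ := exists_residue_of_prime_degree (G := X) (Ω := β) (by norm_num) hβ (by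
    rw [hXc]; omega)
  rw [hXc, mul_assoc 11 10, mul_assoc 11, Nat.mul_div_cancel_left _ (by norm_num)] at hr3
  exact kill_eleven hl4 hr1 hr2 hr3

end Data

end Cfsg.Agent.PermB.SemiregFour
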